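import Cfsg.Agent.SZS.Alg
import Cfsg.Agent.H81.Central

/-! Central extensions of Suzuki groups by a group of order at most two (for `lev0`). -/

set_option autoImplicit false

namespace Cfsg.Agent.SZS.L0

open Subgroup H13 H49 Function
open scoped commutatorElement

section Out
variable {Γ X : Type*} [Group Γ] [Group X] [Finite X] {π : Γ →* X}

theorem exists_ind (hs : Surjective π) (hk : π.ker = center Γ) (α : MulAut Γ) :
    ∃ β : MulAut X, ∀ x, β (π x) = π (α x) := by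
  have h1 : π.ker ≤ (π.comp α.toMonoidHom).ker := by
    intro x hx
    change α x ∈ π.ker
    rw [hk, mem_center_iff] at *
    intro g
    obtain ⟨g, rfl⟩ := α.surjective g
    rw [← map_mul, ← map_mul, hx]
  let β0 : X →* X := π.liftOfRightInverse _ (rightInverse_surjInv hs) ⟨_, h1⟩
  have h2 : ∀ x, β0 (π x) = π (α x) := fun x => π.liftOfRightInverse_comp_apply _ _ _ x
  have h3 : Surjective β0 := fun y => by
    obtain ⟨y, rfl⟩ := hs y
    exact ⟨π (α.symm y), by rw [h2]; simp⟩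
  exact ⟨MulEquiv.ofBijective β0 (Finite.surjective_iff_bijective.1 h3), h2⟩

/-- a `2`-automorphism of a perfect group whose central quotient has odd `Out` is inner -/
theorem inner_of_odd (hs : Surjective π) (hk : π.ker = center Γ) [Group.IsPerfect Γ]
    (ho : Odd (Nat.card (Out X))) (α : MulAut Γ) {n : ℕ} (hα : α ^ 2 ^ n = 1) :
    ∃ a, ∀ x, α x = a * x * a⁻¹ := by
  obtain ⟨β, hβ⟩ := exists_ind hs hk α
  have h1 : ∀ (k : ℕ) x, (β ^ k) (π x) = π ((α ^ k) x) := by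
    intro k
    induction k with
    | zero => simp
    | succ k ih => intro x; rw [pow_succ', pow_succ', MulAut.mul_apply, ih, hβ]; rfl
  have h2 : β ^ 2 ^ n = 1 := by
    ext y
    obtain ⟨y, rfl⟩ := hs y
    rw [h1, hα]; rfl
  have h3 : (QuotientGroup.mk β : Out X) = 1 := by
    have a1 : (QuotientGroup.mk β : Out X) ^ 2 ^ n = 1 := by
      rw [← QuotientGroup.mk_pow, h2]; rfl
    have a2 := pow_gcd_eq_one.2 ⟨a1, pow_card_eq_one'⟩
    rwa [Nat.Coprime.gcd_eq_one (Nat.Coprime.pow_left n (Nat.coprime_two_left.2 ho)),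
      pow_one] at a2
  obtain ⟨y, hy⟩ := (QuotientGroup.eq_one_iff β).1 h3
  obtain ⟨a, rfl⟩ := hs y
  refine ⟨a, fun x => ?_⟩
  refine H81.eq_on_commutator_of_lift (ξ := π) hk.le (φ := α.toMonoidHom)
    (ψ := (MulAut.conj a).toMonoidHom) ?_ Group.IsPerfect.mem_commutator
  ext x
  change π (α x) = π (a * x * a⁻¹)
  rw [← hβ, ← hy]; simp

end Out

section CE
variable {Γ X F : Type*} [Group Γ] [Group X] [Field F] [Tits F] [Finite F] {m : ℕ} {l : F}

theorem inv_form' (P : Par F m) (hl : ∀ a : F, a ≠ 0 → ∃ i : ℕ, l ^ i = a) {t : Γ}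
    (tt : t * t = 1) (c : F → F → Γ) (hv : ∀ a b, c a b = 1 ∨ c a b = t)
    (h1 : ∀ a a' b, c (a + a') b = c a b * c a' b) (h2 : ∀ a b b', c a (b + b') = c a b * c a b')
    (h : ∀ a b, c (l * a) (l * b) = c a b) (a b : F) : c a b = 1 := by
  classical
  by_cases ht : t = 1
  · exact (hv a b).elim id fun e => e.trans ht
  have key : ∀ x y : Γ, (x = 1 ∨ x = t) → (y = 1 ∨ y = t) →
      (if x * y = 1 then 0 else 1 : ZMod 2) =
        (if x = 1 then 0 else 1) + (if y = 1 then 0 else 1) := by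
    rintro x y (rfl | rfl) (rfl | rfl) <;> simp [ht, tt]
    rfl
  have := inv_form P hl (fun a b => if c a b = 1 then 0 else 1)
    (fun a a' b => by simp only [h1]; exact key _ _ (hv _ _) (hv _ _))
    (fun a b b' => by simp only [h2]; exact key _ _ (hv _ _) (hv _ _))
    (fun a b => by simp only [h]) a b
  by_contra hne
  simp [hne] at this

theorem cl (x x' y : Γ) : ⁅x * x', y⁆ = x * ⁅x', y⁆ * x⁻¹ * ⁅x, y⁆ := by
  simp only [commutatorElement_def]; group

theorem cr (x y y' : Γ) : ⁅x, y * y'⁆ = ⁅x, y⁆ * (y * ⁅x, y'⁆ * y⁻¹) := by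
  simp only [commutatorElement_def]; group

theorem cc (g x y : Γ) : ⁅g * x * g⁻¹, g * y * g⁻¹⁆ = g * ⁅x, y⁆ * g⁻¹ := by
  simp only [commutatorElement_def]; group

theorem cj_of {g x : Γ} (h : g * x = x * g) : g * x * g⁻¹ = x := by
  rw [h, mul_inv_cancel_right]

/-- a central extension with kernel inside `{1, t}` -/
structure CE (π : Γ →* X) (t : Γ) : Prop where
  surj : Surjective π
  cen : π.ker ≤ center Γ
  ker : ∀ x, π x = 1 → x = 1 ∨ x = t
  tt : t * t = 1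
  πt : π t = 1

namespace CE
variable {π : Γ →* X} {t : Γ} (E : CE π t) (M : Model X F)
include E

theorem comm {x : Γ} (hx : π x = 1) (g : Γ) : g * x = x * g := mem_center_iff.1 (E.cen hx) g

theorem cong {x y x' y' : Γ} (hx : π x = π x') (hy : π y = π y') : ⁅x, y⁆ = ⁅x', y'⁆ :=
  H81.commutatorElement_eq_of_map_eq E.cen hx hy

theorem exists_h (hl : l ≠ 0) : ∃ h : Γ, π h ∈ M.B ∧
    ∀ a b, π h * M.u a b * (π h)⁻¹ = M.u (l * a) (N l * b) := by
  obtain ⟨s, hs⟩ := θ_surj l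
  have h0 : s ≠ 0 := by rintro rfl; simp at hs; exact hl hs.symm
  obtain ⟨h, hh⟩ := E.surj (M.h (Units.mk0 s h0))
  refine ⟨h, hh ▸ M.h_mem_B _, fun a b => ?_⟩
  rw [hh, M.h_u_conj, Units.val_mk0, ← θθ, hs]; rfl

theorem zcomm (P : Par F m) (hl : ∀ a : F, a ≠ 0 → ∃ i : ℕ, l ^ i = a) {x y : Γ}
    (hx : π x ∈ M.Z) (hy : π y ∈ M.Z) : x * y = y * x := by
  obtain ⟨h, -, hh⟩ := E.exists_h M (gen_ne P hl).1
  choose lf hlf using E.surj
  have hz : ∀ a b, π ⁅lf (M.u 0 a), lf (M.u 0 b)⁆ = 1 := fun a b => by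
    rw [map_commutatorElement, hlf, hlf, M.commutatorElement_u]; simp
  have hm : ∀ a b, π (lf (M.u 0 (a + b))) = π (lf (M.u 0 a) * lf (M.u 0 b)) := fun a b => by
    rw [map_mul, hlf, hlf, hlf, M.u_mul_u]; simp
  have hc : ∀ a, π (lf (M.u 0 (N l * a))) = π (h * lf (M.u 0 a) * h⁻¹) := fun a => by
    rw [map_mul, map_mul, map_inv, hlf, hlf, hh, mul_zero]
  have := inv_form' P (gen_N hl) E.tt (fun a b => ⁅lf (M.u 0 a), lf (M.u 0 b)⁆)
    (fun a b => E.ker _ (hz a b))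
    (fun a a' b => by
      rw [E.cong (hm a a') rfl, cl, cj_of (E.comm (hz _ _) _), E.comm (hz _ _)])
    (fun a b b' => by rw [E.cong rfl (hm b b'), cr, cj_of (E.comm (hz _ _) _)])
    (fun a b => by rw [E.cong (hc a) (hc b), cc, cj_of (E.comm (hz _ _) _)])
  obtain ⟨a, ha⟩ := hx
  obtain ⟨b, hb⟩ := hy
  rw [← commutatorElement_eq_one_iff_mul_comm, E.cong (ha.trans (hlf _).symm)
    (hb.trans (hlf _).symm)]
  exact this a b

theorem zcent {x0 : Γ} (h0 : π x0 ∈ M.Z) (h1 : π x0 ≠ 1) (hc : ∀ y, π y ∈ M.U → x0 * y = y * x0)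
    {x y : Γ} (hx : π x ∈ M.Z) (hy : π y ∈ M.U) : x * y = y * x := by
  obtain ⟨b0, hb0⟩ := h0
  obtain ⟨b, hb⟩ := hx
  by_cases hb1 : b = 0
  · exact (E.comm (by rw [hb, hb1, M.u_zero]) y).symm
  have h2 : b0 ≠ 0 := by rintro rfl; exact h1 (by rw [hb0, M.u_zero])
  obtain ⟨l, hl⟩ := N_surj (b / b0)
  have hl0 : l ≠ 0 := by
    rintro rfl
    exact div_ne_zero hb1 h2 (by rw [← hl, N_zero])
  obtain ⟨h, hB, hh⟩ := E.exists_h M hl0
  have h3 : π x = π (h * x0 * h⁻¹) := by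
    rw [map_mul, map_mul, map_inv, hb0, hh, hb, hl, mul_zero, div_mul_cancel₀ _ h2]
  have h4 : π (h⁻¹ * y * h⁻¹⁻¹) ∈ M.U := by
    rw [map_mul, map_mul, map_inv π h⁻¹]
    exact M.conj_mem_U (by rw [map_inv]; exact inv_mem hB) hy
  rw [← commutatorElement_eq_one_iff_mul_comm, E.cong h3 rfl,
    show y = h * (h⁻¹ * y * h⁻¹⁻¹) * h⁻¹ by group, cc,
    commutatorElement_eq_one_iff_mul_comm.2 (hc _ h4)]
  simp

theorem split [Finite Γ] [Group.IsPerfect Γ] (P : Par F m)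
    (hl : ∀ a : F, a ≠ 0 → ∃ i : ℕ, l ^ i = a)
    (zc : ∀ {x y : Γ}, π x ∈ M.Z → π y ∈ M.U → x * y = y * x) : t = 1 := by
  obtain ⟨h, -, hh⟩ := E.exists_h M (gen_ne P hl).1
  have hμ : N l + 1 ≠ 0 := fun e => (gen_ne P (gen_N hl)).2 (by grind)
  choose lf hlf using E.surj
  have lU : ∀ a b, π (lf (M.u a b)) ∈ M.U := fun a b => by rw [hlf]; exact M.u_mem_U a b
  -- an equivariant homomorphic lift of `Z`
  obtain ⟨z, hz, zm, zh⟩ : ∃ z : F → Γ, (∀ b, π (z b) = M.u 0 b) ∧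
      (∀ b b', z (b + b') = z b * z b') ∧ ∀ b, z (N l * b) = h * z b * h⁻¹ := by
    have a1 : ∀ b, π ⁅h, lf (M.u 0 (b / (N l + 1)))⁆ = M.u 0 b := fun b => by
      rw [map_commutatorElement, commutatorElement_def, hlf, hh, M.u_inv, M.u_mul_u]
      congr 1
      · simp
      · simp only [map_zero, mul_zero, add_zero]; field_simp
    refine ⟨fun b => ⁅h, lf (M.u 0 (b / (N l + 1)))⁆, a1, fun b b' => ?_, fun b => ?_⟩
    · beta_reduce
      rw [E.cong (x := h) (y := lf (M.u 0 ((b + b') / (N l + 1))))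
        (y' := lf (M.u 0 (b / (N l + 1))) * lf (M.u 0 (b' / (N l + 1)))) rfl
        (by rw [map_mul, hlf, hlf, hlf, M.u_mul_u, add_div]; simp), cr,
        cj_of (zc (by rw [a1]; exact M.u_mem_Z _) (lU _ _)).symm]
    · beta_reduce
      rw [← cc, mul_inv_cancel_right]
      refine E.cong rfl ?_
      rw [map_mul, map_mul, map_inv, hlf, hlf, hh, mul_zero, mul_div_assoc]
  have zZ : ∀ b, π (z b) ∈ M.Z := fun b => by rw [hz]; exact M.u_mem_Z b
  have z0 : z 0 = 1 := by simpa using zm 0 0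
  -- the commutator map
  have kc : ∀ {x y a b c d}, π x = M.u a b → π y = M.u c d →
      ⁅x, y⁆ = ⁅lf (M.u a 0), lf (M.u c 0)⁆ := by
    intro x y a b c d hx hy
    rw [E.cong (x' := lf (M.u a 0) * z b) (y' := lf (M.u c 0) * z d)
      (by rw [hx, map_mul, hlf, hz, M.u_mul_u]; simp)
      (by rw [hy, map_mul, hlf, hz, M.u_mul_u]; simp), cl, cr (lf _),
      commutatorElement_eq_one_iff_mul_comm.2 (zc (zZ b)
        (by rw [map_mul]; exact mul_mem (lU _ _) (M.Z_le_U (zZ d)))),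
      commutatorElement_eq_one_iff_mul_comm.2 (zc (zZ d) (lU _ _)).symm]
    simp
  have kπ : ∀ a c, π ⁅lf (M.u a 0), lf (M.u c 0)⁆ = M.u 0 (cm a c) := fun a c => by
    rw [map_commutatorElement, hlf, hlf, M.commutatorElement_u]; rfl
  have kZ : ∀ a c, π ⁅lf (M.u a 0), lf (M.u c 0)⁆ ∈ M.Z := fun a c => by
    rw [kπ]; exact M.u_mem_Z _
  have c1 : ∀ a c, π (⁅lf (M.u a 0), lf (M.u c 0)⁆ * z (cm a c)) = 1 := fun a c => by
    rw [map_mul, kπ, hz, M.u_mul_u, M.u_eq_one]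
    constructor <;> grind
  have um : ∀ a a', π (lf (M.u a 0) * lf (M.u a' 0)) = M.u (a + a') (0 + 0 + θ a * a') :=
    fun a a' => by rw [map_mul, hlf, hlf, M.u_mul_u]
  have uh : ∀ a, π (h * lf (M.u a 0) * h⁻¹) = M.u (l * a) (N l * 0) :=
    fun a => by rw [map_mul, map_mul, map_inv, hlf, hh]
  have sw : ∀ k k' b b', π k' ∈ M.Z → k * k' * (z b * z b') = k * z b * (k' * z b') :=
    fun k k' b b' hk => by
      rw [mul_assoc, ← mul_assoc k', zc hk (M.Z_le_U (zZ b))]; simp only [mul_assoc]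
  have key := inv_form' P hl E.tt (fun a c => ⁅lf (M.u a 0), lf (M.u c 0)⁆ * z (cm a c))
    (fun a b => E.ker _ (c1 a b))
    (fun a a' b => by
      rw [← kc (um a a') (hlf _), cl, cj_of (zc (kZ _ _) (lU _ _)).symm,
        zc (kZ a' b) (M.Z_le_U (kZ a b)), cm_add_left, zm, sw _ _ _ _ (kZ _ _)])
    (fun a b b' => by
      rw [← kc (hlf _) (um b b'), cr, cj_of (zc (kZ _ _) (lU _ _)).symm, cm_add_right, zm,
        sw _ _ _ _ (kZ _ _)])
    (fun a b => by
      rw [← kc (uh a) (uh b), cc, cm_mul, zh, ← cj_of (E.comm (c1 a b) h)]; group)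
  -- transfer
  let W : Subgroup Γ := (MonoidHom.mk' (fun b : Multiplicative F => z b.toAdd)
    (fun a b => zm _ _)).range
  let Q : Subgroup Γ := M.U.comap π
  have hW : commutator Q ≤ W.subgroupOf Q := by
    rw [_root_.commutator_def, commutator_le]
    rintro ⟨x, a, b, hx⟩ - ⟨y, c, d, hy⟩ -
    change ⁅x, y⁆ ∈ W
    rw [kc hx hy, eq_inv_of_mul_eq_one_left (key a c)]
    exact inv_mem ⟨Multiplicative.ofAdd _, rfl⟩
  have ho : Odd Q.index := by rw [index_comap_of_surjective _ E.surj]; exact M.odd_index_U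
  have t1 := MonoidHom.transfer_eq_pow (Abelianization.of : Q →* Abelianization Q) t
    (fun k g _ => by rw [E.comm (x := t ^ k) (by rw [map_pow, E.πt, one_pow])]; simp)
  rw [MonoidHom.mem_ker.1 (Abelianization.commutator_subset_ker _
    Group.IsPerfect.mem_commutator), eq_comm, ← MonoidHom.mem_ker, Abelianization.ker_of] at t1
  obtain ⟨b, hb⟩ := hW t1
  obtain ⟨n, hn⟩ := ho
  have t2 : z b.toAdd = t := by
    refine hb.trans ?_
    change t ^ Q.index = t
    rw [hn, pow_succ, pow_mul, sq, E.tt, one_pow, one_mul]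
  have t3 := hz b.toAdd
  rw [t2, E.πt, eq_comm, M.u_eq_one] at t3
  rw [← t2, t3.2, z0]

end CE

end CE

end Cfsg.Agent.SZS.L0
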