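import Cfsg.Agent.SZS.Alg

/-! Standard Suzuki subgroups: first facts on the frame. -/

set_option autoImplicit false

namespace Cfsg.Agent.SZS

open Subgroup H13 H49

section Gen
variable {G : Type*} [Group G]

theorem mem_zp2 {t x : G} (h : t * t = 1) : x ∈ zpowers t ↔ x = 1 ∨ x = t := by
  constructor
  · rintro ⟨n, rfl⟩
    have h2 : t ^ (2 : ℤ) = 1 := by rw [zpow_two, h]
    rcases Int.even_or_odd' n with ⟨k, rfl | rfl⟩
    · left; simp [zpow_mul, h2]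
    · right; simp [zpow_add, zpow_mul, h2]
  · rintro (rfl | rfl)
    exacts [one_mem _, mem_zpowers _]

theorem pi2 [Finite G] {B : Subgroup G} (h : IsPGroup 2 B) : IsPi {2} B :=
  isPi_of_isPGroup Nat.prime_two h

theorem pg_of_pow {B : Subgroup G} {n : ℕ} (h : ∀ x ∈ B, x ^ 2 ^ n = 1) : IsPGroup 2 B :=
  fun x => ⟨n, Subtype.ext (h x x.2)⟩

theorem pow_of_pg {B : Subgroup G} (h : IsPGroup 2 B) {x : G} (hx : x ∈ B) :
    ∃ n, x ^ 2 ^ n = 1 := by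
  obtain ⟨n, hn⟩ := h ⟨x, hx⟩
  exact ⟨n, congrArg Subtype.val hn⟩

theorem pg_zp {g : G} {k : ℕ} (hk : g ^ 2 ^ k = 1) : IsPGroup 2 (zpowers g) :=
  pg_of_pow (n := k) (by
    rintro _ ⟨n, rfl⟩
    rw [← zpow_natCast, ← zpow_mul, mul_comm, zpow_mul, zpow_natCast, hk, one_zpow])

theorem cm_norm {X : Subgroup G} {g x : G} (hg : g ∈ 𝒩(X)) (hx : x ∈ X) : g * x * g⁻¹ ∈ X :=
  conj_mem_of_norm le_rfl hg hx

theorem cm_norm' {X : Subgroup G} {g x : G} (hg : g ∈ 𝒩(X)) (hx : x ∈ X) : g⁻¹ * x * g ∈ X :=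
  conj_mem_of_norm' le_rfl hg hx

theorem norm_of_conj [Finite G] {X : Subgroup G} {g : G} (h : ∀ x ∈ X, g * x * g⁻¹ ∈ X) :
    g ∈ 𝒩(X) := mem_norm_of_cj_le fun y hy => by
  obtain ⟨x, hx, rfl⟩ := mem_cj'.1 hy
  exact h x hx

theorem mem_cent {X : Subgroup G} {g : G} : g ∈ 𝒞(X) ↔ ∀ x ∈ X, x * g = g * x :=
  mem_centralizer_iff

/-- an odd power of an element with the `2`-part removed -/
theorem exists_odd_part [Finite G] (g : G) {r : ℕ} (hr : Odd r) :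
    ∃ e : ℕ, Odd (orderOf (g ^ e)) ∧ e % r = 1 % r := by
  obtain ⟨a, b, hb, e⟩ := Nat.exists_eq_two_pow_mul_odd (orderOf_pos g).ne'
  have hc : (2 ^ a).Coprime r := (Nat.coprime_two_left.2 hr).pow_left a
  obtain ⟨k, h1, h2⟩ := Nat.chineseRemainder hc 0 1
  refine ⟨k, ?_, h2⟩
  obtain ⟨d, rfl⟩ := (Nat.modEq_zero_iff_dvd).1 h1
  refine hb.of_dvd_nat (orderOf_dvd_of_pow_eq_one ?_)
  rw [← pow_mul, mul_right_comm, ← e, pow_mul, pow_orderOf_eq_one, one_pow]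

end Gen

namespace Ctx

variable {G F : Type*} [Group G] [Finite G] [Field F] [Tits F] [Finite F] (c : Ctx G F)

omit [Finite G] [Finite F] in
theorem t_norm_Q : zpowers c.t ≤ 𝒩(c.Q) :=
  norm_of_cent (zpowers_le.2 (mem_cent.2 fun x hx => (c.tc x (c.Q_le_A hx)).symm))

omit [Finite G] [Finite F] in
theorem mem_T {x : G} : x ∈ c.T ↔ ∃ a b, x = c.u a b ∨ x = c.u a b * c.t := by
  rw [T, mem_sup_of_norm_left c.t_norm_Q]
  constructor
  · rintro ⟨y, hy, w, hw, rfl⟩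
    obtain ⟨a, b, rfl⟩ := c.mem_Q.1 hy
    rcases (mem_zp2 c.tt).1 hw with rfl | rfl
    exacts [⟨a, b, Or.inl (mul_one _)⟩, ⟨a, b, Or.inr rfl⟩]
  · rintro ⟨a, b, rfl | rfl⟩
    exacts [⟨_, c.u_mem_Q a b, 1, one_mem _, (mul_one _).symm⟩,
      ⟨_, c.u_mem_Q a b, _, mem_zpowers _, rfl⟩]

omit [Finite F] in
theorem two_T : IsPGroup 2 c.T := c.sylT.pi.isPGroup Nat.prime_two

omit [Finite G] in
theorem card_Z : Nat.card c.Z = Nat.card F := by rw [Z, card_subtype, c.M.card_Z]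

omit [Finite G] in
theorem card_Q : Nat.card c.Q = Nat.card F ^ 2 := by rw [Q, card_subtype, c.M.card_U]

omit [Finite G] [Finite F] in
theorem order_t : orderOf c.t = 2 := orderOf_eq_prime (by rw [sq, c.tt]) c.t_ne_one

omit [Finite G] in
theorem card_T : Nat.card c.T = 2 * Nat.card F ^ 2 := by
  rw [T, card_sup_of_disjoint (Or.inr c.t_norm_Q), card_Q, Nat.card_zpowers, order_t, mul_comm]
  rw [eq_bot_iff]
  rintro x ⟨h1, h2⟩
  rcases (mem_zp2 c.tt).1 h2 with rfl | rfl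
  exacts [one_mem _, absurd (c.Q_le_A h1) c.tA]

omit [Finite G] [Finite F] in
theorem ut_sq (a b : F) : c.u a b * c.t * (c.u a b * c.t) = c.z (N a) := by
  rw [mul_assoc, ← mul_assoc c.t, c.t_u, mul_assoc, c.tt, mul_one, u_sq]

omit [Finite G] [Finite F] in
theorem sq_T {x : G} (hx : x ∈ c.T) : x * x ∈ c.Z := by
  obtain ⟨a, b, rfl | rfl⟩ := c.mem_T.1 hx
  · rw [u_sq]; exact c.z_mem_Z _
  · rw [ut_sq]; exact c.z_mem_Z _

omit [Finite G] [Finite F] in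
theorem T_inf_A {x : G} (hx : x ∈ c.T) (hA : x ∈ c.A) : x ∈ c.Q := by
  obtain ⟨a, b, rfl | rfl⟩ := c.mem_T.1 hx
  · exact c.u_mem_Q a b
  · exact absurd ((mul_mem_cancel_left (c.u_mem_A a b)).1 hA) c.tA

omit [Finite F] in
theorem T_max {B : Subgroup G} (hB : IsPGroup 2 B) (hT : c.T ≤ B) {x : G} (hx : x ∈ B)
    (h : x * c.t = c.t * x) : x ∈ c.T := by
  rw [c.sylT.eq_of_le (le_inf hT c.sylT.le) inf_le_right ((pi2 hB).inf_left _)]
  exact ⟨hx, mem_cent1.2 h⟩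

omit [Finite F] in
theorem two_sub {B : Subgroup G} (hB : IsPGroup 2 B) {g : G} (h : B ≤ 𝒞[g * c.t * g⁻¹]) :
    ∃ k : G, cj k B ≤ c.T ∧ k * (g * c.t * g⁻¹) * k⁻¹ = c.t := by
  obtain ⟨n, hn, h1⟩ := sylowOf_subJ c.sylT (X := cj g⁻¹ B)
    (by rw [cj_le_iff, inv_inv, cj_cent1]; exact h) ((pi2 hB).cj _)
  refine ⟨n * g⁻¹, by rwa [cj_mul], ?_⟩
  rw [mem_cent1] at hn
  calc _ = n * c.t * n⁻¹ := by group
    _ = c.t := by rw [hn, mul_inv_cancel_right]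

theorem card_le_of_cent {B : Subgroup G} (hB : IsPGroup 2 B) {g : G} (h : B ≤ 𝒞[g * c.t * g⁻¹]) :
    Nat.card B ≤ 2 * Nat.card F ^ 2 := by
  obtain ⟨k, hk, -⟩ := c.two_sub hB h
  rw [← c.card_T, ← card_cj k B]
  exact card_le_of_le hk

omit [Finite G] [Finite F] in
theorem invol_T {x : G} (hx : x ∈ c.T) (h : x * x = 1) : ∃ b, x = c.z b ∨ x = c.z b * c.t := by
  obtain ⟨a, b, rfl | rfl⟩ := c.mem_T.1 hx
  · rw [u_sq, z_eq_one, N_eq_zero] at h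
    subst h; exact ⟨b, Or.inl rfl⟩
  · rw [ut_sq, z_eq_one, N_eq_zero] at h
    subst h; exact ⟨b, Or.inr rfl⟩

theorem elem_le_of_cent {B : Subgroup G} (hB : ∀ x ∈ B, x * x = 1) {g : G}
    (h : B ≤ 𝒞[g * c.t * g⁻¹]) : Nat.card B ≤ 2 * Nat.card F := by
  obtain ⟨k, hk, -⟩ := c.two_sub (pg_of_pow (n := 1) fun x hx => by rw [pow_one, sq, hB x hx]) h
  have h1 : cj k B ≤ c.Z ⊔ zpowers c.t := fun x hx => by
    have h2 : x * x = 1 := by
      obtain ⟨y, hy, rfl⟩ := mem_cj'.1 hx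
      rw [conj_mul, hB y hy]; simp
    obtain ⟨b, rfl | rfl⟩ := c.invol_T (hk hx) h2
    exacts [mem_sup_left (c.z_mem_Z b), mul_mem_sup (c.z_mem_Z b) (mem_zpowers _)]
  have h2 := card_sup_dvd (H := c.Z) (K := zpowers c.t) (Or.inr (norm_of_cent (zpowers_le.2
    (mem_cent.2 fun x hx => (c.tc x (c.Q_le_A (c.Z_le_Q hx))).symm))))
  rw [card_Z, Nat.card_zpowers, order_t, mul_comm] at h2
  rw [← card_cj k B]
  exact (card_le_of_le h1).trans (Nat.le_of_dvd (Nat.mul_pos two_pos Nat.card_pos) h2)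

omit [Finite G] [Finite F] in
theorem co_T {x : G} (hx : x ∈ c.T) :
    ∃ a b, x * x = c.z (N a) ∧ ∃ e : G, x = c.u a b * e ∧ ∀ y ∈ c.T, e * y = y * e := by
  obtain ⟨a, b, rfl | rfl⟩ := c.mem_T.1 hx
  · exact ⟨a, b, c.u_sq a b, 1, (mul_one _).symm, by simp⟩
  · exact ⟨a, b, c.ut_sq a b, c.t, rfl, fun y hy => (mem_cent1.1 (c.sylT.le hy)).symm⟩

omit [Finite F] in
/-- commuting elements of order dividing four in the centralizer of a conjugate of `t` -/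
theorem TC {g x y : G} (hx : x * (g * c.t * g⁻¹) = g * c.t * g⁻¹ * x)
    (hy : y * (g * c.t * g⁻¹) = g * c.t * g⁻¹ * y) (hxy : x * y = y * x) (x4 : x * x * (x * x) = 1)
    (y4 : y * y * (y * y) = 1) : x * x = 1 ∨ y * y = 1 ∨ x * x = y * y := by
  have p4 : ∀ {w : G}, w * w * (w * w) = 1 → IsPGroup 2 (zpowers w) := fun h =>
    pg_zp (k := 2) (by simpa [pow_succ, mul_assoc] using h)
  have hB : IsPGroup 2 ↥(zpowers x ⊔ zpowers y) :=
    ((pi2 (p4 x4)).sup (pi2 (p4 y4)) (Or.inl (norm_of_cent (zpowers_le.2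
      (by rw [cent_zpowers, mem_cent1]; exact hxy))))).isPGroup Nat.prime_two
  obtain ⟨k, hk, -⟩ := c.two_sub hB (g := g)
    (sup_le (zpowers_le.2 (mem_cent1.2 hx)) (zpowers_le.2 (mem_cent1.2 hy)))
  have h1 : k * x * k⁻¹ ∈ c.T := hk (conj_mem_cj.2 (mem_sup_left (mem_zpowers _)))
  have h2 : k * y * k⁻¹ ∈ c.T := hk (conj_mem_cj.2 (mem_sup_right (mem_zpowers _)))
  obtain ⟨a, b, s1, e, e1, e2⟩ := c.co_T h1
  obtain ⟨a', b', s2, e', e3, e4⟩ := c.co_T h2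
  have h3 : c.u a b * c.u a' b' = c.u a' b' * c.u a b := by
    have h4 : k * x * k⁻¹ * (k * y * k⁻¹) = k * y * k⁻¹ * (k * x * k⁻¹) := by
      rw [conj_mul, conj_mul, hxy]
    have h5 := e2 _ h2
    have h6 := e4 _ (c.Q_le_T (c.u_mem_Q a b))
    generalize k * y * k⁻¹ = y' at h4 h5 e3
    rw [e1, mul_assoc, h5, ← mul_assoc, ← mul_assoc, mul_left_inj, e3, mul_assoc, h6,
      ← mul_assoc, ← mul_assoc, mul_left_inj] at h4
    exact h4
  rw [conj_mul] at s1 s2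
  rcases cm_eq_zero (c.u_comm_iff.1 h3) with rfl | rfl | rfl
  · left; simpa using s1
  · right; left; simpa using s2
  · right; right; simpa using s1.trans s2.symm

omit [Finite G] [Finite F] in
theorem Z_cent_T : c.T ≤ 𝒞(c.Z) := fun x hx => mem_cent.2 fun y hy => by
  obtain ⟨d, rfl⟩ := c.mem_Z.1 hy
  obtain ⟨a, b, rfl | rfl⟩ := c.mem_T.1 hx
  · exact c.z_u_comm a b d
  · rw [← mul_assoc, c.z_u_comm, mul_assoc, ← c.t_z, mul_assoc]

theorem t_not_Z (g : G) : g * c.t * g⁻¹ ∉ c.Z := by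
  intro h
  obtain ⟨k, hk, e⟩ := c.two_sub c.two_T (g := g) (c.Z_cent_T.trans (cent_le_cent1 h))
  obtain ⟨b, hb⟩ := c.mem_Z.1 h
  obtain ⟨a, rfl⟩ := N_surj b
  have h1 := c.sq_T (hk (conj_mem_cj.2 (c.Q_le_T (c.u_mem_Q a 0))))
  rw [conj_mul, u_sq, ← hb, e] at h1
  exact c.tA (c.Q_le_A (c.Z_le_Q h1))

omit [Finite G] [Finite F] in
theorem mem_Q_of_comm {a x : G} (ha : a ∈ c.A) (hx : x ∈ c.Q) (h1 : x ≠ 1) (h : a * x = x * a) :
    a ∈ c.Q := by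
  obtain ⟨y, hy, rfl⟩ := hx
  exact ⟨⟨a, ha⟩, c.M.mem_U_of_commute hy (fun e => h1 (by simp [e])) (Subtype.ext h), rfl⟩

omit [Finite F] in
theorem two_elt {g : G} (hg : g * c.t = c.t * g) {k : ℕ} (hk : g ^ 2 ^ k = 1) :
    g ∈ c.A ∨ g * c.t ∈ c.A := by
  obtain ⟨n, hn, h1⟩ := sylowOf_subJ c.sylT (zpowers_le.2 (mem_cent1.2 hg)) (pi2 (pg_zp hk))
  have hA := c.CN hn
  obtain ⟨a, b, e | e⟩ := c.mem_T.1 (h1 (conj_mem_cj.2 (mem_zpowers g)))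
  · left
    simpa [← e, mul_assoc] using cm_norm' hA (c.u_mem_A a b)
  · right
    have h2 := cm_norm' hA (c.u_mem_A a b)
    rw [show c.u a b = n * g * n⁻¹ * c.t by rw [e, mul_assoc, c.tt, mul_one]] at h2
    rwa [show n⁻¹ * (n * g * n⁻¹ * c.t) * n = g * (n⁻¹ * (c.t * n)) by group,
      ← mem_cent1.1 hn, inv_mul_cancel_left] at h2

omit [Finite F] in
theorem norm_Q_of {P : Subgroup G} (hP : IsPGroup 2 P) (hT : c.T ≤ P) {g : G} (hg : g ∈ 𝒩(P))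
    (ht : g * c.t = c.t * g) : g ∈ 𝒩(c.Q) := norm_of_conj fun x hx => by
  have h1 : g * x * g⁻¹ ∈ c.A := cm_norm (c.CN (mem_cent1.2 ht)) (c.Q_le_A hx)
  exact c.T_inf_A (c.T_max hP hT (cm_norm hg (hT (c.Q_le_T hx))) (c.tc _ h1).symm) h1

theorem norm_Q_le : 𝒩(c.Q) ≤ 𝒩(c.Z) := fun g hg => norm_of_conj fun x hx => by
  obtain ⟨b, rfl⟩ := c.mem_Z.1 hx
  obtain ⟨a, rfl⟩ := N_surj b
  obtain ⟨a', b', e⟩ := c.mem_Q.1 (cm_norm hg (c.u_mem_Q a 0))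
  rw [← c.u_sq a 0, ← conj_mul, e, u_sq]
  exact c.z_mem_Z _

omit [Finite G] in
theorem odd_pred : Odd (Nat.card F - 1) := Nat.Even.sub_odd Nat.card_pos even_card odd_one

omit [Finite G] in
theorem l_ne : c.l ≠ 0 ∧ c.l ≠ 1 := gen_ne c.par c.gen

omit [Finite G] in
theorem Nl_ne : N c.l ≠ 0 ∧ N c.l ≠ 1 := gen_ne c.par (gen_N c.gen)

theorem exists_tor : ∃ h, c.Tor h := by
  have h0 : ψ c.l ≠ 0 := by simpa using c.l_ne.1
  have key : ∀ a b, (c.M.h (Units.mk0 _ h0) : G) * c.u a b * (c.M.h (Units.mk0 _ h0) : G)⁻¹ =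
      c.u (c.l * a) (N c.l * b) := fun a b => by
    simp only [u, ← Subgroup.coe_mul, ← Subgroup.coe_inv, Model.h_u_conj, Units.val_mk0, θ_ψ]
    rw [← θθ, θ_ψ, N]
  refine ⟨c.M.h (Units.mk0 _ h0), ?_, (c.tc _ (c.M.h _).2).symm, norm_of_conj fun x hx => ?_,
    fun b => by rw [z, key, mul_zero, z]⟩
  · refine (odd_pred (F := F)).of_dvd_nat (orderOf_dvd_of_pow_eq_one ?_)
    rw [← Subgroup.coe_pow, ← Model.h_pow, ← Nat.card_units, pow_card_eq_one', Model.h_one]; rfl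
  · obtain ⟨a, b, rfl⟩ := c.mem_Q.1 hx
    rw [key]; exact c.u_mem_Q _ _

variable {c}

omit [Finite G] [Finite F] in
theorem Tor.hu {h : G} (H : c.Tor h) (a b : F) :
    ∃ b', h * c.u a b * h⁻¹ = c.u (c.l * a) b' := by
  obtain ⟨a', b', e⟩ := c.mem_Q.1 (cm_norm H.hQ (c.u_mem_Q a b))
  have h1 : c.z (N a') = c.z (N (c.l * a)) := by
    rw [← c.u_sq a' b', ← e, conj_mul, u_sq, H.hz, N_mul]
  exact ⟨b', by rw [e, N_inj (c.z_inj.1 h1)]⟩

omit [Finite G] [Finite F] in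
theorem Tor.pow_z {h : G} (H : c.Tor h) (i : ℕ) (b : F) :
    h ^ i * c.z b * (h ^ i)⁻¹ = c.z (N c.l ^ i * b) := by
  induction i with
  | zero => simp
  | succ i ih =>
    rw [pow_succ', pow_succ', mul_assoc (N c.l), ← H.hz, ← ih]; group

omit [Finite G] [Finite F] in
theorem Tor.pow_u {h : G} (H : c.Tor h) (i : ℕ) (a b : F) :
    ∃ b', h ^ i * c.u a b * (h ^ i)⁻¹ = c.u (c.l ^ i * a) b' := by
  induction i with
  | zero => exact ⟨b, by simp⟩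
  | succ i ih =>
    obtain ⟨b1, e1⟩ := ih
    obtain ⟨b2, e2⟩ := H.hu (c.l ^ i * a) b1
    exact ⟨b2, by rw [pow_succ', pow_succ', mul_assoc c.l, ← e2, ← e1]; group⟩

theorem Tor.st0 {h : G} (H : c.Tor h) : c.St 0 c.Z h where
  tor := H
  hY := c.norm_Q_le H.hQ
  ZY := le_rfl
  comm x hx y hy := (mem_cent.1 (c.Z_cent_T (c.Q_le_T (c.Z_le_Q hy))) x hx)
  cQ y hy a b := (mem_cent.1 (c.Z_cent_T (c.Q_le_T (c.u_mem_Q a b))) y hy).symm
  inv y hy := by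
    obtain ⟨b, rfl⟩ := c.mem_Z.1 hy
    rw [t_z, mul_assoc, c.tt, mul_one, z_inv]
  om y hy _ := hy
  pw y hy := by simpa using hy
  ker y _ e := ⟨1, one_mem _, by simpa using e⟩
  sur b := ⟨_, c.z_mem_Z b, by simp⟩

variable (c)

omit [Finite F] in
/-- a `2`-group above `T` which is not Sylow: some `2`-element of its normalizer moves the class
of `t` -/
theorem exists_mover {P : Subgroup G} (hP : IsPGroup 2 P) (hT : c.T ≤ P)
    (h : ¬ IsSylowOf 2 P ⊤) : ∃ g ∈ 𝒩(P), (∃ k, g ^ 2 ^ k = 1) ∧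
      ∀ p ∈ P, g * c.t * g⁻¹ ≠ p * c.t * p⁻¹ := by
  obtain ⟨S, hS, hPS⟩ := exists_sylowOf_ge (pi2 hP) (le_top (a := P))
  have hlt : P < S := lt_of_le_of_ne hPS fun e => h (e ▸ hS)
  obtain ⟨g, ⟨hg1, hg2⟩, hg3⟩ := SetLike.exists_of_lt (lt_inf_norm_of_nilpotent hS.pi.nilpotent hlt)
  have hS2 := hS.pi.isPGroup Nat.prime_two
  refine ⟨g, hg2, pow_of_pg hS2 hg1, fun p hp e => hg3 ?_⟩
  have h1 : p⁻¹ * g ∈ c.T := c.T_max hS2 (hT.trans hPS) (mul_mem (inv_mem (hPS hp)) hg1) (by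
    calc _ = p⁻¹ * (g * c.t * g⁻¹) * g := by group
      _ = _ := by rw [e]; group)
  simpa using mul_mem hp (hT h1)

omit [Finite F] in
theorem principle {P : Subgroup G} (hP : IsPGroup 2 P) (hT : c.T ≤ P)
    (h : ∀ g ∈ 𝒩(P), ∃ p ∈ P, g * c.t * g⁻¹ = p * c.t * p⁻¹) : IsSylowOf 2 P ⊤ := by
  by_contra hn
  obtain ⟨g, hg, -, h1⟩ := c.exists_mover hP hT hn
  obtain ⟨p, hp, e⟩ := h g hg
  exact h1 p hp e

end Ctx

end Cfsg.Agent.SZS
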