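import Cfsg.Agent.SZS.Defs
import Cfsg.Agent.H13.SzAutS

/-! Field lemmas for the Suzuki frame. -/

set_option autoImplicit false
set_option linter.unusedSectionVars false

namespace Cfsg.Agent.SZS

open H13 Finset

variable {F : Type*} [Field F] [Tits F]

theorem θ_div_eq {a x : F} (ha : a ≠ 0) (h : θ a * x = θ x * a) : x = 0 ∨ x = a :=
  (θ_eq_self (s := x / a) (by rw [map_div₀, div_eq_div_iff (θ_ne_zero ha) ha, ← h, mul_comm])).imp
    (fun e => by simpa [ha] using e) fun e => (div_eq_one_iff_eq ha).1 e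

theorem cm_eq_zero {a x : F} (h : cm a x = 0) : a = 0 ∨ x = 0 ∨ x = a :=
  or_iff_not_imp_left.2 fun ha => θ_div_eq ha (CharTwo.add_eq_zero.1 h)

theorem N_ne_cm {a : F} (ha : a ≠ 0) (x : F) : N a ≠ cm a x := fun h => by
  obtain ⟨r, rfl⟩ : ∃ r, x = a * r := ⟨x / a, by field_simp⟩
  have e : r + θ r = 1 := mul_left_cancel₀ (mul_ne_zero (θ_ne_zero ha) ha) (by
    simp only [N, cm, map_mul] at h; linear_combination -h)
  have e' := congrArg θ e
  rw [map_add, θθ, map_one] at e'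
  have h2 : (2 : F) = 0 := two_eq_zero'
  rcases mul_eq_zero.1 (show r * (r - 1) = 0 by linear_combination e' - e) with c | c
  · simp [c] at e
  · rw [sub_eq_zero.1 c, map_one] at e
    exact one_ne_zero (by linear_combination h2 - e : (1 : F) = 0)

theorem ded3 {g g1 g2 g3 : F →+* F} {c1 c2 c3 : F} (h : ∀ x, g x = c1 * g1 x + c2 * g2 x + c3 * g3 x) :
    (∀ x, g x = g1 x) ∨ (∀ x, g x = g2 x) ∨ ∀ x, g x = g3 x := by
  by_contra c
  refine (linearIndependent_monoidHom F F).notMem_span_image (x := (g : F →* F))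
    (s := {(g1 : F →* F), (g2 : F →* F), (g3 : F →* F)}) (fun e => c ?_) ?_
  · rcases e with e | e | e
    exacts [Or.inl fun x => DFunLike.congr_fun (F := F →* F) e x,
      Or.inr (Or.inl fun x => DFunLike.congr_fun (F := F →* F) e x),
      Or.inr (Or.inr fun x => DFunLike.congr_fun (F := F →* F) e x)]
  · rw [show ((g : F →* F) : F → F) = c1 • ((g1 : F →* F) : F → F) + c2 • ((g2 : F →* F) : F → F) +
      c3 • ((g3 : F →* F) : F → F) from funext h]
    refine add_mem (add_mem ?_ ?_) ?_ <;> exact Submodule.smul_mem _ _ (Submodule.subset_span ⟨_, by simp, rfl⟩)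

variable [Finite F] {m : ℕ}

/-- `cm a` as a homomorphism -/
def cmH (a : F) : F →+ F := AddMonoidHom.mk' (cm a) (cm_add_right a)

theorem cm_index {a : F} (ha : a ≠ 0) : (cmH a).range.index = 2 := by
  rw [AddSubgroup.index_range, ← SetLike.coe_sort_coe, show ((cmH a).ker : Set F) = {0, a} from
    Set.ext fun x => ⟨fun h => (cm_eq_zero h).resolve_left ha, by
      rintro (rfl | rfl); exacts [cm_zero_right a, cm_self x]⟩, Nat.card_coe_set_eq, Set.ncard_pair ha.symm]

theorem N_nmem {a : F} (ha : a ≠ 0) : N a ∉ (cmH a).range := fun ⟨x, e⟩ => N_ne_cm ha x e.symm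

theorem cm_or {a : F} (ha : a ≠ 0) (b : F) : (∃ x, b = cm a x) ∨ ∃ x, b = N a + cm a x := by
  by_cases c : b ∈ (cmH a).range
  · exact Or.inl (c.imp fun _ e => e.symm)
  · obtain ⟨x, e⟩ := (AddSubgroup.add_mem_iff_of_index_two (cm_index ha)).2 (iff_of_false (N_nmem ha) c)
    exact Or.inr ⟨x, by rw [show cm a x = N a + b from e, CharTwo.add_cancel_left]⟩

theorem scal_cm {a s : F} (ha : a ≠ 0) (h : ∀ x, ∃ y, s * cm a x = cm a y) : s = 0 ∨ s = 1 := by
  by_contra! c
  have h1 : ∀ b ∈ (cmH a).range, s * b ∈ (cmH a).range := by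
    rintro _ ⟨x, rfl⟩
    exact (h x).imp fun _ e => e.symm
  have h2 := Finite.surjective_of_injective (f := fun b : (cmH a).range => (⟨_, h1 b b.2⟩ : (cmH a).range))
    fun b b' e => Subtype.ext (mul_left_cancel₀ c.1 (congrArg Subtype.val e))
  have h3 : s + 1 ≠ 0 := fun e => c.2 (CharTwo.add_eq_zero.1 e)
  refine N_nmem ha ?_
  rw [show N a = s * (N a / (s + 1)) + N a / (s + 1) by field_simp]
  refine (AddSubgroup.add_mem_iff_of_index_two (cm_index ha)).2 ⟨fun e => ?_, h1 _⟩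
  obtain ⟨b, e'⟩ := h2 ⟨_, e⟩
  exact mul_left_cancel₀ c.1 (congrArg Subtype.val e') ▸ b.2

theorem cm_range_inj {a a' : F} (ha : a ≠ 0) (ha' : a' ≠ 0) (h : ∀ x, ∃ y, cm a x = cm a' y) :
    a = a' := by
  have n : N a' ≠ 0 := by simpa using ha'
  rcases scal_cm (a := 1) (s := N a / N a') one_ne_zero fun x => by
    obtain ⟨y, e⟩ := h (a * x)
    refine ⟨y / a', mul_left_cancel₀ n ?_⟩
    rw [← cm_mul, mul_one, mul_div_cancel₀ _ ha', ← e, ← mul_assoc, mul_div_cancel₀ _ n, ← cm_mul, mul_one]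
    with e | e
  · simp [ha, ha'] at e
  · exact N_inj ((div_eq_one_iff_eq n).1 e)

theorem eight_le (P : Par F m) : 8 ≤ Nat.card F :=
  P.card ▸ Nat.pow_le_pow_right (n := 2) (i := 3) (by decide) (by have := P.hm; omega)

theorem ex4 (P : Par F m) : ∃ w : F, w ^ 4 ≠ w := by
  by_contra! c
  haveI := Fintype.ofFinite F
  have := Nat.le_of_dvd (by decide) ((FiniteField.forall_pow_eq_one_iff F 3).1 fun x => Units.ext
    (mul_right_cancel₀ x.ne_zero (by rw [Units.val_pow_eq_pow_val, ← pow_succ, c, Units.val_one, one_mul])))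
  have h := eight_le P
  rw [Nat.card_eq_fintype_card] at h
  omega

theorem gen_ne (P : Par F m) {l : F} (hl : ∀ a : F, a ≠ 0 → ∃ i : ℕ, l ^ i = a) :
    l ≠ 0 ∧ l ≠ 1 := by
  obtain ⟨w, hw⟩ := ex4 P
  obtain ⟨i, rfl⟩ := hl w (by rintro rfl; simp at hw)
  constructor
  · rintro rfl
    cases i <;> simp at hw
  · rintro rfl
    simp at hw

theorem gen_N {l : F} (hl : ∀ a : F, a ≠ 0 → ∃ i : ℕ, l ^ i = a) :
    ∀ b : F, b ≠ 0 → ∃ i : ℕ, N l ^ i = b := fun b hb => by
  obtain ⟨a, rfl⟩ := N_surj b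
  obtain ⟨i, rfl⟩ := hl a (by simpa using hb)
  exact ⟨i, (N_pow l i).symm⟩

theorem eqv {l : F} (hl : ∀ a : F, a ≠ 0 → ∃ i : ℕ, l ^ i = a) (f : F → F) (h0 : f 0 = 0)
    (h : ∀ a, f (l * a) = l * f a) : ∃ s, ∀ a, f a = s * a := by
  refine ⟨f 1, fun a => ?_⟩
  by_cases ha : a = 0
  · rw [ha, h0, mul_zero]
  obtain ⟨i, rfl⟩ := hl a ha
  clear ha
  induction i with
  | zero => simp
  | succ i ih => rw [pow_succ', h, ih, mul_left_comm]

/-- `k ψ(x b)` lies in the hyperplane `cm x F` for all `x` only if `k b = 0` -/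
theorem psi_cm {k b : F} (h : ∀ x, x ≠ 0 → ∃ y, k * ψ (x * b) = cm x y) : k = 0 ∨ b = 0 := by
  by_contra! c
  obtain ⟨x, e⟩ := N_surj (θ k * b)
  have hx : x ≠ 0 := by
    rintro rfl
    exact mul_ne_zero (θ_ne_zero c.1) c.2 (e.symm.trans N_zero)
  obtain ⟨y, e'⟩ := h x hx
  refine N_ne_cm hx y (e' ▸ θ_inj ?_)
  rw [map_mul, θ_ψ, mul_left_comm, ← e, N, map_mul, θθ]
  ring

theorem psi_fix {k a x y : F} (hk : k ≠ 0) (ha : a ≠ 0) (hx : k * ψ (a * x) = x)
    (hy : k * ψ (a * y) = y) : x = 0 ∨ y = 0 ∨ x = y := by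
  have e1 := congrArg θ hx
  have e2 := congrArg θ hy
  rw [map_mul, θ_ψ] at e1 e2
  by_cases c : y = 0
  · exact Or.inr (Or.inl c)
  · exact (θ_div_eq c (by rw [← e1, ← e2]; ring)).imp_right Or.inr

theorem wl (P : Par F m) (β : F → F → F) (h1 : ∀ a a' b, β (a + a') b = β a b + β a' b)
    (h2 : ∀ a b b', β a (b + b') = β a b + β a b') {l μ ν : F} (h : ∀ a b, β (l * a) (μ * b) = ν * β a b)
    (f : F → F → F) (hf : ∀ σ τ : F →+* F, σ l * τ μ = ν → ∀ a b, σ a * τ b = f a b) :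
    ∃ k, ∀ a b, β a b = k * f a b := by
  classical
  letI : Algebra (ZMod 2) F := ZMod.algebra F 2
  haveI : Fintype (F ≃ₐ[ZMod 2] F) := Fintype.ofFinite _
  choose d hd using fun b => AutS.exists_coef P.card (AddMonoidHom.mk' (β · b) fun a a' => h1 a a' b)
  simp only [AddMonoidHom.mk'_apply] at hd
  choose c hc using fun σ => AutS.exists_coef P.card (AddMonoidHom.mk' (d · σ) fun b b' =>
    sub_eq_zero.1 (AutS.ded (c := fun σ => d (b + b') σ - (d b σ + d b' σ)) (fun a => by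
      simp only [sub_mul, add_mul, sum_sub_distrib, sum_add_distrib, ← hd, h2, sub_self]) σ))
  simp only [AddMonoidHom.mk'_apply] at hc
  have e : ∀ a b, β a b = ∑ σ, ∑ τ, c σ τ * (σ a * τ b) := fun a b => by
    rw [hd]
    exact sum_congr rfl fun σ _ => by rw [hc, sum_mul]; exact sum_congr rfl fun τ _ => by ring
  have e' := AutS.ded2 (M := fun σ τ => c σ τ * (σ l * τ μ - ν)) fun a b => by
    have := sub_eq_zero.2 (h a b)
    rw [e, e, mul_sum, ← sum_sub_distrib] at this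
    rw [← this]
    refine sum_congr rfl fun σ _ => ?_
    rw [mul_sum, ← sum_sub_distrib]
    exact sum_congr rfl fun τ _ => by rw [map_mul, map_mul]; ring
  refine ⟨∑ σ, ∑ τ, c σ τ, fun a b => ?_⟩
  rw [e, sum_mul]
  refine sum_congr rfl fun σ _ => ?_
  rw [sum_mul]
  refine sum_congr rfl fun τ _ => ?_
  rcases mul_eq_zero.1 (e' σ τ) with z | z
  · rw [z, zero_mul, zero_mul]
  · rw [← hf σ τ (sub_eq_zero.1 z)]; rfl

theorem wlQ (P : Par F m) {l : F} (hl : ∀ a : F, a ≠ 0 → ∃ i : ℕ, l ^ i = a) (β : F → F → F)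
    (h1 : ∀ a a' b, β (a + a') b = β a b + β a' b) (h2 : ∀ a b b', β a (b + b') = β a b + β a b')
    (h : ∀ a b, β (l * a) (N l * b) = N l * β a b) : ∃ k, ∀ a b, β a b = k * ψ (a * b) := by
  refine wl P β h1 h2 h _ fun σ τ e => ?_
  have two : (2 : F) = 0 := two_eq_zero'
  obtain ⟨w, hw⟩ := ex4 P
  have n2 : ¬ ∀ x : F, x ^ 2 = x := fun c => hw (by rw [show 4 = 2 * 2 from rfl, pow_mul, c, c])
  have n1 : ¬ ∀ x : F, θ x = x := fun c => n2 fun x => by rw [← θθ, c, c]
  have e0 : ∀ x, σ x * (τ (θ x) * τ x) = θ x * x := fun x => by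
    by_cases hx : x = 0
    · simp [hx]
    obtain ⟨i, rfl⟩ := hl x hx
    rw [← map_mul, ← N, N_pow, map_pow, map_pow, ← mul_pow, e]
  have e1 : ∀ x, σ x * τ (θ x) + σ x * τ x + τ (θ x) * τ x + σ x + τ (θ x) + τ x = θ x + x := fun x => by
    have := e0 (x + 1)
    simp only [map_add, map_one] at this
    linear_combination this - e0 x
  obtain ⟨y, hy⟩ := not_forall.1 n1
  have hy' : τ (θ y) + τ y ≠ 0 := fun c => hy (τ.injective (CharTwo.add_eq_zero.1 c))
  have key : ∀ x, σ x = ψ x ∧ τ x = ψ x := by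
    rcases ded3 (g := σ) (g1 := τ.comp θ) (g2 := τ) (g3 := τ) (c1 := -(σ y + τ y) / (τ (θ y) + τ y))
      (c2 := -(σ y + τ (θ y)) / (τ (θ y) + τ y)) (c3 := 0) (fun x => by
        have := e1 (x + y)
        simp only [map_add] at this
        rw [RingHom.comp_apply]
        field_simp
        linear_combination this - e1 x - e1 y) with c | c
    · exfalso
      have e2 : ∀ x, x = τ (θ (θ (θ x))) + τ x + θ x := fun x => by
        have := e1 x
        rw [c, RingHom.comp_apply] at this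
        rw [θθ, map_pow]
        linear_combination -this + (τ (θ x) * τ x + τ (θ x) - θ x) * two
      rcases ded3 (g := RingHom.id F) (g1 := τ.comp ((θ.comp θ).comp θ)) (g2 := τ) (g3 := θ) (c1 := 1) (c2 := 1)
        (c3 := 1) (fun x => by rw [one_mul, one_mul, one_mul]; exact e2 x) with d | d | d
      · have d' : ∀ x, x = τ (θ (θ (θ x))) := d
        have d2 : ∀ x, τ x = θ x := fun x => by linear_combination d' x - e2 x - θ x * two
        exact hw (by have := d' w; rw [d2, θθ, θθ] at this; linear_combination -this)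
      · have d' : ∀ x, x = τ x := d
        refine n2 fun x => θ_inj ?_
        have := e2 x
        rw [← d', ← d'] at this
        rw [← θθ]
        linear_combination -this - θ x * two
      · exact n1 fun x => (d x).symm
    · have c : ∀ x, σ x = τ x := c.elim id id
      have e2 : ∀ x, x = τ (θ (θ x)) + τ (θ x) + θ x := fun x => by
        have := e1 x
        rw [c] at this
        rw [θθ, map_pow]
        linear_combination -this + (τ (θ x) * τ x + τ x - θ x) * two
      rcases ded3 (g := RingHom.id F) (g1 := τ.comp (θ.comp θ)) (g2 := τ.comp θ) (g3 := θ) (c1 := 1) (c2 := 1)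
        (c3 := 1) (fun x => by rw [one_mul, one_mul, one_mul]; exact e2 x) with d | d | d
      · have d' : ∀ x, x = τ (θ (θ x)) := d
        have d2 : ∀ x, τ (θ x) = θ x := fun x => by linear_combination d' x - e2 x - θ x * two
        exact (n2 fun x => by rw [← θθ, ← d2, ← d']).elim
      · have d' : ∀ x, x = τ (θ x) := d
        intro x
        have : τ x = ψ x := by rw [d' (ψ x), θ_ψ]
        exact ⟨(c x).trans this, this⟩
      · exact (n1 fun x => (d x).symm).elim
  exact fun a b => by rw [(key a).1, (key b).2, map_mul]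

theorem wlZ (P : Par F m) {l : F} (hl : ∀ a : F, a ≠ 0 → ∃ i : ℕ, l ^ i = a) (β : F → F → F)
    (h1 : ∀ a a' b, β (a + a') b = β a b + β a' b) (h2 : ∀ a b b', β a (b + b') = β a b + β a b')
    (h : ∀ a b, β (l * a) (l * b) = l * β a b) : ∃ k, ∀ a b, β a b = k * ψ (ψ (a * b)) := by
  refine wl P β h1 h2 h _ fun σ τ e => ?_
  have e0 : ∀ x, σ x * τ x = x := fun x => by
    by_cases hx : x = 0
    · simp [hx]
    obtain ⟨i, rfl⟩ := hl x hx
    rw [map_pow, map_pow, ← mul_pow, e]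
  have e1 : ∀ x, σ x = τ x := fun x => CharTwo.add_eq_zero.1 (by
    have := e0 (x + 1)
    simp only [map_add, map_one] at this
    linear_combination this - e0 x)
  refine fun a b => θ_inj (θ_inj ?_)
  rw [θ_ψ, θ_ψ, θθ, e1, ← map_mul, sq]
  nth_rewrite 1 [← e1]
  exact e0 _

theorem inv_form (P : Par F m) {l : F} (hl : ∀ a : F, a ≠ 0 → ∃ i : ℕ, l ^ i = a)
    (β : F → F → ZMod 2) (h1 : ∀ a a' b, β (a + a') b = β a b + β a' b)
    (h2 : ∀ a b b', β a (b + b') = β a b + β a b') (h : ∀ a b, β (l * a) (l * b) = β a b) :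
    ∀ a b, β a b = 0 := by
  have e : ∀ a b, b ≠ 0 → β a b = β (a / b) 1 := fun a b hb => by
    have : ∀ (i : ℕ) a b, β (l ^ i * a) (l ^ i * b) = β a b := fun i => by
      induction i with
      | zero => simp
      | succ i ih => intro a b; rw [pow_succ', mul_assoc, mul_assoc, h, ih]
    obtain ⟨i, rfl⟩ := hl b hb
    rw [← this i (a / l ^ i), mul_one, mul_div_cancel₀ _ hb]
  obtain ⟨w, hw⟩ := ex4 P
  have two : (2 : F) = 0 := two_eq_zero'
  have w0 : w ≠ 0 := by rintro rfl; simp at hw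
  have w1 : 1 + w ≠ 0 := fun c => hw (by rw [← CharTwo.add_eq_zero.1 c, one_pow])
  have w2 : w ^ 2 + w + 1 ≠ 0 := fun c => hw (by linear_combination w * (w - 1) * c)
  have e1 : ∀ a, β a 1 = 0 := fun a => by
    obtain ⟨x, rfl⟩ : ∃ x, a = x / (1 + w) + (x + x / w) :=
      ⟨a / (w ^ 2 + w + 1) * (w * (1 + w)), by
        obtain ⟨b, rfl⟩ : ∃ b, a = b * (w ^ 2 + w + 1) := ⟨_, (div_mul_cancel₀ a w2).symm⟩
        rw [mul_div_cancel_right₀ _ w2]
        field_simp
        linear_combination -b * w * two⟩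
    rw [h1, h1, ← e x _ w1, ← e x _ w0, h2, CharTwo.add_self_eq_zero]
  intro a b
  by_cases hb : b = 0
  · have := h2 a 0 0
    rw [add_zero] at this
    rw [hb, this, CharTwo.add_self_eq_zero]
  · rw [e a b hb, e1]

theorem semi' (P : Par F m) (σ ρ : F →+ F) (h1 : σ 1 ≠ 0) (h : ∀ a, ρ (N a) = N (σ a)) :
    ∃ (r : F) (φ : F ≃+* F), r ≠ 0 ∧ (∀ x, φ (θ x) = θ (φ x)) ∧ (∀ a, σ a = r * φ a) ∧
      ∀ b, ρ b = N r * φ b := by
  letI : Algebra (ZMod 2) F := ZMod.algebra F 2
  obtain ⟨r, φ, e1, e2⟩ := AutS.semi P.card (by have := P.hm; omega) P.θ_eq σ ρ h1 h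
  exact ⟨r, φ.toRingEquiv, r.ne_zero, fun x => by rw [P.θ_eq, P.θ_eq, map_pow], e1, e2⟩

theorem aut0 (P : Par F m) (σ ρ : F →+ F) (h : ∀ a, ρ (N a) = N (σ a)) {k : ℕ}
    (hk : ∀ a, σ^[2 ^ k] a = a) : ∀ a, σ a = a := by
  letI : Algebra (ZMod 2) F := ZMod.algebra F 2
  have h1 : σ 1 ≠ 0 := fun c => by
    have := hk 1
    obtain ⟨n, hn⟩ := Nat.exists_eq_succ_of_ne_zero (pow_pos two_pos k).ne'
    rw [hn, Function.iterate_succ_apply, c, Function.iterate_fixed (map_zero σ)] at this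
    exact zero_ne_one this
  obtain ⟨r, φ, e1, -⟩ := AutS.semi P.card (by have := P.hm; omega) P.θ_eq σ ρ h1 h
  have e2 : ∀ (n : ℕ) a, σ^[n] a = σ^[n] 1 * (φ ^ n) a := fun n => by
    induction n with
    | zero => simp
    | succ n ih =>
      intro a
      rw [Function.iterate_succ_apply', Function.iterate_succ_apply', ih a, e1, e1, map_mul, pow_succ',
        AlgEquiv.mul_apply, mul_assoc]
  have e3 : φ = 1 := (pow_eq_one_iff_of_coprime (Nat.Coprime.pow_left k
    (Nat.coprime_two_left.2 (odd_two_mul_add_one m)))).1 ⟨AlgEquiv.ext fun a => by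
      have := e2 (2 ^ k) a
      rw [hk, hk, one_mul] at this
      exact this.symm, AutS.card_gal P.card ▸ pow_card_eq_one'⟩
  simp only [e3, AlgEquiv.one_apply] at e1
  have e4 : ∀ n : ℕ, σ^[n] 1 = r ^ n := fun n => by
    induction n with
    | zero => simp
    | succ n ih => rw [Function.iterate_succ_apply', ih, e1, pow_succ']
  have e5 : (r : F) = 1 := sub_eq_zero.1 (pow_eq_zero_iff (pow_pos two_pos k).ne' |>.1 (by
    rw [sub_pow_char_pow, ← e4, hk, one_pow, sub_self]))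
  exact fun a => by rw [e1, e5, one_mul]

end Cfsg.Agent.SZS
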