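import Cfsg.Agent.SZS.Basic2

/-! Standard Suzuki subgroups: states and steps of the tower. -/

set_option autoImplicit false

namespace Cfsg.Agent.SZS.Ctx

open Subgroup H13 H49

variable {G F : Type*} [Group G] [Finite G] [Field F] [Tits F] [Finite F] {c : Ctx G F}
  {j : ℕ} {Y Y' : Subgroup G} {h : G} {ι : G → F} {s k : F}

omit [Finite G] [Finite F] in
theorem St.cent_Q (S : c.St j Y h) : Y ≤ 𝒞(c.Q) := fun y hy => mem_cent.2 fun x hx => by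
  obtain ⟨a, b, rfl⟩ := c.mem_Q.1 hx
  exact S.cQ y hy a b

omit [Finite F] in
theorem St.t_norm (S : c.St j Y h) : c.t ∈ 𝒩(Y) := norm_of_conj fun y hy => by
  rw [t_inv, S.inv y hy]; exact inv_mem hy

omit [Finite G] [Finite F] in
theorem St.mem_J (S : c.St j Y h) {x : G} : x ∈ c.Q ⊔ Y ↔ ∃ a b, ∃ y ∈ Y, x = c.u a b * y := by
  rw [mem_sup_of_norm_left (norm_of_cent S.cent_Q)]
  constructor
  · rintro ⟨w, hw, y, hy, rfl⟩
    obtain ⟨a, b, rfl⟩ := c.mem_Q.1 hw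
    exact ⟨a, b, y, hy, rfl⟩
  · rintro ⟨a, b, y, hy, rfl⟩
    exact ⟨_, c.u_mem_Q a b, y, hy, rfl⟩

omit [Finite F] in
theorem St.mem_P (S : c.St j Y h) {x : G} :
    x ∈ c.P Y ↔ ∃ a b, ∃ y ∈ Y, x = c.u a b * y ∨ x = c.u a b * y * c.t := by
  rw [P, mem_sup_of_norm_left (norm_sup c.t_norm_Q (zpowers_le.2 S.t_norm))]
  constructor
  · rintro ⟨w, hw, e, he, rfl⟩
    obtain ⟨a, b, y, hy, rfl⟩ := S.mem_J.1 hw
    rcases (mem_zp2 c.tt).1 he with rfl | rfl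
    exacts [⟨a, b, y, hy, Or.inl (mul_one _)⟩, ⟨a, b, y, hy, Or.inr rfl⟩]
  · rintro ⟨a, b, y, hy, rfl | rfl⟩
    exacts [⟨_, S.mem_J.2 ⟨a, b, y, hy, rfl⟩, 1, one_mem _, (mul_one _).symm⟩,
      ⟨_, S.mem_J.2 ⟨a, b, y, hy, rfl⟩, _, mem_zpowers _, rfl⟩]

omit [Finite G] [Finite F] in
theorem St.pow (S : c.St j Y h) {y : G} (hy : y ∈ Y) : y ^ 2 ^ (j + 1) = 1 := by
  obtain ⟨b, hb⟩ := c.mem_Z.1 (S.pw y hy)
  rw [pow_succ, pow_mul, hb, sq, z_sq]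

omit [Finite F] in
theorem St.two (S : c.St j Y h) : IsPGroup 2 (c.P Y) :=
  (((pi2 (c.two_T.to_le c.Q_le_T)).sup (pi2 (pg_of_pow fun _ => S.pow))
    (Or.inr (norm_of_cent S.cent_Q))).sup (pi2 (pg_zp (k := 1) (by rw [pow_one, sq, c.tt])))
    (Or.inr (norm_sup c.t_norm_Q (zpowers_le.2 S.t_norm)))).isPGroup Nat.prime_two

omit [Finite G] [Finite F] in
theorem norm_P {g : G} (h1 : g ∈ 𝒩(c.Q)) (h2 : g ∈ 𝒩(Y)) (h3 : g * c.t = c.t * g) :
    g ∈ 𝒩(c.P Y) :=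
  zpowers_le.1 (norm_sup (norm_sup (zpowers_le.2 h1) (zpowers_le.2 h2))
    (norm_of_cent (zpowers_le.2 (by rw [cent_zpowers, mem_cent1]; exact h3))))

omit [Finite G] [Finite F] in
theorem St.hP (S : c.St j Y h) : h ∈ 𝒩(c.P Y) := norm_P S.tor.hQ S.hY S.tor.ht

omit [Finite G] [Finite F] in
theorem St.exists_sq (S : c.St j Y h) (hj : 1 ≤ j) (b : F) : ∃ y ∈ Y, y * y = c.z b := by
  obtain ⟨y, hy, e⟩ := S.sur b
  obtain ⟨i, rfl⟩ := Nat.exists_eq_add_of_le' hj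
  exact ⟨_, pow_mem hy (2 ^ i), by rw [← e, ← sq, ← pow_mul, pow_succ]⟩

omit [Finite G] [Finite F] in
theorem St.mul_pow (S : c.St j Y h) {x y : G} (hx : x ∈ Y) (hy : y ∈ Y) (n : ℕ) :
    (x * y) ^ n = x ^ n * y ^ n := Commute.mul_pow (S.comm x hx y hy) n

omit [Finite G] [Finite F] in
/-- elements of `Y` with the same top coordinate differ by a square -/
theorem St.eq_mul_sq (S : c.St j Y h) {x y : G} (hx : x ∈ Y) (hy : y ∈ Y)
    (e : x ^ 2 ^ j = y ^ 2 ^ j) : ∃ w ∈ Y, x = y * (w * w) := by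
  obtain ⟨w, hw, e1⟩ := S.ker _ (mul_mem (inv_mem hy) hx)
    (by rw [S.mul_pow (inv_mem hy) hx, e, inv_pow, inv_mul_cancel])
  exact ⟨w, hw, by rw [← e1, mul_inv_cancel_left]⟩

omit [Finite G] in
theorem St.card (S : c.St j Y h) : Nat.card Y = Nat.card F ^ (j + 1) := by
  let φ : ℕ → (Y →* G) := fun n => MonoidHom.mk' (fun y => (y : G) ^ 2 ^ n)
    fun x y => S.mul_pow x.2 y.2 _
  have hφ : ∀ n y, φ n y = (y : G) ^ 2 ^ n := fun _ _ => rfl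
  have key : ∀ i n, n + i = j → Nat.card (φ n).range = Nat.card F ^ (i + 1) := by
    intro i
    induction i with
    | zero =>
      intro n hn
      obtain rfl : n = j := hn
      rw [zero_add, pow_one, ← c.card_Z]
      congr 2
      refine le_antisymm ?_ fun x hx => ?_
      · rintro _ ⟨y, rfl⟩; exact S.pw y y.2
      · obtain ⟨b, rfl⟩ := c.mem_Z.1 hx
        obtain ⟨y, hy, e⟩ := S.sur b
        exact ⟨⟨y, hy⟩, e⟩
    | succ i ih =>
      intro n hn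
      have hY : ∀ x : (φ n).range, (x : G) ∈ Y := by
        rintro ⟨_, y, rfl⟩; exact pow_mem y.2 _
      let σ : (φ n).range →* G := MonoidHom.mk' (fun x => (x : G) ^ 2)
        fun x y => S.mul_pow (hY x) (hY y) _
      have h1 : σ.range = (φ (n + 1)).range := by
        refine le_antisymm ?_ ?_
        · rintro _ ⟨⟨_, y, rfl⟩, rfl⟩
          exact ⟨y, by rw [hφ, pow_succ, pow_mul]; rfl⟩
        · rintro _ ⟨y, rfl⟩
          exact ⟨⟨_, y, rfl⟩, by rw [hφ (n + 1), pow_succ, pow_mul]; rfl⟩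
      have h2 : σ.ker.map (φ n).range.subtype = c.Z := by
        refine le_antisymm ?_ fun x hx => ?_
        · rintro _ ⟨x, hx, rfl⟩
          exact S.om _ (hY x) (by rw [← sq]; exact hx)
        · obtain ⟨b, rfl⟩ := c.mem_Z.1 hx
          obtain ⟨y, hy, e⟩ := S.sur b
          refine ⟨⟨c.z b, ⟨_, pow_mem hy (2 ^ (i + 1))⟩, ?_⟩, ?_, rfl⟩
          · rw [hφ, ← e, ← hn, ← pow_mul, ← pow_add, add_comm]
          · exact (show c.z b ^ 2 = 1 by rw [sq, z_sq])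
      rw [← σ.ker.card_mul_index, index_ker, h1, ih (n + 1) (by omega), ← card_subtype, h2,
        c.card_Z, ← pow_succ']
  rw [← key j 0 (zero_add _)]
  congr 2
  refine le_antisymm (fun y hy => ⟨⟨y, hy⟩, by simp [hφ]⟩) ?_
  rintro _ ⟨y, rfl⟩; exact pow_mem y.2 _

omit [Finite G] [Finite F] in
theorem St.uyt_sq (S : c.St j Y h) (a b : F) {y : G} (hy : y ∈ Y) :
    c.u a b * y * c.t * (c.u a b * y * c.t) = c.z (N a) := by
  have h1 : c.t * (c.u a b * y * c.t) = c.u a b * y⁻¹ := by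
    rw [← S.inv y hy, ← mul_assoc, ← mul_assoc, c.t_u]; group
  rw [mul_assoc _ c.t, h1, mul_assoc, ← mul_assoc y, ← S.cQ y hy, mul_assoc _ y, mul_inv_cancel,
    mul_one, u_sq]

/-- the conjugates of `t` in `P Y` lie in `Y t` -/
theorem St.t_conj (S : c.St j Y h) {g : G} (hg : g * c.t * g⁻¹ ∈ c.P Y) :
    ∃ y ∈ Y, g * c.t * g⁻¹ = y * c.t := by
  have h2 : g * c.t * g⁻¹ * (g * c.t * g⁻¹) = 1 := by rw [conj_mul, c.tt]; simp
  obtain ⟨a, b, y, hy, e | e⟩ := S.mem_P.1 hg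
  · exfalso
    rcases Nat.eq_zero_or_pos j with rfl | hj
    · obtain ⟨d, rfl⟩ := c.mem_Z.1 (by simpa using S.pw y hy)
      rw [u_z] at e
      rw [e, u_sq, z_eq_one, N_eq_zero] at h2
      exact c.t_not_Z g (e ▸ c.u_mem_Z.2 h2)
    · obtain ⟨x, hx, e1⟩ := S.exists_sq hj 1
      obtain ⟨w, hw, e2⟩ := S.exists_sq hj c.l
      have hc : ∀ v ∈ Y, v * (g * c.t * g⁻¹) = g * c.t * g⁻¹ * v := fun v hv => by
        rw [e, ← mul_assoc, ← S.cQ v hv, mul_assoc, S.comm v hv y hy, mul_assoc]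
      rcases c.TC (hc x hx) (hc w hw) (S.comm x hx w hw) (by rw [e1, z_sq]) (by rw [e2, z_sq])
        with e3 | e3 | e3
      · rw [e1, z_eq_one] at e3; exact one_ne_zero e3
      · rw [e2, z_eq_one] at e3; exact c.l_ne.1 e3
      · rw [e1, e2, z_inj] at e3; exact c.l_ne.2 e3.symm
  · rw [e, S.uyt_sq a b hy, z_eq_one, N_eq_zero] at h2
    subst h2
    exact ⟨_, mul_mem (S.ZY (c.z_mem_Z b)) hy, e⟩

omit [Finite G] in
theorem Step.ι_one (S : c.Step j Y h Y' ι s k) : ι 1 = 0 := (S.ι_ker 1 (one_mem _)).2 (one_mem _)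

omit [Finite G] in
theorem Step.ι_inv (S : c.Step j Y h Y' ι s k) {v : G} (hv : v ∈ Y') : ι v⁻¹ = ι v := by
  have := S.ι_mul _ (inv_mem hv) v hv
  rw [inv_mul_cancel, S.ι_one] at this
  grind

omit [Finite G] in
theorem Step.ι_conj (S : c.Step j Y h Y' ι s k) {g v : G} (hg : g ∈ 𝒩(Y'))
    (ht : g * c.t = c.t * g) (hv : v ∈ Y') : c.z (ι (g * v * g⁻¹)) = g * c.z (ι v) * g⁻¹ := by
  have h1 : g * c.t * g⁻¹ = c.t := by rw [ht, mul_inv_cancel_right]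
  rw [← (S.ι_t _ (cm_norm hg hv)).2, ← (S.ι_t v hv).2, ← conj_pow]
  congr 1
  conv_lhs => rw [← h1]
  group

omit [Finite G] in
theorem Step.comm_mem (S : c.Step j Y h Y' ι s k) {x y : G} (hx : x ∈ c.P Y') (hy : y ∈ c.P Y') :
    x * y * x⁻¹ * y⁻¹ ∈ Y := by
  have h1 := mul_mem (mul_mem (S.sqY _ (mul_mem hx hy))
    (cm_norm' (S.nY hy) (inv_mem (S.sqY x hx)))) (inv_mem (S.sqY y hy))
  convert h1 using 1; group

theorem Step.nY' (S : c.Step j Y h Y' ι s k) : c.P Y' ≤ 𝒩(Y') := fun x hx =>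
  norm_of_conj fun v hv => by
    simpa using mul_mem (S.le (S.comm_mem hx (c.le_P _ hv))) hv

omit [Finite G] in
theorem Step.hP (S : c.Step j Y h Y' ι s k) : h ∈ 𝒩(c.P Y') :=
  norm_P S.st.tor.hQ S.hY' S.st.tor.ht

omit [Finite G] in
theorem Step.cent_Z (S : c.Step j Y h Y' ι s k) : c.P Y' ≤ 𝒞(c.Z) :=
  sup_le (sup_le (c.Q_le_T.trans c.Z_cent_T) fun v hv => mem_cent.2 fun x hx => by
    obtain ⟨b, rfl⟩ := c.mem_Z.1 hx
    exact (S.cZ v hv b).symm) (zpowers_le.2 (c.Z_cent_T c.t_mem_T))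

omit [Finite G] in
theorem Step.mem_Z_of_comm (S : c.Step j Y h Y' ι s k) {v : G} (hv : v ∈ Y')
    (e : v * c.t = c.t * v) : v ∈ c.Z := by
  have h1 : v⁻¹ * c.t * v * c.t = 1 := by
    rw [mul_assoc v⁻¹, ← e, inv_mul_cancel_left, c.tt]
  have h2 := (S.ι_t v hv).2
  rw [h1, one_pow, eq_comm, z_eq_one, S.ι_ker v hv] at h2
  have h3 := S.st.inv v h2
  rw [← e, mul_assoc, c.tt, mul_one] at h3
  exact S.st.om v h2 (by nth_rw 1 [h3]; rw [inv_mul_cancel])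

omit [Finite G] in
theorem Step.u_mem (S : c.Step j Y h Y' ι s k) {a b : F} (hu : c.u a b ∈ Y') : a = 0 :=
  c.u_mem_Z.1 (S.mem_Z_of_comm hu (c.t_u a b).symm)

omit [Finite G] in
theorem Step.ut_not_mem (S : c.Step j Y h Y' ι s k) (a b : F) : c.u a b * c.t ∉ Y' := fun hu => by
  obtain ⟨d, e⟩ := c.mem_Z.1 (S.mem_Z_of_comm hu (by rw [← mul_assoc, c.t_u]))
  exact c.u_mul_t_ne _ _ _ _ e

theorem Step.center (S : c.Step j Y h Y' ι s k) {x : G} (hx : x ∈ c.P Y')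
    (h : x ∈ 𝒞(c.P Y')) : x ∈ c.Z := by
  have hc := mem_cent.1 h
  have key : ∀ {a b : F}, (∀ y, c.u y 0 * c.u a b = c.u a b * c.u y 0) → a = 0 := fun {a b} e => by
    by_contra ha
    rcases cm_eq_zero (c.u_comm_iff.1 (e (c.l * a))) with e1 | e1 | e1
    · exact mul_ne_zero c.l_ne.1 ha e1
    · exact ha e1
    · exact c.l_ne.2 (mul_right_cancel₀ ha (e1.symm.trans (one_mul a).symm))
  obtain ⟨a, b, rfl | rfl⟩ := c.mem_T.1 (c.T_max S.two (c.T_le_P _) hx (hc _ (c.t_mem_P _)).symm)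
  · exact c.u_mem_Z.2 (key fun y => hc _ (c.Q_le_P _ (c.u_mem_Q y 0)))
  · exfalso
    obtain rfl : a = 0 := key (b := b) fun y => by
      have := hc _ (c.Q_le_P _ (c.u_mem_Q y 0))
      rwa [mul_assoc, c.t_u, ← mul_assoc, ← mul_assoc, mul_left_inj] at this
    obtain ⟨v, hv, e⟩ := S.ι_sur 1
    have h1 := hc _ (c.le_P _ hv)
    rw [← mul_assoc, ← z, S.cZ v hv, mul_assoc, mul_assoc, mul_right_inj] at h1
    rw [(S.ι_ker v hv).2 (S.st.ZY (S.mem_Z_of_comm hv h1))] at e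
    exact zero_ne_one e

theorem Step.norm_Z (S : c.Step j Y h Y' ι s k) : 𝒩(c.P Y') ≤ 𝒩(c.Z) := by
  have : c.Z = c.P Y' ⊓ 𝒞(c.P Y') :=
    le_antisymm (le_inf (c.Z_le_Q.trans (c.Q_le_P _)) (cent_symm S.cent_Z))
      fun x hx => S.center hx.1 hx.2
  rw [this]
  exact norm_inf le_rfl (norm_cent le_rfl)

omit [Finite G] in
theorem Step.conj_tY (S : c.Step j Y h Y' ι s k) {y : G} (hy : y ∈ Y) :
    ∃ p ∈ c.P Y', p * c.t * p⁻¹ = y * c.t := by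
  obtain ⟨b, hb⟩ := c.mem_Z.1 (S.st.pw y hy)
  obtain ⟨v, hv, rfl⟩ := S.ι_sur b
  obtain ⟨h1, h2⟩ := S.ι_t v hv
  obtain ⟨w, hw, e⟩ := S.st.eq_mul_sq hy h1 (hb.trans h2.symm)
  refine ⟨w * v⁻¹, c.le_P _ (mul_mem (S.le hw) (inv_mem hv)), ?_⟩
  have h3 : c.t * w⁻¹ = w * c.t := by rw [← S.st.inv w hw, mul_assoc c.t w, tt']
  calc _ = w * (v⁻¹ * c.t * v * c.t) * (c.t * w⁻¹) := by
        simp only [mul_assoc, tt', mul_inv_rev, inv_inv]
    _ = _ := by rw [h3, S.st.comm w hw _ h1, e]; group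

omit [Finite G] [Tits F] [Finite F] in
theorem card_of_hom {X K : Subgroup G} (f : G → F) (hK : K ≤ X)
    (h1 : ∀ v ∈ X, ∀ w ∈ X, f (v * w) = f v + f w) (h2 : ∀ v ∈ X, f v = 0 ↔ v ∈ K)
    (h3 : ∀ b, ∃ v ∈ X, f v = b) : Nat.card X = Nat.card K * Nat.card F := by
  let φ : X →* Multiplicative F := MonoidHom.mk' (fun v => Multiplicative.ofAdd (f v))
    fun v w => by simp only [Subgroup.coe_mul, h1 _ v.2 _ w.2, ofAdd_add]
  have e1 : φ.ker = K.subgroupOf X := Subgroup.ext fun v => h2 v v.2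
  have e2 : φ.range = ⊤ := MonoidHom.range_eq_top.2 fun b => by
    obtain ⟨v, hv, e⟩ := h3 b.toAdd
    exact ⟨⟨v, hv⟩, congrArg Multiplicative.ofAdd e⟩
  rw [← φ.ker.card_mul_index, index_ker, e1, e2, card_subgroupOf_of_le hK, card_top]; rfl

theorem Step.card (S : c.Step j Y h Y' ι s k) : Nat.card Y' = Nat.card F ^ (j + 2) := by
  rw [card_of_hom ι S.le S.ι_mul S.ι_ker S.ι_sur, S.st.card, ← pow_succ]

theorem Step.mem_J (S : c.Step j Y h Y' ι s k) {x : G} :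
    x ∈ c.Q ⊔ Y' ↔ ∃ a b, ∃ v ∈ Y', x = c.u a b * v := by
  rw [mem_sup_of_norm_right ((c.Q_le_P _).trans S.nY')]
  constructor
  · rintro ⟨w, hw, y, hy, rfl⟩
    obtain ⟨a, b, rfl⟩ := c.mem_Q.1 hw
    exact ⟨a, b, y, hy, rfl⟩
  · rintro ⟨a, b, y, hy, rfl⟩
    exact ⟨_, c.u_mem_Q a b, y, hy, rfl⟩

theorem Step.t_not_mem_J (S : c.Step j Y h Y' ι s k) : c.t ∉ c.Q ⊔ Y' := fun ht => by
  obtain ⟨a, b, v, hv, e⟩ := S.mem_J.1 ht
  refine S.ut_not_mem a (b + N a) ?_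
  rwa [← u_inv, e, inv_mul_cancel_left]

theorem Step.card_J (S : c.Step j Y h Y' ι s k) :
    Nat.card ↥(c.Q ⊔ Y') = Nat.card F ^ (j + 3) := by
  have h1 := card_sup_mul_card_inf (H := c.Q) (K := Y') (Or.inl ((c.Q_le_P _).trans S.nY'))
  have h2 : c.Q ⊓ Y' = c.Z := le_antisymm (fun x hx => by
    obtain ⟨a, b, rfl⟩ := c.mem_Q.1 hx.1
    exact c.u_mem_Z.2 (S.u_mem hx.2)) (le_inf c.Z_le_Q (S.st.ZY.trans S.le))
  rw [h2, card_Z, card_Q, S.card] at h1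
  exact Nat.eq_of_mul_eq_mul_right Nat.card_pos (h1.trans (by ring))

theorem Step.card_P (S : c.Step j Y h Y' ι s k) :
    Nat.card (c.P Y') = 2 * Nat.card F ^ (j + 3) := by
  rw [P, card_sup_of_disjoint (Or.inr (norm_sup c.t_norm_Q (zpowers_le.2 (S.nY' (c.t_mem_P _))))),
    S.card_J, Nat.card_zpowers, order_t, mul_comm]
  rw [eq_bot_iff]
  rintro x ⟨h1, h2⟩
  rcases (mem_zp2 c.tt).1 h2 with rfl | rfl
  exacts [one_mem _, absurd h1 S.t_not_mem_J]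

end Cfsg.Agent.SZS.Ctx
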