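import Cfsg.Agent.SZS.Basic1

/-! Standard Suzuki subgroups: automorphisms and climbing. -/

set_option autoImplicit false

namespace Cfsg.Agent.SZS.Ctx

open Subgroup H13 H49

variable {G F : Type*} [Group G] [Finite G] [Field F] [Tits F] [Finite F] (c : Ctx G F)

omit [Finite G] in
/-- the additive maps induced by an element normalizing a group with squaring map `N` -/
theorem exists_σρ {R : Subgroup G} (fa : G → F)
    (hmul : ∀ x ∈ R, ∀ y ∈ R, fa (x * y) = fa x + fa y) (hsur : ∀ a, ∃ x ∈ R, fa x = a)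
    (hsq : ∀ x ∈ R, x * x = c.z (N (fa x))) {g : G} (hg : g ∈ 𝒩(R)) :
    ∃ σ ρ : F →+ F, (∀ x ∈ R, fa (g * x * g⁻¹) = σ (fa x)) ∧
      (∀ b, g * c.z b * g⁻¹ = c.z (ρ b)) ∧ ∀ a, ρ (N a) = N (σ a) := by
  choose s hs1 hs2 using hsur
  choose r hr using N_surj (F := F)
  have h1 : ∀ x ∈ R, g * c.z (N (fa x)) * g⁻¹ = c.z (N (fa (g * x * g⁻¹))) := fun x hx => by
    rw [← hsq x hx, ← hsq _ (cm_norm hg hx), conj_mul]
  have h2 : ∀ x ∈ R, fa (g * x * g⁻¹) = fa (g * s (fa x) * g⁻¹) := fun x hx =>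
    N_inj (c.z_inj.1 (by rw [← h1 x hx, ← h1 _ (hs1 _), hs2]))
  have h3 : ∀ b, g * c.z b * g⁻¹ = c.z (N (fa (g * s (r b) * g⁻¹))) := fun b => by
    rw [← h1 _ (hs1 _), hs2, hr]
  refine ⟨AddMonoidHom.mk' (fun a => fa (g * s a * g⁻¹)) fun a b => ?_,
    AddMonoidHom.mk' (fun b => N (fa (g * s (r b) * g⁻¹))) fun a b => ?_, h2, h3, fun a => ?_⟩
  · rw [← hmul _ (cm_norm hg (hs1 a)) _ (cm_norm hg (hs1 b)), conj_mul,
      h2 _ (mul_mem (hs1 a) (hs1 b)), hmul _ (hs1 a) _ (hs1 b), hs2, hs2]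
  · rw [← c.z_inj, ← z_mul, ← h3, ← h3, ← h3, conj_mul, z_mul]
  · simp only [AddMonoidHom.mk'_apply]
    rw [N_inj (hr (N a))]

omit [Finite G] in
/-- `2`-elements normalizing a group with squaring map `N` centralize `Z` -/
theorem autG {R : Subgroup G} (fa : G → F) (hmul : ∀ x ∈ R, ∀ y ∈ R, fa (x * y) = fa x + fa y)
    (hsur : ∀ a, ∃ x ∈ R, fa x = a) (hsq : ∀ x ∈ R, x * x = c.z (N (fa x))) {g : G}
    (hg : g ∈ 𝒩(R)) {k : ℕ} (hk : g ^ 2 ^ k = 1) : g ∈ 𝒞(c.Z) := by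
  obtain ⟨σ, ρ, h1, h2, h3⟩ := c.exists_σρ fa hmul hsur hsq hg
  have h4 : ∀ n : ℕ, ∀ x ∈ R, σ^[n] (fa x) = fa (g ^ n * x * (g ^ n)⁻¹) := fun n x hx => by
    induction n with
    | zero => simp
    | succ n ih =>
      rw [Function.iterate_succ_apply', ih, ← h1 _ (cm_norm (pow_mem hg n) hx), pow_succ']
      congr 1; group
  have h5 := aut0 c.par σ ρ h3 (k := k) fun a => by
    obtain ⟨x, hx, rfl⟩ := hsur a
    rw [h4 _ x hx, hk]; simp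
  refine mem_cent.2 fun y hy => ?_
  obtain ⟨b, rfl⟩ := c.mem_Z.1 hy
  obtain ⟨a, rfl⟩ := N_surj b
  have h6 := h2 (N a)
  rw [h3, h5] at h6
  conv_lhs => rw [← h6, inv_mul_cancel_right]

omit [Finite G] [Finite F] in
theorem pow_z' {h : G} {r : F} (hz : ∀ b, h * c.z b * h⁻¹ = c.z (r * b)) (i : ℕ) (b : F) :
    h ^ i * c.z b * (h ^ i)⁻¹ = c.z (r ^ i * b) := by
  induction i with
  | zero => simp
  | succ i ih => rw [pow_succ', pow_succ', mul_assoc r, ← hz, ← ih]; group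

/-- the odd part of an element acting on `Z` as the generator -/
theorem tor_of {n : G} (ht : n * c.t = c.t * n) (hQ : n ∈ 𝒩(c.Q))
    (hz : ∀ b, n * c.z b * n⁻¹ = c.z (N c.l * b)) : ∃ e : ℕ, c.Tor (n ^ e) := by
  obtain ⟨e, h1, h2⟩ := exists_odd_part n (odd_pred (F := F))
  refine ⟨e, h1, mem_cent1.1 (pow_mem (mem_cent1.2 ht) e), pow_mem hQ e, fun b => ?_⟩
  have h3 : N c.l ^ (Nat.card F - 1) = 1 := by
    have := pow_card_eq_one' (x := Units.mk0 _ c.Nl_ne.1)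
    rw [Nat.card_units] at this
    simpa using congrArg Units.val this
  rw [c.pow_z' hz, pow_eq_pow_mod e h3, h2, ← pow_eq_pow_mod 1 h3, pow_one]

/-- climbing: the `P`-classes in the `N(P)`-class of `t` are indexed by `F` -/
theorem climb {P : Subgroup G} (hP : IsPGroup 2 P) (hT : c.T ≤ P) {h : G} (H : c.Tor h)
    (hh : h ∈ 𝒩(P)) (hZ : 𝒩(P) ≤ 𝒩(c.Z)) (haut : ∀ g ∈ 𝒩(P), ∀ k, g ^ 2 ^ k = 1 → g ∈ 𝒞(c.Z))
    (co : G → F) (hco : ∀ g ∈ 𝒩(P), ∀ g' ∈ 𝒩(P), co (g * c.t * g⁻¹) = co (g' * c.t * g'⁻¹) ↔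
      ∃ p ∈ P, g' * c.t * g'⁻¹ = p * (g * c.t * g⁻¹) * p⁻¹)
    (hsur : ∀ b, ∃ g ∈ 𝒩(P), co (g * c.t * g⁻¹) = b) :
    ∃ (P' : Subgroup G) (h' : G), IsSylowOf 2 P' 𝒩(P) ∧ P ≤ P' ∧ P' ≤ 𝒞(c.Z) ∧ c.Tor h' ∧
      h' ∈ 𝒩(P) ∧ h' ∈ 𝒩(P') ∧ (∀ b, ∃ v ∈ P', co (v * c.t * v⁻¹) = b) ∧
      ∀ v ∈ P', co (v * c.t * v⁻¹) = co c.t → v ∈ P := by
  have hmem : ∀ {x}, x ∈ P ⊔ (𝒩(P) ⊓ 𝒞[c.t]) ↔ ∃ a ∈ P, ∃ b ∈ 𝒩(P) ⊓ 𝒞[c.t], x = a * b :=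
    mem_sup_of_norm_left inf_le_left
  have ct : ∀ {b : G}, b ∈ 𝒞[c.t] → b * c.t * b⁻¹ = c.t := fun hb => by
    rw [mem_cent1.1 hb, mul_inv_cancel_right]
  have key : ∀ n n' : 𝒩(P), (n : G)⁻¹ * n' ∈ P ⊔ (𝒩(P) ⊓ 𝒞[c.t]) ↔
      co (n * c.t * (n : G)⁻¹) = co (n' * c.t * (n' : G)⁻¹) := fun n n' => by
    rw [hco n n.2 n' n'.2, hmem]
    constructor
    · rintro ⟨a, ha, b, hb, e⟩
      refine ⟨_, cm_norm n.2 ha, ?_⟩
      rw [inv_mul_eq_iff_eq_mul] at e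
      rw [e]
      calc _ = n * a * (b * c.t * b⁻¹) * a⁻¹ * (n : G)⁻¹ := by group
        _ = _ := by rw [ct hb.2]; group
    · rintro ⟨p, hp, e⟩
      refine ⟨_, cm_norm' n.2 hp, (p * n)⁻¹ * n', mem_inf.2
        ⟨mul_mem (inv_mem (mul_mem (le_normalizer hp) n.2)) n'.2, mem_cent1.2 ?_⟩, by group⟩
      calc _ = (p * n)⁻¹ * (n' * c.t * (n' : G)⁻¹) * n' := by group
        _ = _ := by rw [e]; group
  have hidx : (P ⊔ (𝒩(P) ⊓ 𝒞[c.t])).relIndex 𝒩(P) = Nat.card F := by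
    refine Nat.card_eq_of_bijective (Quotient.lift (fun n : 𝒩(P) => co (n * c.t * (n : G)⁻¹))
      fun n n' e => (key n n').1 (mem_subgroupOf.1 (QuotientGroup.leftRel_apply.1 e)))
      ⟨?_, fun b => ?_⟩
    · rintro ⟨n⟩ ⟨n'⟩ e
      exact Quotient.sound (QuotientGroup.leftRel_apply.2 (mem_subgroupOf.2 ((key n n').2 e)))
    · obtain ⟨g, hg, e⟩ := hsur b
      exact ⟨Quotient.mk _ ⟨g, hg⟩, e⟩
  obtain ⟨P', hP', hPP⟩ := exists_sylowOf_ge (pi2 hP) (le_normalizer (H := P))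
  have h2 := hP'.pi.isPGroup Nat.prime_two
  have hpr := hP'.isProd_of_index (K := P ⊔ (𝒩(P) ⊓ 𝒞[c.t])) (sup_le le_normalizer inf_le_left)
    (by rw [hidx, c.par.card]; exact isPiNat_singleton_pow Nat.prime_two _)
  have hdec : ∀ n ∈ 𝒩(P), ∃ v ∈ P', ∃ b ∈ 𝒩(P) ⊓ 𝒞[c.t], n = v * b := fun n hn => by
    obtain ⟨v, hv, w, hw, rfl⟩ := hpr.2.2 n hn
    obtain ⟨a, ha, b, hb, rfl⟩ := hmem.1 hw
    exact ⟨_, mul_mem hv (hPP ha), b, hb, by group⟩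
  have hc : P' ≤ 𝒞(c.Z) := fun v hv => by
    obtain ⟨k, hk⟩ := pow_of_pg h2 hv
    exact haut v (hP'.le hv) k hk
  obtain ⟨k, hk, n, hn, e⟩ := (frattini_arg (N := 𝒩(P) ⊓ 𝒞(c.Z)) inf_le_left
    (norm_inf le_normalizer (norm_cent hZ)) (hP'.sub (le_inf hP'.le hc) inf_le_left)).2.2 h hh
  obtain ⟨v, hv, b, hb, rfl⟩ := hdec n hn.1
  have hb' : b ∈ 𝒩(P') := (mul_mem_cancel_left (le_normalizer hv)).1 hn.2
  obtain ⟨i, hi⟩ := c.tor_of (mem_cent1.1 hb.2) (c.norm_Q_of hP hT hb.1 (mem_cent1.1 hb.2))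
    fun d => by
      have h3 := mem_cent.1 (mul_mem hk.2 (hc hv)) _ (c.z_mem_Z (N c.l * d))
      calc _ = (k * v)⁻¹ * (h * c.z d * h⁻¹ * (k * v)) := by rw [e]; group
        _ = _ := by rw [H.hz, h3, inv_mul_cancel_left]
  refine ⟨P', _, hP', hPP, hc, hi, pow_mem hb.1 i, pow_mem hb' i, fun d => ?_, fun w hw e1 => ?_⟩
  · obtain ⟨g, hg, e1⟩ := hsur d
    obtain ⟨w, hw, b1, hb1, rfl⟩ := hdec g hg
    refine ⟨w, hw, ?_⟩
    rw [← e1]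
    conv_lhs => rw [← ct hb1.2]
    congr 1; group
  · obtain ⟨p, hp, e2⟩ := (hco 1 (one_mem _) w (hP'.le hw)).1 (by simpa using e1.symm)
    have h1 : p⁻¹ * w ∈ c.T := c.T_max h2 (hT.trans hPP) (mul_mem (inv_mem (hPP hp)) hw) (by
      calc _ = p⁻¹ * (w * c.t * w⁻¹) * w := by group
        _ = _ := by rw [e2]; group)
    simpa using mul_mem hp (hT h1)

end Cfsg.Agent.SZS.Ctx
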