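import Cfsg.Agent.H13.SzTorus
import Cfsg.Agent.H49.SylowOf
import Cfsg.Prelude.Def_TwoFusion

/-! Standard Suzuki subgroups (S1772): the frame. See `notes/SZS.md`. -/

set_option autoImplicit false

namespace Cfsg.Agent.SZS

open Subgroup H13 H49

section Field
variable {F : Type*} [Field F] [Tits F]

/-- the squaring map of the Sylow subgroup -/
def N (a : F) : F := θ a * a

/-- the commutator map of the Sylow subgroup -/
def cm (a x : F) : F := θ a * x + θ x * a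

/-- the inverse of `θ` -/
noncomputable def ψ [Finite F] : F ≃+* F :=
  (RingEquiv.ofBijective (θ : F →+* F) ⟨θ_inj, θ_surj⟩).symm

@[simp] theorem θ_ψ [Finite F] (x : F) : θ (ψ x) = x :=
  (RingEquiv.ofBijective (θ : F →+* F) ⟨θ_inj, θ_surj⟩).apply_symm_apply x

@[simp] theorem ψ_θ [Finite F] (x : F) : ψ (θ x) = x :=
  (RingEquiv.ofBijective (θ : F →+* F) ⟨θ_inj, θ_surj⟩).symm_apply_apply x

@[simp] theorem ψ_eq_zero [Finite F] {x : F} : ψ x = 0 ↔ x = 0 := map_eq_zero_iff _ ψ.injective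

theorem ψψ_sq [Finite F] (x : F) : ψ (ψ (x ^ 2)) = x := by rw [← θθ, ψ_θ, ψ_θ]

@[simp] theorem N_zero : N (0 : F) = 0 := by simp [N]
@[simp] theorem N_one : N (1 : F) = 1 := by simp [N]
theorem N_mul (a b : F) : N (a * b) = N a * N b := by simp only [N, map_mul]; ring
theorem N_pow (a : F) (i : ℕ) : N (a ^ i) = N a ^ i := by simp only [N, map_pow, mul_pow]
theorem N_inj {a b : F} (h : N a = N b) : a = b :=
  mul_θ_inj (by simpa only [N, mul_comm] using h)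
@[simp] theorem N_eq_zero {a : F} : N a = 0 ↔ a = 0 := by simp [N]
theorem N_surj [Finite F] (b : F) : ∃ a, N a = b := by
  obtain ⟨s, hs⟩ := mul_θ_surj b
  exact ⟨s, by rw [N, mul_comm, hs]⟩
theorem N_add (a b : F) : N (a + b) = N a + N b + cm a b := by
  simp only [N, cm, map_add]; ring
theorem cm_comm (a x : F) : cm a x = cm x a := by simp only [cm]; ring
@[simp] theorem cm_self (a : F) : cm a a = 0 := by simp only [cm]; grind
@[simp] theorem cm_zero_left (a : F) : cm 0 a = 0 := by simp [cm]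
@[simp] theorem cm_zero_right (a : F) : cm a 0 = 0 := by simp [cm]
theorem cm_add_right (a x y : F) : cm a (x + y) = cm a x + cm a y := by
  simp only [cm, map_add]; ring
theorem cm_add_left (a b x : F) : cm (a + b) x = cm a x + cm b x := by
  simp only [cm, map_add]; ring
theorem cm_mul (l a x : F) : cm (l * a) (l * x) = N l * cm a x := by
  simp only [cm, N, map_mul]; ring

end Field

/-- The frame: `A` is a Suzuki group, `t` an involution centralizing it, `C(t) ≤ N(A)` and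
`U × ⟨t⟩` is a Sylow `2`-subgroup of `C(t)`; `l` generates the multiplicative group. -/
structure Ctx (G F : Type*) [Group G] [Field F] [Tits F] where
  A : Subgroup G
  M : Model A F
  t : G
  m : ℕ
  l : F
  par : Par F m
  gen : ∀ a : F, a ≠ 0 → ∃ i : ℕ, l ^ i = a
  tt : t * t = 1
  tA : t ∉ A
  tc : ∀ a ∈ A, t * a = a * t
  CN : 𝒞[t] ≤ 𝒩(A)
  syl : IsSylowOf 2 (M.U.map A.subtype ⊔ zpowers t) 𝒞[t]

namespace Ctx

variable {G F : Type*} [Group G] [Field F] [Tits F] (c : Ctx G F)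

noncomputable def u (a b : F) : G := c.M.u a b
noncomputable def z (b : F) : G := c.u 0 b
def Q : Subgroup G := c.M.U.map c.A.subtype
def Z : Subgroup G := c.M.Z.map c.A.subtype
/-- `P Y = Q Y ⟨t⟩` -/
def P (Y : Subgroup G) : Subgroup G := c.Q ⊔ Y ⊔ zpowers c.t
def T : Subgroup G := c.Q ⊔ zpowers c.t

/-- an element of odd order of `C(t) ∩ N(Q)` acting on `Z` as the generator `N l` -/
structure Tor (h : G) : Prop where
  odd : Odd (orderOf h)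
  ht : h * c.t = c.t * h
  hQ : h ∈ 𝒩(c.Q)
  hz : ∀ b, h * c.z b * h⁻¹ = c.z (N c.l * b)

/-- a state of the tower: `Y` is homocyclic of exponent `2 ^ (j + 1)` with `Ω₁(Y) = Z`,
centralized by `Q`, inverted by `t` -/
structure St (j : ℕ) (Y : Subgroup G) (h : G) : Prop where
  tor : c.Tor h
  hY : h ∈ 𝒩(Y)
  ZY : c.Z ≤ Y
  comm : ∀ x ∈ Y, ∀ y ∈ Y, x * y = y * x
  cQ : ∀ y ∈ Y, ∀ a b, c.u a b * y = y * c.u a b
  inv : ∀ y ∈ Y, c.t * y * c.t = y⁻¹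
  om : ∀ y ∈ Y, y * y = 1 → y ∈ c.Z
  pw : ∀ y ∈ Y, y ^ 2 ^ j ∈ c.Z
  ker : ∀ y ∈ Y, y ^ 2 ^ j = 1 → ∃ y' ∈ Y, y = y' * y'
  sur : ∀ b, ∃ y ∈ Y, y ^ 2 ^ j = c.z b

/-- one step up from the state `Y`: `P Y' / Y` is elementary abelian, `ι : Y' / Y ≃ F` -/
structure Step [Finite F] (j : ℕ) (Y : Subgroup G) (h : G) (Y' : Subgroup G) (ι : G → F) (s k : F) :
    Prop where
  st : c.St j Y h
  le : Y ≤ Y'
  two : IsPGroup 2 (c.P Y')
  mem : ∀ x, x ∈ c.P Y' ↔ ∃ a b, ∃ v ∈ Y', x = c.u a b * v ∨ x = c.u a b * v * c.t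
  hY' : h ∈ 𝒩(Y')
  nY : c.P Y' ≤ 𝒩(Y)
  sqY : ∀ x ∈ c.P Y', x * x ∈ Y
  ι_mul : ∀ v ∈ Y', ∀ w ∈ Y', ι (v * w) = ι v + ι w
  ι_ker : ∀ v ∈ Y', ι v = 0 ↔ v ∈ Y
  ι_sur : ∀ b, ∃ v ∈ Y', ι v = b
  ι_t : ∀ v ∈ Y', v⁻¹ * c.t * v * c.t ∈ Y ∧ (v⁻¹ * c.t * v * c.t) ^ 2 ^ j = c.z (ι v)
  ι_h : ∀ v ∈ Y', ι (h * v * h⁻¹) = N c.l * ι v
  sq : ∀ v ∈ Y', (v * v) ^ 2 ^ j = c.z (s * ι v)
  cZ : ∀ v ∈ Y', ∀ b, v * c.z b = c.z b * v
  cQ : ∀ v ∈ Y', ∀ a b, v * c.u a b * v⁻¹ = c.u a (b + k * ψ (a * ι v))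

/-- a Sylow subgroup containing `Q` has a strongly closed abelian subgroup containing `Z` -/
def SC : Prop :=
  ∃ S B : Subgroup G, IsSylowOf 2 S ⊤ ∧ c.Q ≤ S ∧ c.Z ≤ B ∧ IsMulCommutative B ∧
    IsStronglyClosed B S

theorem u_mul (a b x y : F) : c.u a b * c.u x y = c.u (a + x) (b + y + θ a * x) := by
  simp only [u, ← Subgroup.coe_mul, Model.u_mul_u]
theorem u_inj {a b x y : F} : c.u a b = c.u x y ↔ a = x ∧ b = y := by
  simp only [u, Subtype.coe_inj, Model.u_inj]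
@[simp] theorem u_zero : c.u 0 0 = 1 := by simp [u]
theorem u_eq_one {a b : F} : c.u a b = 1 ↔ a = 0 ∧ b = 0 := by rw [← c.u_zero, u_inj]
theorem u_inv (a b : F) : (c.u a b)⁻¹ = c.u a (b + N a) := by
  simp only [u, ← Subgroup.coe_inv, Model.u_inv, N]
theorem u_sq (a b : F) : c.u a b * c.u a b = c.z (N a) := by
  rw [u_mul, z, N]; congr 1 <;> grind
theorem u_conj (a b x y : F) : c.u a b * c.u x y * (c.u a b)⁻¹ = c.u x (y + cm a x) := by
  simp only [u, ← Subgroup.coe_inv, ← Subgroup.coe_mul, Model.u_conj_u, cm, add_assoc]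
theorem z_mul (a b : F) : c.z a * c.z b = c.z (a + b) := by simp [z, u_mul]
theorem z_inj {a b : F} : c.z a = c.z b ↔ a = b := by simp [z, u_inj]
@[simp] theorem z_zero : c.z 0 = 1 := c.u_zero
theorem z_eq_one {a : F} : c.z a = 1 ↔ a = 0 := by rw [← c.z_zero, z_inj]
theorem z_sq (a : F) : c.z a * c.z a = 1 := by rw [z_mul, z_eq_one]; grind
@[simp] theorem z_inv (a : F) : (c.z a)⁻¹ = c.z a := inv_eq_of_mul_eq_one_right (c.z_sq a)
theorem u_z (a b d : F) : c.u a b * c.z d = c.u a (b + d) := by simp [z, u_mul]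
theorem z_u (a b d : F) : c.z d * c.u a b = c.u a (b + d) := by simp [z, u_mul, add_comm]
theorem z_u_comm (a b d : F) : c.z d * c.u a b = c.u a b * c.z d := by rw [u_z, z_u]
theorem u_comm (a b x y : F) : c.u a b * c.u x y = c.z (cm a x) * (c.u x y * c.u a b) := by
  rw [← mul_assoc, z_u, ← c.u_conj a b x y, inv_mul_cancel_right]
theorem u_comm_iff {a b x y : F} : c.u a b * c.u x y = c.u x y * c.u a b ↔ cm a x = 0 := by
  rw [u_comm, mul_eq_right, z_eq_one]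
theorem u_mem_A (a b : F) : c.u a b ∈ c.A := (c.M.u a b).2
theorem t_u (a b : F) : c.t * c.u a b = c.u a b * c.t := c.tc _ (c.u_mem_A a b)
theorem t_z (b : F) : c.t * c.z b = c.z b * c.t := c.t_u 0 b
@[simp] theorem t_inv : c.t⁻¹ = c.t := inv_eq_of_mul_eq_one_right c.tt
theorem tt' (x : G) : c.t * (c.t * x) = x := by rw [← mul_assoc, c.tt, one_mul]
theorem t_ne_one : c.t ≠ 1 := fun h => c.tA (h ▸ one_mem _)
theorem mem_Q {x : G} : x ∈ c.Q ↔ ∃ a b, x = c.u a b := by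
  constructor
  · rintro ⟨_, ⟨a, b, rfl⟩, rfl⟩; exact ⟨a, b, rfl⟩
  · rintro ⟨a, b, rfl⟩; exact ⟨_, ⟨a, b, rfl⟩, rfl⟩
theorem mem_Z {x : G} : x ∈ c.Z ↔ ∃ b, x = c.z b := by
  constructor
  · rintro ⟨_, ⟨b, rfl⟩, rfl⟩; exact ⟨b, rfl⟩
  · rintro ⟨b, rfl⟩; exact ⟨_, ⟨b, rfl⟩, rfl⟩
theorem u_mem_Q (a b : F) : c.u a b ∈ c.Q := c.mem_Q.2 ⟨a, b, rfl⟩
theorem z_mem_Z (b : F) : c.z b ∈ c.Z := c.mem_Z.2 ⟨b, rfl⟩
theorem u_mem_Z {a b : F} : c.u a b ∈ c.Z ↔ a = 0 := by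
  rw [mem_Z]
  exact ⟨fun ⟨_, h⟩ => (c.u_inj.1 h).1, by rintro rfl; exact ⟨b, rfl⟩⟩
theorem Z_le_Q : c.Z ≤ c.Q := map_mono c.M.Z_le_U
theorem Q_le_A : c.Q ≤ c.A := map_subtype_le _
theorem Q_le_T : c.Q ≤ c.T := le_sup_left
theorem t_mem_T : c.t ∈ c.T := mem_sup_right (mem_zpowers _)
theorem Q_le_P (Y : Subgroup G) : c.Q ≤ c.P Y := le_sup_left.trans le_sup_left
theorem le_P (Y : Subgroup G) : Y ≤ c.P Y := le_sup_right.trans le_sup_left
theorem t_mem_P (Y : Subgroup G) : c.t ∈ c.P Y := mem_sup_right (mem_zpowers _)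
theorem T_le_P (Y : Subgroup G) : c.T ≤ c.P Y :=
  sup_le (c.Q_le_P Y) (zpowers_le.2 (c.t_mem_P Y))
theorem P_mono {X Y : Subgroup G} (h : X ≤ Y) : c.P X ≤ c.P Y :=
  sup_le_sup_right (sup_le_sup_left h _) _
theorem P_Z : c.P c.Z = c.T := by rw [P, sup_eq_left.2 c.Z_le_Q, T]
theorem sylT : IsSylowOf 2 c.T 𝒞[c.t] := c.syl
theorem u_mul_t_ne (a b x y : F) : c.u a b * c.t ≠ c.u x y := fun h =>
  c.tA (by
    rw [show c.t = (c.u a b)⁻¹ * c.u x y by rw [← h, inv_mul_cancel_left]]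
    exact mul_mem (inv_mem (c.u_mem_A _ _)) (c.u_mem_A _ _))

end Ctx

end Cfsg.Agent.SZS
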