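import Cfsg.Agent.SZS.Defs
import Cfsg.Agent.H50.Maschke
import Cfsg.Agent.H49.Quot

/-! Standard Suzuki subgroups: two general lemmas (relative Maschke, weak closure). -/

set_option autoImplicit false

namespace Cfsg.Agent.SZS

open Subgroup H49

variable {G : Type*} [Group G] [Finite G]

/-- relative Maschke -/
theorem relMaschke {Y P P' : Subgroup G} {h : G} (h1 : Y ≤ P) (h2 : P ≤ P') (hn : P' ≤ 𝒩(Y))
    (hsq : ∀ x ∈ P', x * x ∈ Y) (ho : Odd (orderOf h)) (hY : h ∈ 𝒩(Y)) (hP : h ∈ 𝒩(P))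
    (hP' : h ∈ 𝒩(P')) : ∃ Y' : Subgroup G, Y ≤ Y' ∧ Y' ≤ P' ∧ h ∈ 𝒩(Y') ∧ P ⊓ Y' ≤ Y ∧
      ∀ x ∈ P', ∃ p ∈ P, ∃ v ∈ Y', x = p * v := by
  have e2 : ∀ a ∈ quo P' Y, a * a = 1 := by
    rintro _ ⟨x, hx, rfl⟩
    rw [← map_mul, coset_eq_one_iff]
    exact hsq _ hx
  have hi : ∀ a ∈ quo P' Y, a⁻¹ = a := fun a ha => inv_eq_of_mul_eq_one_right (e2 a ha)
  have hV : IsElementaryAbelian 2 (quo P' Y) :=
    ⟨abelian_iff.2 (le_cent_iff.2 fun a ha x hx => by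
      rw [← hi _ (mul_mem hx ha), mul_inv_rev, hi a ha, hi x hx]),
      fun a ha => by rw [sq, e2 a ha]⟩
  have hc : (Nat.card (quo (zpowers h) Y)).Coprime 2 := by
    refine Nat.Coprime.coprime_dvd_left (card_quo_dvd _ _) ?_
    rw [Nat.card_zpowers]
    exact ho.coprime_two_right
  obtain ⟨W, w1, w2, w3, w4⟩ := H50.maschke hV (quo_norm Y (zpowers_le.2 hP')) hc (quo_mono Y h2)
    (quo_norm Y (zpowers_le.2 hP))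
  have hPY := h2.trans hn
  have hle : quoPre Y W ≤ P' := (quoPre_le_iff (h1.trans h2) hn).2 w1
  refine ⟨quoPre Y W, le_quoPre W, hle, zpowers_le.1 (norm_quoPre (zpowers_le.2 hY) w2), ?_,
    fun x hx => ?_⟩
  · rw [← quoPre_quo_of_le h1 hPY, ← quoPre_inf, w3, quoPre_bot]
  · have e : P ⊔ quoPre Y W = P' := by
      rw [← quoPre_quo_of_le (h1.trans h2) hn, ← w4, quoPre_sup, quoPre_quo_of_le h1 hPY]
    refine (mem_sup_of_norm_left (norm_of_quo_norm (hle.trans hn) h1 hPY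
      (norm_of_cent (le_cent_of_abelian hV.1 (quo_mono Y hle) (quo_mono Y h2))))).1 (e ▸ hx)

namespace WC

variable {S Z : Subgroup G}

omit [Finite G] in
theorem cj_cent (hc : Z ≤ 𝒞(S)) (g : G) : cj g S ≤ 𝒞(cj g Z) := by
  rw [← cj_centralizer]; exact cj_mono g (cent_symm hc)

theorem key (hS : IsSylowOf 2 S ⊤) (hZ : Z ≤ S) (hc : Z ≤ 𝒞(S)) {g w : G} (hw : w ∈ cj g Z)
    (hwS : w ∈ S) (hwZ : w ∉ Z) : ∃ g' : G, (cj g' Z ≤ S ∧ ¬ cj g' Z ≤ Z) ∧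
      Nat.card ↥(S ⊓ 𝒞[w]) ≤ Nat.card ↥(S ⊓ 𝒞(cj g' Z)) := by
  have s1 : IsSylowOf 2 (cj g S) 𝒞[w] :=
    (hS.cj_of_mem (mem_top g)).sub ((cj_cent hc g).trans (cent_le_cent1 hw)) le_top
  obtain ⟨k, hk, hP⟩ := sylowOf_Jsub s1 (inf_le_right : S ⊓ 𝒞[w] ≤ _) (hS.pi.inf_left _)
  rw [cj_cj] at hP
  have hw' : w ∈ cj (k * g) Z := by
    rw [cj_mul, ← mul_inv_cancel_right w k, ← mem_cent1.1 hk]
    exact conj_mem_cj.2 hw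
  have hPc : S ⊓ 𝒞[w] ≤ 𝒞(cj (k * g) Z) := hP.trans (cj_cent hc _)
  have hZP : Z ≤ S ⊓ 𝒞[w] := le_inf hZ (hc.trans (cent_le_cent1 hwS))
  obtain ⟨d, hd, hD⟩ := sylowOf_subJ (hS.sub (cent_symm hc) le_top)
    (X := S ⊓ 𝒞[w] ⊔ cj (k * g) Z)
    (sup_le (inf_le_left.trans (cent_symm hc)) (cent_symm (hZP.trans hPc)))
    ((hS.pi.cj (k * g)).of_le (sup_le hP (cj_mono _ hZ)))
  refine ⟨d * (k * g), ⟨?_, fun h => hwZ ?_⟩, ?_⟩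
  · rw [cj_mul]; exact (cj_mono d le_sup_right).trans hD
  · rw [cj_mul, cj_le_iff_of_mem_norm (cent_le_norm _ hd)] at h
    exact h hw'
  · rw [Nat.card_congr (cjEquiv d (S ⊓ 𝒞[w])).toEquiv]
    refine card_le_of_le (le_inf ((cj_mono d le_sup_left).trans hD) ?_)
    rw [cj_mul d, ← cj_centralizer]
    exact cj_mono d hPc

end WC

open WC in
/-- a central subgroup of a Sylow subgroup which is not strongly closed -/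
theorem wc {S Z : Subgroup G} (hS : IsSylowOf 2 S ⊤) (hZ : Z ≤ S) (hc : Z ≤ 𝒞(S))
    (h : ¬ IsStronglyClosed Z S) : ∃ g : G, cj g Z ≤ S ∧ ¬ cj g Z ≤ Z ∧
      (∀ w ∈ cj g Z, w ∉ Z → S ⊓ 𝒞[w] ≤ cj g S ⊓ 𝒞(cj g Z)) ∧
      ∀ u ∈ S, (∀ w ∈ cj g Z, w * u * w⁻¹ * u⁻¹ ∈ Z) →
        ∀ w ∈ cj g Z, w ∉ Z → w * u * w⁻¹ * u⁻¹ ∈ cj g Z → w * u = u * w := by
  have hne : {g : G | cj g Z ≤ S ∧ ¬ cj g Z ≤ Z}.Nonempty := by
    by_contra hn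
    refine h ⟨hZ, fun x hx g hg => by_contra fun hx' => hn ?_⟩
    obtain ⟨g', h', -⟩ := key hS hZ hc (conj_mem_cj.2 hx) hg hx'
    exact ⟨g', h'⟩
  obtain ⟨g0, ⟨a1, a2⟩, hm⟩ := Set.exists_max_image _
    (fun g => toLex (Nat.card ↥(S ⊓ 𝒞(cj g Z)), Nat.card ↥(Z ⊓ cj g Z))) (Set.toFinite _) hne
  simp only [Prod.Lex.toLex_le_toLex] at hm
  have s0 : IsSylowOf 2 (cj g0 S) 𝒞(cj g0 Z) :=
    (hS.cj_of_mem (mem_top g0)).sub (cj_cent hc g0) le_top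
  obtain ⟨k, hk, hP⟩ := sylowOf_Jsub s0 (inf_le_right : S ⊓ 𝒞(cj g0 Z) ≤ _) (hS.pi.inf_left _)
  rw [cj_cj] at hP
  have e0 : cj g0 Z = cj (k * g0) Z := by rw [cj_mul, cj_eq_of_mem_cent hk]
  rw [e0] at a1 a2 hm hP
  obtain ⟨g, hg⟩ : ∃ g, g = k * g0 := ⟨_, rfl⟩
  rw [← hg] at a1 a2 hm hP
  have i1 : ∀ w ∈ cj g Z, w ∉ Z → S ⊓ 𝒞[w] = S ⊓ 𝒞(cj g Z) := fun w hw hwZ => by
    obtain ⟨g', h', hl⟩ := key hS hZ hc hw (a1 hw) hwZ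
    refine (eq_of_le_of_card_ge (inf_le_inf_left S (cent_le_cent1 hw)) ?_).symm
    rcases hm g' h' with e | e <;> omega
  refine ⟨g, a1, a2, fun w hw hwZ => ?_, fun u hu hcu w hw hwZ hwu => ?_⟩
  · rw [i1 w hw hwZ]; exact le_inf hP inf_le_right
  have hw' : u * w * u⁻¹ ∈ cj g Z := by
    simpa [mul_assoc] using mul_mem (inv_mem hwu) hw
  have hwZ' : u * w * u⁻¹ ∉ Z := fun e => hwZ (by
    simpa [mul_assoc] using mul_mem (hcu w hw) e)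
  by_cases hn : u ∈ 𝒩(cj g Z)
  · have s1 : IsSylowOf 2 (cj g S) 𝒩(cj g Z) :=
      (hS.cj_of_mem (mem_top g)).sub (norm_of_cent (cj_cent hc g)) le_top
    obtain ⟨d, hd, hD⟩ := sylowOf_Jsub s1 (zpowers_le.2 hn) (hS.pi.of_le (zpowers_le.2 hu))
    have := (hD.trans (cj_le_of_mem_norm (cj_cent hc g) (norm_cent le_rfl hd))) (mem_zpowers u)
    exact mem_centralizer_iff.1 this w hw
  exfalso
  have e1 : cj u (S ⊓ 𝒞(cj g Z)) = S ⊓ 𝒞(cj g Z) := by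
    conv_lhs => rw [← i1 w hw hwZ, cj_inf, cj_cent1, cj_eq_of_mem hu, i1 _ hw' hwZ']
  have hWP : cj g Z ≤ S ⊓ 𝒞(cj g Z) := le_inf a1 ((cj_mono g hZ).trans (cj_cent hc g))
  have e2 : cj (g⁻¹ * (u * g)) Z = cj g⁻¹ (cj u (cj g Z)) := by rw [cj_mul, cj_mul]
  have b1 : cj (g⁻¹ * (u * g)) Z ≤ S := by
    rw [e2, ← le_cj_iff]
    exact ((cj_mono u hWP).trans e1.le).trans hP
  have b2 : ¬ cj (g⁻¹ * (u * g)) Z ≤ Z := fun e => by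
    rw [e2, ← le_cj_iff] at e
    exact hn (mem_norm_of_cj_le e)
  have c1 : Nat.card ↥(S ⊓ 𝒞(cj g Z)) ≤ Nat.card ↥(S ⊓ 𝒞(cj (g⁻¹ * (u * g)) Z)) := by
    rw [Nat.card_congr (cjEquiv g⁻¹ (S ⊓ 𝒞(cj g Z))).toEquiv]
    refine card_le_of_le (le_inf (le_cj_iff.1 hP) ?_)
    rw [e2, ← cj_centralizer g⁻¹, ← cj_centralizer u]
    exact cj_mono _ (e1.ge.trans (cj_mono _ inf_le_right))
  have c2 : Nat.card ↥(Z ⊓ cj g Z) < Nat.card ↥(Z ⊓ cj (g⁻¹ * (u * g)) Z) := by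
    have e3 : Z ⊓ cj (g⁻¹ * (u * g)) Z = cj g⁻¹ (cj g Z ⊓ cj u (cj g Z)) := by
      rw [e2, cj_inf, cj_cj g⁻¹ g, inv_mul_cancel, cj_one]
    rw [e3, ← Nat.card_congr (cjEquiv g⁻¹ _).toEquiv]
    refine card_lt_of_lt (lt_of_le_of_ne (fun x hx => mem_inf.2 ⟨hx.2, ?_⟩) fun e => hwZ' ?_)
    · rw [← mul_inv_cancel_right x u, ← mem_centralizer_iff.1 (hc hx.1) u hu]
      exact conj_mem_cj.2 hx.2
    · exact (mem_inf.1 (e ▸ mem_inf.2 ⟨hw', conj_mem_cj.2 hw⟩)).1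
  rcases hm _ ⟨b1, b2⟩ with e | e <;> omega

end Cfsg.Agent.SZS
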