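import Cfsg.Agent.SZS.Basic
import Cfsg.Agent.SZS.Gen

/-! Standard Suzuki subgroups: the ends of the tower. -/

set_option autoImplicit false
set_option linter.unusedSectionVars false

namespace Cfsg.Agent.SZS.Ctx

open Subgroup H13 H49

variable {G F : Type*} [Group G] [Finite G] [Field F] [Tits F] [Finite F] {c : Ctx G F}
  {j : ℕ} {Y Y' : Subgroup G} {h : G} {ι : G → F} {s k e : F}

theorem finT (hs : IsSylowOf 2 c.T ⊤) : c.SC := by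
  have hc : zpowers c.t ≤ 𝒞(c.Z) := zpowers_le.2 (c.Z_cent_T c.t_mem_T)
  have hZ := c.Z_le_Q.trans c.Q_le_T
  refine ⟨c.T, c.Z ⊔ zpowers c.t, hs, c.Q_le_T, le_sup_left,
    abelian_sup (abelian_iff.2 (hZ.trans c.Z_cent_T)) inferInstance (cent_symm hc),
    sup_le hZ (zpowers_le.2 c.t_mem_T), fun x hx g hg => ?_⟩
  have h2 : x * x = 1 := by
    obtain ⟨w, hw, e, he, rfl⟩ := (mem_sup_of_norm_left (norm_of_cent hc)).1 hx
    obtain ⟨b, rfl⟩ := c.mem_Z.1 hw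
    rcases (mem_zp2 c.tt).1 he with rfl | rfl
    · rw [mul_one, z_sq]
    · rw [z, ut_sq, N_zero, z_zero]
  obtain ⟨b, e | e⟩ := c.invol_T hg (by rw [conj_mul, h2]; simp) <;> rw [e]
  exacts [mem_sup_left (c.z_mem_Z b), mul_mem_sup (c.z_mem_Z b) (mem_zpowers _)]

namespace Fn

theorem half_le {A K : Subgroup G} (h : ∀ a ∈ A, ∀ b ∈ A, a ∉ K → b ∉ K → a * b ∈ K) :
    Nat.card A ≤ 2 * Nat.card (K ⊓ A : Subgroup G) := by
  by_cases h0 : A ≤ K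
  · rw [inf_eq_right.2 h0]; omega
  obtain ⟨a, ha, hn⟩ := SetLike.not_le_iff_exists.1 h0
  have : K.relIndex A = 2 := index_eq_two_iff.2 ⟨⟨a, ha⟩, fun b => by
    by_cases e : (b : G) ∈ K
    · exact .inr ⟨e, fun h' => hn ((mul_mem_cancel_left e).1 h')⟩
    · exact .inl ⟨h b b.2 a ha e hn, e⟩⟩
  rw [← card_inf_mul_relIndex K A, this, mul_comm]

theorem card_cent {B Z : Subgroup G} {x : G} (hB : B ≤ 𝒞(Z))
    (h : ∀ y ∈ B, x * y * x⁻¹ * y⁻¹ ∈ Z) : Nat.card B ≤ Nat.card ↥(𝒞[x] ⊓ B) * Nat.card Z := by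
  let φ : B →* G := MonoidHom.mk' (fun y => x * y * x⁻¹ * (y : G)⁻¹) fun y w => by
    rw [mul_assoc _ (y : G)⁻¹, ← mem_cent.1 (hB (inv_mem y.2)) _ (h w w.2), Subgroup.coe_mul]
    group
  have e1 : φ.ker = (𝒞[x]).subgroupOf B := Subgroup.ext fun y => by
    rw [MonoidHom.mem_ker, mem_subgroupOf, mem_cent1]
    change x * y * x⁻¹ * (y : G)⁻¹ = 1 ↔ _
    rw [mul_inv_eq_one, mul_inv_eq_iff_eq_mul, eq_comm]
  rw [← φ.ker.card_mul_index, index_ker, e1, card_subgroupOf]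
  exact Nat.mul_le_mul_left _ (card_le_of_le (by rintro _ ⟨y, rfl⟩; exact h y y.2))

theorem conj2 {x : G} (hx : x * x = 1) (g : G) : g * x * g⁻¹ * (g * x * g⁻¹) = 1 := by
  rw [conj_mul, hx]; simp

theorem sqW {g w : G} (hw : w ∈ cj g c.Z) : w * w = 1 := by
  obtain ⟨x, hx, rfl⟩ := mem_cj'.1 hw
  obtain ⟨b, rfl⟩ := c.mem_Z.1 hx
  exact conj2 (c.z_sq b) g

theorem cardW (g : G) : 8 ≤ Nat.card (cj g c.Z) := by
  rw [← Nat.card_congr (cjEquiv g c.Z).toEquiv, card_Z]; exact eight_le c.par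

theorem uy_comm (S : c.St j Y h) (a b x d : F) {y : G} (hy : y ∈ Y) :
    c.u a b * y * c.u x d * (c.u a b * y)⁻¹ * (c.u x d)⁻¹ = c.z (cm a x) := by
  rw [mul_assoc _ y, ← S.cQ y hy, ← mul_assoc, u_comm]; group

theorem ne0 (S : c.St j Y h) {a b : F} {y : G} (hy : y ∈ Y)
    (h2 : c.u a b * y * (c.u a b * y) = 1) (hZ : c.u a b * y ∉ c.Z) : a ≠ 0 := by
  rintro rfl
  exact hZ (S.om _ (mul_mem (S.ZY (c.z_mem_Z b)) hy) h2)

theorem elemJ (S : c.St j Y h) {K : Subgroup G} (h2 : ∀ x ∈ K, x * x = 1)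
    (hK : ∀ x ∈ K, ∃ a b, ∃ y ∈ Y, x = c.u a b * y) :
    Nat.card K ≤ 2 * Nat.card ↥(c.Z ⊓ K) := half_le fun x hx w hw hxZ hwZ => by
  have hi : ∀ a ∈ K, a⁻¹ = a := fun a ha => inv_eq_of_mul_eq_one_right (h2 a ha)
  have hc : x * w = w * x := by rw [← hi _ (mul_mem hx hw), mul_inv_rev, hi x hx, hi w hw]
  have h3 := h2 _ (mul_mem hx hw)
  obtain ⟨a, b, y, hy, rfl⟩ := hK x hx
  obtain ⟨a', b', y', hy', rfl⟩ := hK w hw
  have e : ∀ {a b a' b' : F} {y y' : G}, y ∈ Y →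
      c.u a b * y * (c.u a' b' * y') = c.u a b * c.u a' b' * (y * y') := fun hy => by
    rw [mul_assoc, ← mul_assoc _ (c.u _ _), ← S.cQ _ hy]; group
  rw [e hy, e hy', S.comm y hy y' hy', mul_left_inj, u_comm_iff] at hc
  rcases cm_eq_zero hc with r | r | rfl
  · exact absurd r (ne0 S hy (h2 _ hx) hxZ)
  · exact absurd r (ne0 S hy' (h2 _ hw) hwZ)
  · rw [e hy, u_mul, CharTwo.add_self_eq_zero] at h3 ⊢
    exact S.om _ (mul_mem (S.ZY (c.z_mem_Z _)) (mul_mem hy hy')) h3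

theorem z0 {W : Subgroup G} {a : F} (ha : a ≠ 0) (h : ∀ x, c.z (cm a x) ∈ W → cm a x = 0)
    {b d : F} (hb : c.z b ∈ W) (hd : c.z d ∈ W) : b = 0 ∨ d = 0 ∨ b = d := by
  rcases cm_or ha b with ⟨x, rfl⟩ | ⟨x, rfl⟩
  · exact .inl (h x hb)
  rcases cm_or ha d with ⟨y, rfl⟩ | ⟨y, rfl⟩
  · exact .inr (.inl (h y hd))
  have := mul_mem hb hd
  rw [z_mul, show N a + cm a x + (N a + cm a y) = cm a (x + y) by rw [cm_add_right]; grind] at this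
  have := h _ this
  rw [cm_add_right] at this
  exact .inr (.inr (by grind))

theorem fin_gen (hj : 1 ≤ j) (T : c.St j Y h) {S J : Subgroup G} (hS : IsSylowOf 2 S ⊤)
    (QS : c.Q ≤ S) (YS : Y ≤ S) (YJ : Y ≤ J) (hJ : ∀ x ∈ S, x ∈ J ∨ x * c.t ∈ J)
    (cY : ∀ x ∈ J, ∀ y ∈ Y, x * y = y * x) (cZ : S ≤ 𝒞(c.Z))
    (cQ : ∀ x ∈ S, ∀ a b, x * c.u a b * x⁻¹ * (c.u a b)⁻¹ ∈ c.Z)
    (inv : ∀ x ∈ J, x * x = 1 → ∃ a b, ∃ y ∈ Y, x = c.u a b * y) : c.SC := by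
  have hZ := c.Z_le_Q.trans QS
  refine ⟨S, c.Z, hS, QS, le_rfl, abelian_iff.2 (hZ.trans cZ), by_contra fun hn => ?_⟩
  obtain ⟨g, w1, w2, -, w4⟩ := wc hS hZ (cent_symm cZ) hn
  have k1 := elemJ T (K := J ⊓ cj g c.Z) (fun x hx => sqW hx.2) fun x hx => inv x hx.1 (sqW hx.2)
  have k0 := cardW (c := c) g
  by_cases hW : cj g c.Z ≤ J
  · obtain ⟨w, hw, hwZ⟩ := SetLike.not_le_iff_exists.1 w2
    obtain ⟨a, b, y, hy, rfl⟩ := inv w (hW hw) (sqW hw)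
    have k2 := half_le (A := c.Z ⊓ cj g c.Z) (K := ⊥) fun x hx x' hx' n n' => by
      obtain ⟨d, rfl⟩ := c.mem_Z.1 hx.1
      obtain ⟨d', rfl⟩ := c.mem_Z.1 hx'.1
      rw [mem_bot, z_eq_one] at n n'
      rcases z0 (ne0 T hy (sqW hw) hwZ) (fun x hx => by
        rw [← c.z_eq_one, ← uy_comm T a b x 0 hy, w4 _ (QS (c.u_mem_Q x 0))
          (fun v hv => cQ v (w1 hv) x 0) _ hw hwZ (by rwa [uy_comm T a b x 0 hy])]
        group) hx.2 hx'.2 with r | r | rfl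
      exacts [absurd r n, absurd r n', c.z_sq _]
    rw [bot_inf_eq, card_bot] at k2
    rw [inf_eq_right.2 hW] at k1
    omega
  · obtain ⟨w, hw, hwJ⟩ := SetLike.not_le_iff_exists.1 hW
    have k2 := half_le (A := cj g c.Z) (K := J) fun x hx x' hx' n n' => by
      have := mul_mem ((hJ x (w1 hx)).resolve_left n) (inv_mem ((hJ x' (w1 hx')).resolve_left n'))
      rwa [mul_inv_rev, mul_assoc, mul_inv_cancel_left, inv_eq_of_mul_eq_one_right (sqW hx')] at this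
    have k3 : c.Z ⊓ (J ⊓ cj g c.Z) = ⊥ := eq_bot_iff.2 fun x hx => by
      obtain ⟨b, rfl⟩ := c.mem_Z.1 hx.1
      obtain ⟨y, hy, e⟩ := T.exists_sq hj b
      have f : ∀ v ∈ S, v ∉ J → v * y * v⁻¹ * y⁻¹ = c.z b := fun v hv n => by
        have := cY _ ((hJ v hv).resolve_left n) _ (inv_mem hy)
        calc _ = v * c.t * (c.t * y * c.t) * (v * c.t)⁻¹ * y⁻¹ := by
              simp only [mul_inv_rev, t_inv, mul_assoc, tt']
          _ = (y * y)⁻¹ := by rw [T.inv y hy, this]; group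
          _ = _ := by rw [e, z_inv]
      rw [mem_bot, ← f w (w1 hw) hwJ, w4 y (YS hy) (fun v hv => ?_) w hw
        (fun r => hwJ (YJ (T.ZY r))) (by rw [f w (w1 hw) hwJ]; exact hx.2.2)]
      · group
      · by_cases n : v ∈ J
        · rw [cY v n y hy]; simp
        · rw [f v (w1 hv) n]; exact c.z_mem_Z b
    rw [k3, card_bot] at k1
    omega

theorem cQ (S : c.Step j Y h Y' ι s k) {x : G} (hx : x ∈ c.P Y') (a b : F) :
    x * c.u a b * x⁻¹ * (c.u a b)⁻¹ ∈ c.Z := by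
  have : ∀ a' b', ∀ v ∈ Y', c.u a' b' * v * c.u a b * (c.u a' b' * v)⁻¹ * (c.u a b)⁻¹ ∈ c.Z := by
    intro a' b' v hv
    rw [show c.u a' b' * v * c.u a b * (c.u a' b' * v)⁻¹ =
      c.u a' b' * (v * c.u a b * v⁻¹) * (c.u a' b')⁻¹ by group, S.cQ v hv, u_conj, u_inv, u_mul,
      u_mem_Z, CharTwo.add_self_eq_zero]
  obtain ⟨a', b', v, hv, rfl | rfl⟩ := (S.mem x).1 hx
  · exact this a' b' v hv
  · rw [mul_assoc _ c.t, t_u]
    simpa [mul_assoc, tt'] using this a' b' v hv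

theorem hJ (S : c.Step j Y h Y' ι s k) {x : G} (hx : x ∈ c.P Y') :
    x ∈ c.Q ⊔ Y' ∨ x * c.t ∈ c.Q ⊔ Y' := by
  obtain ⟨a, b, v, hv, rfl | rfl⟩ := (S.mem x).1 hx
  · exact .inl (mul_mem_sup (c.u_mem_Q a b) hv)
  · rw [mul_assoc _ c.t, c.tt, mul_one]; exact .inr (mul_mem_sup (c.u_mem_Q a b) hv)

theorem uv_sq (S : c.Step j Y h Y' ι s k) (a b : F) {v : G} (hv : v ∈ Y') :
    ∃ d, ∀ w, c.u a b * v * (c.u a b * w) = c.z d * (v * w) :=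
  ⟨_, fun w => by
    rw [show c.u a b * v * (c.u a b * w) = c.u a b * (v * c.u a b * v⁻¹) * (v * w) by group,
      S.cQ v hv, u_mul, CharTwo.add_self_eq_zero, z]⟩

end Fn

open Fn

theorem fin0 (hj : 1 ≤ j) (S : c.St j Y h) (hs : IsSylowOf 2 (c.P Y) ⊤) : c.SC := by
  refine fin_gen hj S (J := c.Q ⊔ Y) hs (c.Q_le_P _) (c.le_P _) le_sup_right (fun x hx => ?_)
    (fun x hx y hy => ?_) ?_ (fun x hx a b => ?_) fun x hx _ => S.mem_J.1 hx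
  · obtain ⟨a, b, v, hv, rfl | rfl⟩ := S.mem_P.1 hx
    · exact .inl (mul_mem_sup (c.u_mem_Q a b) hv)
    · rw [mul_assoc _ c.t, c.tt, mul_one]; exact .inr (mul_mem_sup (c.u_mem_Q a b) hv)
  · obtain ⟨a, b, v, hv, rfl⟩ := S.mem_J.1 hx
    rw [mul_assoc, S.comm v hv y hy, ← mul_assoc, S.cQ y hy, mul_assoc]
  · exact sup_le (sup_le (c.Q_le_T.trans c.Z_cent_T) (S.cent_Q.trans (cent_anti c.Z_le_Q)))
      (zpowers_le.2 (c.Z_cent_T c.t_mem_T))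
  · obtain ⟨a', b', v, hv, rfl | rfl⟩ := S.mem_P.1 hx
    · rw [uy_comm S a' b' a b hv]; exact c.z_mem_Z _
    · rw [mul_assoc _ c.t, t_u]
      have := c.z_mem_Z (cm a' a)
      rw [← uy_comm S a' b' a b hv] at this
      simpa [mul_assoc, tt'] using this

theorem fin1 (hj : 1 ≤ j) (S : c.Step j Y h Y' ι 1 k) (hc : ∀ v ∈ Y', ∀ w ∈ Y', v * w = w * v)
    (hs : IsSylowOf 2 (c.P Y') ⊤) : c.SC := by
  refine fin_gen hj S.st (J := c.Q ⊔ Y') hs (c.Q_le_P _) (S.le.trans (c.le_P _))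
    (S.le.trans le_sup_right) (fun x => hJ S) (fun x hx y hy => ?_) S.cent_Z (fun x => cQ S)
    fun x hx h2 => ?_
  · obtain ⟨a, b, v, hv, rfl⟩ := S.mem_J.1 hx
    rw [mul_assoc, hc v hv y (S.le hy), ← mul_assoc, S.st.cQ y hy, mul_assoc]
  · obtain ⟨a, b, v, hv, rfl⟩ := S.mem_J.1 hx
    obtain ⟨d, hd⟩ := uv_sq S a b hv
    rw [hd, mul_eq_one_iff_inv_eq, z_inv] at h2
    obtain ⟨i, rfl⟩ := Nat.exists_eq_add_of_le' hj
    have := S.sq v hv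
    rw [← h2, pow_succ', pow_mul, sq, z_sq, one_pow, one_mul, eq_comm, z_eq_one,
      S.ι_ker v hv] at this
    exact ⟨a, b, v, this, rfl⟩

theorem fin2 (S : c.Step 1 Y h Y' ι 0 k) (hB : ∀ v ∈ Y', ∀ y ∈ Y, ∀ b, y * y = c.z b →
    v * y * v⁻¹ * y⁻¹ = c.z (ψ (ψ (ι v * b)))) : c.SC := by
  have q8 := eight_le c.par
  have JP : c.Q ⊔ Y' ≤ c.P Y' := le_sup_left
  have JJ : c.Q ⊔ Y ≤ c.Q ⊔ Y' := sup_le_sup_left S.le _
  have hv2 : ∀ v ∈ Y', v * v ∈ c.Z := fun v hv => S.st.om _ (S.sqY v (c.le_P _ hv)) (by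
    simpa [sq] using S.sq v hv)
  have sqJ : ∀ x ∈ c.Q ⊔ Y', x * x ∈ c.Z := fun x hx => by
    obtain ⟨a, b, v, hv, rfl⟩ := S.mem_J.1 hx
    obtain ⟨d, hd⟩ := uv_sq S a b hv
    rw [hd]; exact mul_mem (c.z_mem_Z d) (hv2 v hv)
  have cJ : ∀ x ∈ c.Q ⊔ Y', ∀ y ∈ c.Q ⊔ Y', x * y * x⁻¹ * y⁻¹ ∈ c.Z := fun x hx y hy => by
    have h1 := mul_mem (mul_mem (sqJ _ (mul_mem hx hy))
      (cm_norm' (cent_le_norm _ (S.cent_Z (JP hy))) (inv_mem (sqJ x hx)))) (inv_mem (sqJ y hy))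
    convert h1 using 1; group
  have nt : ∀ g, g * c.t * g⁻¹ ∉ c.Q ⊔ Y' := fun g hg => by
    have k1 := card_cent (JP.trans S.cent_Z) (cJ _ hg)
    have k2 := c.card_le_of_cent (S.two.to_le (inf_le_right.trans JP))
      (inf_le_left : 𝒞[g * c.t * g⁻¹] ⊓ (c.Q ⊔ Y') ≤ _)
    rw [S.card_J, card_Z] at k1
    have k3 := k1.trans (Nat.mul_le_mul_right _ k2)
    have : Nat.card F ^ 3 * Nat.card F ≤ Nat.card F ^ 3 * 2 := by
      calc _ = Nat.card F ^ (1 + 3) := by ring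
        _ ≤ _ := k3
        _ = _ := by ring
    have := Nat.le_of_mul_le_mul_left this (by positivity)
    omega
  have ct : ∀ x ∈ c.P Y', x * x = 1 → x ∉ c.Q ⊔ Y' → ∃ p ∈ c.P Y', x = p * c.t * p⁻¹ := by
    intro x hx h2 n
    obtain ⟨a, b, v, hv, rfl | rfl⟩ := (S.mem x).1 hx
    · exact absurd (mul_mem_sup (c.u_mem_Q a b) hv) n
    obtain ⟨d, hd⟩ := uv_sq S a b hv
    have h3 : c.z d * (v * v) * (v⁻¹ * c.t * v * c.t) = 1 := by
      calc _ = c.z d * (v * (c.t * v * c.t)) := by group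
        _ = c.u a b * v * (c.u a b * c.t * (v * c.t)) := by rw [← hd]; group
        _ = 1 := by rw [← t_u, ← h2]; group
    obtain ⟨d', hd'⟩ := c.mem_Z.1 ((mul_mem_cancel_left (mul_mem (c.z_mem_Z d) (hv2 v hv))).1
      (h3 ▸ one_mem _))
    have h4 := (S.ι_t v hv).2
    rw [hd', pow_one, sq, z_sq, eq_comm, z_eq_one, S.ι_ker v hv] at h4
    rw [S.st.uyt_sq a b h4, z_eq_one, N_eq_zero] at h2
    subst h2
    obtain ⟨p, hp, e⟩ := S.conj_tY (mul_mem (S.st.ZY (c.z_mem_Z b)) h4)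
    exact ⟨p, hp, e.symm⟩
  have hS : IsSylowOf 2 (c.P Y') ⊤ := c.principle S.two (c.T_le_P _) fun g hg =>
    ct _ (cm_norm hg (c.t_mem_P _)) (conj2 c.tt g) (nt g)
  have hZ := c.Z_le_Q.trans (c.Q_le_P Y')
  refine ⟨_, c.Z, hS, c.Q_le_P _, le_rfl, abelian_iff.2 (hZ.trans S.cent_Z), by_contra fun hn => ?_⟩
  obtain ⟨g, w1, w2, w3, w4⟩ := wc hS hZ (cent_symm S.cent_Z) hn
  have hW : cj g c.Z ≤ c.Q ⊔ Y' := fun w hw => by_contra fun n => by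
    obtain ⟨p, -, rfl⟩ := ct w (w1 hw) (sqW hw) n
    exact c.t_not_Z (g⁻¹ * p) (by simpa [mul_assoc] using hw)
  have i2 : ∀ x ∈ cj g (c.P Y'), ∀ y ∈ cj g (c.P Y'), x ∉ cj g (c.Q ⊔ Y') → y ∉ cj g (c.Q ⊔ Y') →
      x * y ∈ cj g (c.Q ⊔ Y') := fun x hx y hy n n' => by
    obtain ⟨x1, hx1, rfl⟩ := mem_cj'.1 hx
    obtain ⟨y1, hy1, rfl⟩ := mem_cj'.1 hy
    rw [conj_mem_cj] at n n'
    have := mul_mem ((hJ S hx1).resolve_left n)
      (inv_mem ((hJ S (inv_mem hy1)).resolve_left (mt inv_mem_iff.1 n')))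
    rw [conj_mul, conj_mem_cj]
    simpa [mul_assoc, tt'] using this
  have s2 : ∀ x ∈ cj g (c.Q ⊔ Y'), x * x ∈ cj g c.Z := fun x hx => by
    obtain ⟨x1, hx1, rfl⟩ := mem_cj'.1 hx
    rw [conj_mul, conj_mem_cj]; exact sqJ x1 hx1
  obtain ⟨w, hw, hwZ⟩ := SetLike.not_le_iff_exists.1 w2
  have w5 : ∀ x ∈ c.Q ⊔ Y', ∀ b, w * x * w⁻¹ * x⁻¹ = c.z b → c.z b ∈ cj g c.Z → b = 0 :=
    fun x hx b e hb => by
      rw [← c.z_eq_one, ← e, w4 x (JP hx) (fun v hv => cJ v (hW hv) x hx) w hw hwZ (e ▸ hb)]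
      group
  have w6 : ∀ x ∈ c.Q ⊔ Y, x ∈ 𝒞[w] → x ∈ cj g (c.P Y') := fun x hx hc =>
    (mem_inf.1 (w3 w hw hwZ (mem_inf.2 ⟨JP (JJ hx), hc⟩))).1
  obtain ⟨a, b, v, hv, rfl⟩ := S.mem_J.1 (hW hw)
  by_cases hY : v ∈ Y
  · obtain ⟨d, hd⟩ : ∃ d, ∀ x, c.z x ∈ cj g c.Z → x = 0 ∨ x = d := by
      by_cases e : ∃ d, d ≠ 0 ∧ c.z d ∈ cj g c.Z
      · obtain ⟨d, d0, hd⟩ := e
        refine ⟨d, fun x hx => ?_⟩
        have := z0 (ne0 S.st hY (sqW hw) hwZ) (fun x => w5 _ (mem_sup_left (c.u_mem_Q x 0)) _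
          (uy_comm S.st a b x 0 hY)) hx hd
        tauto
      · exact ⟨0, fun x hx => .inl (by_contra fun n => e ⟨x, n, hx⟩)⟩
    have f4 : ∀ a b c d : F, ∃ x, x ≠ a ∧ x ≠ b ∧ x ≠ c ∧ x ≠ d := fun a b c d => by
      classical
      by_contra hn
      have := Fintype.ofFinite F
      have h1 : (Finset.univ : Finset F) ⊆ {a, b, c, d} := fun x _ => by
        simp only [Finset.mem_insert, Finset.mem_singleton]
        by_contra r
        exact hn ⟨x, by tauto⟩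
      have h2 := (Finset.card_le_card h1).trans Finset.card_le_four
      rw [Finset.card_univ, ← Nat.card_eq_fintype_card] at h2
      omega
    obtain ⟨x, x1, x2, -⟩ := f4 0 d 0 0
    obtain ⟨x', x3, x4, x5, x6⟩ := f4 0 d x (x + d)
    obtain ⟨y, hy, e⟩ := S.st.exists_sq le_rfl x
    obtain ⟨y', hy', e'⟩ := S.st.exists_sq le_rfl x'
    have hm : ∀ y ∈ Y, y ∈ cj g (c.P Y') := fun y hy => w6 y (mem_sup_right hy) (by
      rw [mem_cent1, ← mul_assoc, ← S.st.cQ y hy, mul_assoc, S.st.comm y hy v hY, mul_assoc])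
    have := s2 _ (i2 y (hm y hy) y' (hm y' hy') (fun r => by
      have := hd x (e ▸ s2 y r); tauto) fun r => by have := hd x' (e' ▸ s2 y' r); tauto)
    rw [← sq, S.st.mul_pow hy hy', sq, sq, e, e', z_mul] at this
    have := hd _ this
    grind
  · have hι : ι v ≠ 0 := mt (S.ι_ker v hv).1 hY
    have z1 : ∀ d, c.z d ∈ cj g c.Z → d = 0 := fun d hd => by
      obtain ⟨y, hy, e⟩ := S.st.exists_sq le_rfl (d ^ 2 / ι v)
      refine w5 y (mem_sup_right (S.le hy)) d ?_ hd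
      have h1 := hB v hv y hy _ e
      rw [mul_div_cancel₀ _ hι, ψψ_sq] at h1
      calc _ = c.u a b * (v * y * v⁻¹ * y⁻¹) * (y * (c.u a b)⁻¹ * y⁻¹) := by group
        _ = _ := by
          rw [h1, u_inv, ← S.st.cQ y hy, ← u_inv, ← z_u_comm]; group
    have k1 := card_cent ((JJ.trans JP).trans S.cent_Z) fun y hy => cJ _ (hW hw) y (JJ hy)
    have k2 := half_le (A := 𝒞[c.u a b * v] ⊓ (c.Q ⊔ Y)) (K := cj g (c.Q ⊔ Y'))
      fun x hx y hy => i2 x (w6 x hx.2 hx.1) y (w6 y hy.2 hy.1)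
    have k3 := elemJ S.st (K := cj g (c.Q ⊔ Y') ⊓ (𝒞[c.u a b * v] ⊓ (c.Q ⊔ Y))) (fun x hx => by
      obtain ⟨d, hd⟩ := c.mem_Z.1 (sqJ x (JJ hx.2.2))
      rw [hd, z1 d (hd ▸ s2 x hx.1), z_zero]) fun x hx => S.st.mem_J.1 hx.2.2
    have k4 := card_le_of_le (inf_le_left :
      c.Z ⊓ (cj g (c.Q ⊔ Y') ⊓ (𝒞[c.u a b * v] ⊓ (c.Q ⊔ Y))) ≤ _)
    have k5 := card_sup_mul_card_inf (H := c.Q) (K := Y) (Or.inr (norm_of_cent S.st.cent_Q))
    rw [show c.Q ⊓ Y = c.Z from le_antisymm (fun x hx => by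
      obtain ⟨a, b, rfl⟩ := c.mem_Q.1 hx.1
      exact c.u_mem_Z.2 (S.u_mem (S.le hx.2))) (le_inf c.Z_le_Q S.st.ZY), card_Z, card_Q,
      S.st.card] at k5
    rw [card_Z] at k1 k4
    have k6 : Nat.card ↥(c.Q ⊔ Y) ≤ 4 * Nat.card F * Nat.card F :=
      k1.trans (Nat.mul_le_mul_right _ (by omega))
    have : Nat.card F ^ 3 * Nat.card F ≤ Nat.card F ^ 3 * 4 := by
      calc _ = Nat.card ↥(c.Q ⊔ Y) * Nat.card F := by rw [k5]; ring
        _ ≤ _ := Nat.mul_le_mul_right _ k6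
        _ = _ := by ring
    have := Nat.le_of_mul_le_mul_left this (by positivity)
    omega

end Cfsg.Agent.SZS.Ctx
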