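import Cfsg.Agent.SZS.Basic

/-! notes/SZS.md, section Lev1: coordinates on the first step of the tower. -/

set_option autoImplicit false

namespace Cfsg.Agent.SZS.L1

open Subgroup H13 H49

section Alg
variable {F : Type*} [Field F] [Tits F]

abbrev V (F : Type*) := ZMod 2 × F × F

noncomputable def ec (F : Type*) [Field F] [Tits F] : ZMod 2 →+* F := ZMod.castHom (dvd_refl 2) F

theorem z2 (e : ZMod 2) : e = 0 ∨ e = 1 := by revert e; decide

theorem V_add_self (e : V F) : e + e = 0 := by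
  obtain ⟨x, a, b⟩ := e
  refine Prod.ext ?_ (Prod.ext ?_ ?_) <;> exact CharTwo.add_self_eq_zero _

theorem V_add_eq_zero {e e' : V F} : e + e' = 0 ↔ e = e' :=
  ⟨fun h => by rw [← add_zero e, ← V_add_self e', ← add_assoc, h, zero_add],
    fun h => h ▸ V_add_self e⟩

variable [Finite F]

noncomputable def qf (s k : F) (e : V F) : F :=
  N e.2.1 + k * ψ (e.2.1 * e.2.2) + (s + ec F e.1) * e.2.2

noncomputable def bf (k : F) (e e' : V F) : F :=
  cm e.2.1 e'.2.1 + k * ψ (e.2.1 * e'.2.2) + k * ψ (e'.2.1 * e.2.2) + ec F e.1 * e'.2.2 +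
    ec F e'.1 * e.2.2

theorem qf_add (s k : F) (e e' : V F) : qf s k (e + e') = qf s k e + qf s k e' + bf k e e' := by
  simp only [qf, bf, Prod.fst_add, Prod.snd_add, N_add, add_mul, mul_add, map_add]
  ring

theorem ψ_N (a : F) : ψ (N a) = a * ψ a := by rw [N, map_mul, ψ_θ]

theorem qf_scal (s k l : F) (e : V F) :
    qf s k (e.1, l * e.2.1, N l * e.2.2) = N l * qf s k e := by
  have : ψ (l * e.2.1 * (N l * e.2.2)) = N l * ψ (e.2.1 * e.2.2) := by
    rw [show l * e.2.1 * (N l * e.2.2) = θ (N l) * (e.2.1 * e.2.2) by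
      rw [N, map_mul, θθ]; ring, map_mul, ψ_θ]
  simp only [qf, N_mul, this]
  ring

theorem ψ_sur {k a : F} (hk : k ≠ 0) (ha : a ≠ 0) (d : F) : ∃ b, k * ψ (a * b) = d :=
  ⟨a⁻¹ * θ (k⁻¹ * d), by rw [mul_inv_cancel_left₀ ha, ψ_θ, mul_inv_cancel_left₀ hk]⟩

omit [Finite F] in
theorem sum_even [Fintype F] [DecidableEq F] (f : F → F) {b : F} (hb : b ≠ 0)
    (h : ∀ x, f (x + b) = f x) : ∑ x, (if f x = 0 then 1 else 0 : ZMod 2) = 0 :=
  Finset.sum_involution (fun x _ => x + b) (fun x _ => by rw [h, CharTwo.add_self_eq_zero])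
    (fun x _ _ e => hb (add_eq_left.1 e)) (fun _ _ => Finset.mem_univ _)
    (fun x _ => by rw [add_assoc, CharTwo.add_self_eq_zero, add_zero])

omit [Tits F] [Finite F] in
theorem sum_one [Fintype F] [DecidableEq F] (f : F → F) (b : F) (h : ∀ x, f x = 0 ↔ x = b) :
    ∑ x, (if f x = 0 then 1 else 0 : ZMod 2) = 1 := by
  simp [h]

theorem parity [Fintype F] [DecidableEq F] (s : F) {k : F} (hk : k ≠ 0) :
    ∑ e ∈ Finset.univ.filter (fun e : V F => qf s k e = 0), e.1 = 1 := by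
  rw [Finset.sum_filter, Fintype.sum_prod_type,
    show (Finset.univ : Finset (ZMod 2)) = {0, 1} by decide, Finset.sum_pair (by decide)]
  simp only [ite_self, Finset.sum_const_zero, zero_add, Fintype.sum_prod_type]
  by_cases hs : s + 1 = 0
  · have h1 : ∀ a : F, ∑ b, (if qf s k (1, a, b) = 0 then 1 else 0 : ZMod 2) =
        (if (0 : F) = 0 then 1 else 0) + if a = 0 then 1 else 0 := fun a => by
      by_cases ha : a = 0
      · rw [sum_even (fun b => qf s k (1, a, b)) one_ne_zero fun x => by simp [qf, ha, hs], if_pos rfl,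
          if_pos ha, CharTwo.add_self_eq_zero]
      · obtain ⟨b, hb⟩ := ψ_sur hk ha (N a)
        rw [sum_one (fun b => qf s k (1, a, b)) b fun x => by
          simp only [qf, map_one, hs, zero_mul, add_zero, ← hb, CharTwo.add_eq_zero,
            mul_right_inj' hk, EmbeddingLike.apply_eq_iff_eq, mul_right_inj' ha]
          exact eq_comm]
        simp [ha]
    rw [Finset.sum_congr rfl fun a _ => h1 a, Finset.sum_add_distrib,
      sum_even (fun _ => (0 : F)) one_ne_zero fun _ => rfl]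
    simp
  · rw [Finset.sum_eq_single 0 (fun a _ ha => ?_) (fun h => absurd (Finset.mem_univ _) h)]
    · exact sum_one (fun b => qf s k (1, 0, b)) 0 fun x => by simp [qf, hs]
    · obtain ⟨γ, hγ⟩ : ∃ γ, γ = θ k * a / θ (s + 1) := ⟨_, rfl⟩
      have h0 : γ ≠ 0 := hγ ▸ div_ne_zero (mul_ne_zero (θ_ne_zero hk) ha) (θ_ne_zero hs)
      have h1 : k * ψ (a * N γ) = (s + 1) * N γ := θ_inj (by
        have : θ k * a = γ * θ (s + 1) := by rw [hγ, div_mul_cancel₀ _ (θ_ne_zero hs)]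
        rw [map_mul, θ_ψ, map_mul, ← mul_assoc, this, N, map_mul, θθ]
        ring)
      refine sum_even (fun b => qf s k (1, a, b)) (N_eq_zero.not.2 h0) fun x => ?_
      simp only [qf, map_one, mul_add, map_add, h1]
      grind

omit [Finite F] [Tits F] in
theorem fix_sum {W : Type*} [AddCommGroup W] [DecidableEq W] (T : Finset W) (α : W →+ W)
    (hi : Function.Injective α) (h : ∀ e ∈ T, α e ∈ T) : α (∑ e ∈ T, e) = ∑ e ∈ T, e := by
  have h1 : T.image α = T := Finset.eq_of_subset_of_card_le (Finset.image_subset_iff.2 h)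
    (Finset.card_image_of_injective T hi).ge
  rw [map_sum, ← Finset.sum_image (f := fun e => e) (hi.injOn), h1]

/-- an additive bijection preserving the zeros of `qf` fixes `(1, 0, 0)` -/
theorem fix_t (s : F) {k l : F} (hk : k ≠ 0) (l0 : l ≠ 0) (l1 : l ≠ 1) (n1 : N l ≠ 1)
    (α : V F →+ V F) (hi : Function.Injective α) (h : ∀ e, qf s k e = 0 → qf s k (α e) = 0) :
    α (1, 0, 0) = (1, 0, 0) := by
  classical
  haveI := Fintype.ofFinite F
  obtain ⟨T, hT⟩ : ∃ T, T = Finset.univ.filter (fun e : V F => qf s k e = 0) := ⟨_, rfl⟩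
  have hm : ∀ e, e ∈ T ↔ qf s k e = 0 := fun e => by simp [hT]
  let η : V F →+ V F :=
    { toFun := fun e => (e.1, l * e.2.1, N l * e.2.2)
      map_zero' := by simp
      map_add' := fun x y => by simp [mul_add] }
  have h1 := fix_sum T α hi fun e he => (hm _).2 (h e ((hm _).1 he))
  have h2 := fix_sum T η ((injective_iff_map_eq_zero η).2 fun e he => by
    obtain ⟨x, a, b⟩ := e
    simpa [η, l0] using he) fun e he => (hm _).2 (by
      change qf s k (e.1, l * e.2.1, N l * e.2.2) = 0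
      rw [qf_scal, (hm _).1 he, mul_zero])
  have h3 : (∑ e ∈ T, e).1 = 1 := by rw [Prod.fst_sum, hT, parity s hk]
  generalize ∑ e ∈ T, e = σ at h1 h2 h3
  obtain ⟨x, a, b⟩ := σ
  have h4 : l * a = a := congrArg (·.2.1) h2
  have h5 : N l * b = b := congrArg (·.2.2) h2
  obtain rfl : a = 0 := by_contra fun c => l1 ((mul_eq_right₀ c).1 h4)
  obtain rfl : b = 0 := by_contra fun c => n1 ((mul_eq_right₀ c).1 h5)
  obtain rfl : x = 1 := h3
  exact h1

theorem three {m : ℕ} (P : Par F m) (L : F → F) (hL : ∀ x y, L (x + y) = L x + L y)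
    (h : ∀ x y, L x = 0 → L y = 0 → x = 0 ∨ y = 0 ∨ x = y) :
    ∃ x y, L x ≠ 0 ∧ L y ≠ 0 ∧ L x + L y ≠ 0 := by
  classical
  haveI := Fintype.ofFinite F
  have h8 := eight_le P
  rw [Nat.card_eq_fintype_card, ← Finset.card_univ] at h8
  obtain ⟨κ, hκ⟩ : ∃ κ, ∀ x, L x = 0 → x = 0 ∨ x = κ := by
    by_cases c : ∃ κ, κ ≠ 0 ∧ L κ = 0
    · obtain ⟨κ, h0, h1⟩ := c
      exact ⟨κ, fun x hx => (h x κ hx h1).imp_right fun o => o.resolve_left h0⟩
    · exact ⟨0, fun x hx => Or.inl (by_contra fun d => c ⟨x, d, hx⟩)⟩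
  obtain ⟨x, -, hx⟩ := Finset.exists_mem_notMem_of_card_lt_card (s := {0, κ}) (t := Finset.univ)
    (Finset.card_le_two.trans_lt (by omega))
  obtain ⟨y, -, hy⟩ := Finset.exists_mem_notMem_of_card_lt_card (s := {0, κ, x, x + κ})
    (t := Finset.univ) (Finset.card_le_four.trans_lt (by omega))
  simp only [Finset.mem_insert, Finset.mem_singleton, not_or] at hx hy
  refine ⟨x, y, fun e => (hκ x e).elim hx.1 hx.2, fun e => (hκ y e).elim hy.1 hy.2.1, fun e => ?_⟩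
  rcases hκ _ ((hL x y).trans e) with e | e
  · exact hy.2.2.1 (by grind)
  · exact hy.2.2.2 (by grind)

end Alg

variable {G F : Type*} [Group G] [Finite G] [Field F] [Tits F] [Finite F] {c : Ctx G F}
  {Y' U : Subgroup G} {h : G} {ι : G → F} {s k : F} {co : G → V F}

/-- coordinates on `U / Z` -/
structure Co (c : Ctx G F) (U : Subgroup G) (s k : F) (co : G → V F) : Prop where
  mul : ∀ x ∈ U, ∀ y ∈ U, co (x * y) = co x + co y
  ker : ∀ x ∈ U, co x = 0 ↔ x ∈ c.Z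
  sur : ∀ e, ∃ x ∈ U, co x = e
  sq : ∀ x ∈ U, x * x = c.z (qf s k (co x))
  cot : co c.t = (1, 0, 0)
  cZ : U ≤ 𝒞(c.Z)
  tU : c.t ∈ U
  ZU : c.Z ≤ U

/-- `x` has coordinates `e` -/
def R (c : Ctx G F) (Y' : Subgroup G) (ι : G → F) (x : G) (e : V F) : Prop :=
  ∃ b, ∃ v ∈ Y', ι v = e.2.2 ∧
    ((e.1 = 0 ∧ x = c.u e.2.1 b * v) ∨ (e.1 = 1 ∧ x = c.u e.2.1 b * v * c.t))

theorem exists_co (S : c.Step 0 c.Z h Y' ι s k) : ∃ co, Co c (c.P Y') s k co := by
  classical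
  have ιz : ∀ b, ι (c.z b) = 0 := fun b => (S.ι_ker _ (S.le (c.z_mem_Z b))).2 (c.z_mem_Z b)
  have vu : ∀ v ∈ Y', ∀ a b, v * c.u a b = c.u a (b + k * ψ (a * ι v)) * v := fun v hv a b => by
    rw [← S.cQ v hv, inv_mul_cancel_right]
  have tv : ∀ v ∈ Y', ∀ a b, c.t * (c.u a b * v) = c.u a b * (v * c.z (ι v)) * c.t :=
    fun v hv a b => by
      have := (S.ι_t v hv).2
      rw [pow_zero, pow_one] at this
      rw [← mul_assoc, c.t_u, ← this]
      simp only [mul_assoc, mul_inv_cancel_left, c.tt, mul_one]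
  have jj : ∀ v ∈ Y', ∀ a b x y w, c.u a b * v * (c.u x y * w) =
      c.u (a + x) (b + (y + k * ψ (x * ι v)) + θ a * x) * (v * w) := fun v hv a b x y w => by
    rw [mul_assoc, ← mul_assoc v, vu v hv, ← c.u_mul]
    simp only [mul_assoc]
  have hz : ∀ v ∈ Y', v * c.z (ι v) ∈ Y' := fun v hv => mul_mem hv (S.le (c.z_mem_Z _))
  have hι : ∀ v ∈ Y', ι (v * c.z (ι v)) = ι v := fun v hv => by
    rw [S.ι_mul _ hv _ (S.le (c.z_mem_Z _)), ιz, add_zero]
  have Rmul : ∀ {x y e e'}, R c Y' ι x e → R c Y' ι y e' → R c Y' ι (x * y) (e + e') := by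
    rintro _ _ e e' ⟨b, v, hv, e1, ⟨e2, rfl⟩ | ⟨e2, rfl⟩⟩ ⟨y, w, hw, e3, ⟨e4, rfl⟩ | ⟨e4, rfl⟩⟩
    · exact ⟨_, v * w, mul_mem hv hw, by rw [S.ι_mul v hv w hw, e1, e3]; rfl,
        Or.inl ⟨by rw [Prod.fst_add, e2, e4, add_zero], jj v hv _ _ _ _ _⟩⟩
    · exact ⟨_, v * w, mul_mem hv hw, by rw [S.ι_mul v hv w hw, e1, e3]; rfl,
        Or.inr ⟨by rw [Prod.fst_add, e2, e4, zero_add], by rw [← mul_assoc, jj v hv]; rfl⟩⟩
    · exact ⟨_, v * (w * c.z (ι w)), mul_mem hv (hz w hw),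
        by rw [S.ι_mul v hv _ (hz w hw), hι w hw, e1, e3]; rfl,
        Or.inr ⟨by rw [Prod.fst_add, e2, e4, add_zero],
          by rw [mul_assoc _ c.t, tv w hw, ← mul_assoc, jj v hv]; rfl⟩⟩
    · exact ⟨_, v * (w * c.z (ι w)), mul_mem hv (hz w hw),
        by rw [S.ι_mul v hv _ (hz w hw), hι w hw, e1, e3]; rfl,
        Or.inl ⟨by rw [Prod.fst_add, e2, e4]; rfl, by
          rw [mul_assoc _ c.t, ← mul_assoc c.t, tv w hw, mul_assoc _ c.t, c.tt, mul_one, jj v hv]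
          rfl⟩⟩
  have vv : ∀ v ∈ Y', v * v = c.z (s * ι v) := fun v hv => by
    simpa only [pow_zero, pow_one] using S.sq v hv
  have Rsq : ∀ {x e}, R c Y' ι x e → x * x = c.z (qf s k e) := by
    rintro _ e ⟨b, v, hv, e1, ⟨e2, rfl⟩ | ⟨e2, rfl⟩⟩
    · rw [jj v hv, vv v hv, c.u_z, Ctx.z, qf, e2, map_zero, e1, N]
      congr 1 <;> grind
    · rw [mul_assoc _ c.t, ← mul_assoc c.t, tv v hv, mul_assoc _ c.t, c.tt, mul_one, jj v hv,
        ← mul_assoc v, vv v hv, c.z_mul, c.u_z, Ctx.z, qf, e2, map_one, e1, N]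
      congr 1 <;> grind
  have RZ : ∀ {x e}, R c Y' ι x e → (e = 0 ↔ x ∈ c.Z) := by
    rintro _ ⟨ε, a, β⟩ ⟨b, v, hv, e1, ⟨e2, rfl⟩ | ⟨e2, rfl⟩⟩
    · dsimp only at e1 e2 ⊢
      subst e1 e2
      refine ⟨fun e => ?_, fun hx => ?_⟩
      · obtain ⟨rfl, e'⟩ : a = 0 ∧ ι v = 0 := by simpa using e
        exact mul_mem (c.z_mem_Z b) ((S.ι_ker v hv).1 e')
      · obtain rfl := S.u_mem ((mul_mem_cancel_right hv).1 (S.le hx))
        rw [(S.ι_ker v hv).2 ((mul_mem_cancel_left (c.z_mem_Z b)).1 hx)]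
        rfl
    · dsimp only at e1 e2 ⊢
      subst e1 e2
      refine ⟨fun e => absurd (congrArg Prod.fst e) (one_ne_zero (α := ZMod 2)), fun hx => ?_⟩
      exact absurd ((mul_mem_cancel_left (S.mem_J.2 ⟨a, b, v, hv, rfl⟩)).1
        (mem_sup_right (S.le hx))) S.t_not_mem_J
  have Rex : ∀ x ∈ c.P Y', ∃ e, R c Y' ι x e := fun x hx => by
    obtain ⟨a, b, v, hv, e | e⟩ := (S.mem x).1 hx
    · exact ⟨(0, a, ι v), b, v, hv, rfl, Or.inl ⟨rfl, e⟩⟩
    · exact ⟨(1, a, ι v), b, v, hv, rfl, Or.inr ⟨rfl, e⟩⟩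
  have Ru : ∀ {x e e'}, R c Y' ι x e → R c Y' ι x e' → e = e' := fun h1 h2 =>
    V_add_eq_zero.1 ((RZ (Rmul h1 h2)).2 (Rsq h1 ▸ c.z_mem_Z _))
  choose! co hco using Rex
  refine ⟨co, fun x hx y hy => Ru (hco _ (mul_mem hx hy)) (Rmul (hco x hx) (hco y hy)),
    fun x hx => RZ (hco x hx), fun e => ?_, fun x hx => Rsq (hco x hx),
    Ru (hco _ (c.t_mem_P _)) ⟨0, 1, one_mem _, S.ι_one, Or.inr ⟨rfl, by simp⟩⟩, S.cent_Z,
    c.t_mem_P _, S.le.trans (c.le_P _)⟩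
  obtain ⟨v, hv, e1⟩ := S.ι_sur e.2.2
  rcases z2 e.1 with e2 | e2
  · have hx := (S.mem _).2 ⟨e.2.1, 0, v, hv, Or.inl rfl⟩
    exact ⟨_, hx, Ru (hco _ hx) ⟨0, v, hv, e1, Or.inl ⟨e2, rfl⟩⟩⟩
  · have hx := (S.mem _).2 ⟨e.2.1, 0, v, hv, Or.inr rfl⟩
    exact ⟨_, hx, Ru (hco _ hx) ⟨0, v, hv, e1, Or.inr ⟨e2, rfl⟩⟩⟩

omit [Finite G] in
theorem Co.comm (H : Co c U s k co) {x y : G} (hx : x ∈ U) (hy : y ∈ U) :
    x * y * x⁻¹ * y⁻¹ = c.z (bf k (co x) (co y)) := by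
  have cz : ∀ x ∈ U, ∀ b, c.z b * x = x * c.z b := fun x hx b =>
    mem_cent.1 (H.cZ hx) _ (c.z_mem_Z b)
  have h1 := H.sq _ (mul_mem hx hy)
  rw [H.mul x hx y hy, qf_add, ← c.z_mul, ← c.z_mul, ← H.sq x hx, ← H.sq y hy] at h1
  generalize bf k (co x) (co y) = d at h1 ⊢
  have h2 : y * x = x * y * c.z d := by
    apply mul_left_cancel (a := x)
    apply mul_right_cancel (b := y)
    calc x * (y * x) * y = x * y * (x * y) := by group
      _ = x * (x * y * (y * c.z d)) := by rw [h1]; group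
      _ = _ := by rw [← cz y hy]; group
  calc x * y * x⁻¹ * y⁻¹ = x * y * (y * x)⁻¹ := by group
    _ = x * y * c.z d * (x * y)⁻¹ := by rw [h2, mul_inv_rev, c.z_inv, mul_assoc (x * y)]
    _ = _ := by rw [← cz _ (mul_mem hx hy), mul_inv_cancel_right]

omit [Finite G] in
theorem Co.comm_iff (H : Co c U s k co) {x y : G} (hx : x ∈ U) (hy : y ∈ U) :
    x * y = y * x ↔ bf k (co x) (co y) = 0 := by
  rw [← c.z_eq_one, ← H.comm hx hy, mul_inv_eq_one, mul_inv_eq_iff_eq_mul]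

end Cfsg.Agent.SZS.L1
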