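import Cfsg.Agent.SZS.Basic
import Cfsg.Agent.SZS.Gen
import Cfsg.Agent.SZS.Lev1a

/-! notes/SZS.md, section Lev1. -/

set_option autoImplicit false

namespace Cfsg.Agent.SZS

open Subgroup H13 H49

variable {G F : Type*} [Group G] [Finite G] [Field F] [Tits F] [Finite F] {c : Ctx G F}
  {j : ℕ} {Y Y' : Subgroup G} {h : G} {ι : G → F} {s k e : F}

namespace L1

variable {U W : Subgroup G} {co : G → V F}

theorem Co.noW (H : Co c U s k co) (hW : W ≤ U) (hc : Nat.card W = Nat.card c.Z) (hn : ¬ W ≤ c.Z)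
    (hw2 : ∀ w ∈ W, w * w = 1)
    (h1 : ∀ w ∈ W, w ∉ c.Z → ∀ x ∈ U, w * x = x * w → x * x ∈ W)
    (h2 : ∀ w ∈ W, w ∉ c.Z → ∀ x ∈ U, w * x * w⁻¹ * x⁻¹ ∈ W → w * x = x * w) : False := by
  have h1' : ∀ w ∈ W, w ∉ c.Z → ∀ e, bf k (co w) e = 0 → c.z (qf s k e) ∈ W := fun w hw wn e he => by
    obtain ⟨x, hx, rfl⟩ := H.sur e
    rw [← H.sq x hx]
    exact h1 w hw wn x hx ((H.comm_iff (hW hw) hx).2 he)
  have h2' : ∀ w ∈ W, w ∉ c.Z → ∀ e, c.z (bf k (co w) e) ∈ W → bf k (co w) e = 0 :=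
    fun w hw wn e he => by
      obtain ⟨x, hx, rfl⟩ := H.sur e
      exact (H.comm_iff (hW hw) hx).1 (h2 w hw wn x hx (by rwa [H.comm (hW hw) hx]))
  obtain ⟨w, hw, wn⟩ := SetLike.not_le_iff_exists.1 hn
  by_cases h0 : ∀ d, c.z d ∈ W → d = 0
  · obtain ⟨⟨ε, a, β⟩, e⟩ : ∃ e, co w = e := ⟨_, rfl⟩
    have h3 := h1' w hw wn
    rw [e] at h3
    let φ : F →+ F :=
      { toFun := fun x => cm a x + k * ψ (x * β)
        map_zero' := by simp
        map_add' := fun x y => by simp only [cm_add_right, add_mul, map_add]; ring }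
    have hφ : ∀ x, φ x = cm a x + k * ψ (x * β) := fun _ => rfl
    have h4 : ∀ x, φ x = 0 → x = 0 := fun x hx => by
      simpa [qf] using h0 _ (h3 (0, x, 0) (by simpa [bf, hφ] using hx))
    obtain ⟨x, hx⟩ := Finite.injective_iff_surjective.1 ((injective_iff_map_eq_zero φ).2 h4) β
    obtain rfl : x = 0 := by
      simpa [qf] using h0 _ (h3 (1, x, 0) (by simpa [bf, hφ, CharTwo.add_eq_zero] using hx))
    obtain rfl : β = 0 := by rw [← hx, map_zero]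
    obtain rfl : a = 0 := h4 a (by simp [hφ])
    exact one_ne_zero (h4 1 (by simp [hφ]))
  push Not at h0
  obtain ⟨d, hd, d0⟩ := h0
  have h3 : ∀ w ∈ W, w ∉ c.Z → ∀ e, bf k (co w) e ≠ d := fun w hw wn e he =>
    d0 (he ▸ h2' w hw wn e (he ▸ hd))
  have h4 : ∀ w ∈ W, w ∉ c.Z → co w ≠ 0 := fun w hw wn e => wn ((H.ker w (hW hw)).1 e)
  by_cases hk : k = 0
  · subst hk
    obtain ⟨⟨ε, a, β⟩, e⟩ : ∃ e, co w = e := ⟨_, rfl⟩
    have h5 := h3 w hw wn
    have h6 := h1' w hw wn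
    have h7 := H.sq w (hW hw)
    rw [hw2 w hw, eq_comm, c.z_eq_one] at h7
    rw [e] at h5 h6 h7
    rcases z2 ε with rfl | rfl
    · refine hn (eq_of_le_of_card_eq (fun x hx => ?_) hc.symm).ge
      obtain ⟨b, rfl⟩ := c.mem_Z.1 hx
      by_cases ha : a = 0
      · obtain ⟨x, rfl⟩ := N_surj b
        simpa [qf] using h6 (0, x, 0) (by simp [bf, ha])
      · have hs : s ≠ 0 := fun hs => ha (by simpa [qf, hs] using h7)
        simpa [qf, hs] using h6 (0, 0, s⁻¹ * b) (by simp [bf])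
    · exact h5 (0, 0, d) (by simp [bf])
  have h5 : ∀ w ∈ W, w ∉ c.Z → (co w).1 = 1 := fun w hw wn => by
    have h5 := h3 w hw wn
    have h6 := h4 w hw wn
    generalize co w = e at h5 h6
    obtain ⟨ε, a, β⟩ := e
    refine (z2 ε).resolve_left ?_
    rintro rfl
    by_cases ha : a = 0
    · subst ha
      obtain ⟨x, hx⟩ := ψ_sur hk (a := β) (fun e => h6 (by rw [e]; rfl)) d
      exact h5 (0, x, 0) (by simpa [bf, mul_comm x] using hx)
    · obtain ⟨x, hx⟩ := ψ_sur hk ha d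
      exact h5 (0, 0, x) (by simpa [bf] using hx)
  have h6 : (W ⊓ c.Z).relIndex W = 2 := relIndex_eq_two_iff_exists_notMem_and.2
    ⟨w, hw, fun e => wn e.2, fun x hx => by
      by_cases xn : x ∈ c.Z
      · exact Or.inr ⟨hx, xn⟩
      refine Or.inl ⟨mul_mem hx hw, by_contra fun e => ?_⟩
      have := h5 _ (mul_mem hx hw) e
      rw [H.mul x (hW hx) w (hW hw), Prod.fst_add, h5 x hx xn, h5 w hw wn] at this
      exact absurd this (by decide)⟩
  have h7 : (W ⊓ c.Z).relIndex c.Z = 2 := by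
    have e1 := card_mul_relIndex (inf_le_left : W ⊓ c.Z ≤ W)
    rw [h6, hc, ← card_mul_relIndex (inf_le_right : W ⊓ c.Z ≤ c.Z)] at e1
    exact (Nat.eq_of_mul_eq_mul_left (card_pos' _) e1).symm
  obtain ⟨y, -, -, hy⟩ := relIndex_eq_two_iff_exists_notMem_and.1 h7
  have h8 := h2' w hw wn
  have h9 := h5 w hw wn
  generalize co w = e at h8 h9
  obtain ⟨ε, a, β⟩ := e
  obtain rfl : ε = 1 := h9
  obtain ⟨x1, x2, n1, n2, n3⟩ := three c.par (fun x => k * ψ (a * x) + x)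
    (fun x y => by simp only [mul_add, map_add]; ring) fun x y hx hy => by
      by_cases ha : a = 0
      · exact Or.inl (by simpa [ha] using hx)
      · exact psi_fix hk ha (CharTwo.add_eq_zero.1 hx) (CharTwo.add_eq_zero.1 hy)
  have h10 : ∀ x, c.z (k * ψ (a * x) + x) ∈ W → k * ψ (a * x) + x = 0 := fun x hx => by
    simpa [bf] using h8 (0, 0, x) (by simpa [bf] using hx)
  have m1 := (hy _ (c.z_mem_Z _)).resolve_right fun e => n1 (h10 x1 e.1)
  have m2 := (hy _ (c.z_mem_Z _)).resolve_right fun e => n2 (h10 x2 e.1)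
  have m3 := W.mul_mem m1.1 (W.inv_mem m2.1)
  rw [mul_inv_rev, mul_assoc, mul_inv_cancel_left, c.z_inv, c.z_mul] at m3
  have e3 : k * ψ (a * x1) + x1 + (k * ψ (a * x2) + x2) = k * ψ (a * (x1 + x2)) + (x1 + x2) := by
    simp only [mul_add, map_add]; ring
  exact n3 (e3 ▸ h10 _ (e3 ▸ m3))

omit [Finite G] in
theorem Co.fix (H : Co c U s k co) (hk : k ≠ 0) {g : G} (hg : g ∈ 𝒩(U)) (hZ : g ∈ 𝒩(c.Z)) :
    co (g * c.t * g⁻¹) = (1, 0, 0) := by
  choose r hr er using H.sur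
  have h1 : ∀ x ∈ U, co (g * r (co x) * g⁻¹) = co (g * x * g⁻¹) := fun x hx => by
    rw [← V_add_eq_zero, ← H.mul _ (cm_norm hg (hr _)) _ (cm_norm hg hx),
      H.ker _ (mul_mem (cm_norm hg (hr _)) (cm_norm hg hx)),
      show g * r (co x) * g⁻¹ * (g * x * g⁻¹) = g * (r (co x) * x) * g⁻¹ by group]
    refine cm_norm hZ ((H.ker _ (mul_mem (hr _) hx)).1 ?_)
    rw [H.mul _ (hr _) _ hx, er, V_add_self]
  let α : V F →+ V F := AddMonoidHom.mk' (fun e => co (g * r e * g⁻¹)) fun e e' => by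
    rw [← H.mul _ (cm_norm hg (hr _)) _ (cm_norm hg (hr _)),
      show g * r e * g⁻¹ * (g * r e' * g⁻¹) = g * (r e * r e') * g⁻¹ by group,
      ← h1 _ (mul_mem (hr _) (hr _)), H.mul _ (hr _) _ (hr _), er, er]
  have h2 := fix_t s hk c.l_ne.1 c.l_ne.2 c.Nl_ne.2 α
    ((injective_iff_map_eq_zero α).2 fun e he => by
      have := cm_norm' hZ ((H.ker _ (cm_norm hg (hr e))).1 he)
      rw [show g⁻¹ * (g * r e * g⁻¹) * g = r e by group, ← H.ker _ (hr e), er] at this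
      exact this) fun e he => by
      have h3 := H.sq _ (hr e)
      rw [er, he, c.z_zero] at h3
      have h4 := H.sq _ (cm_norm hg (hr e))
      rw [show g * r e * g⁻¹ * (g * r e * g⁻¹) = g * (r e * r e) * g⁻¹ by group, h3, mul_one,
        mul_inv_cancel, eq_comm, c.z_eq_one] at h4
      exact h4
  rw [← h1 _ H.tU, H.cot]
  exact h2

theorem Co.k0 (H : Co c U s 0 co) (hs : s ≠ 0) {g : G} (hg : g ∈ 𝒩(U)) (hZ : g ∈ 𝒩(c.Z))
    (hn : co (g * c.t * g⁻¹) ≠ (1, 0, 0)) : s = 1 := by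
  have hU := cm_norm hg H.tU
  have h1 := H.sq _ hU
  rw [show g * c.t * g⁻¹ * (g * c.t * g⁻¹) = g * (c.t * c.t) * g⁻¹ by group, c.tt, mul_one,
    mul_inv_cancel, eq_comm, c.z_eq_one] at h1
  obtain ⟨⟨ε, a, β⟩, e⟩ : ∃ e, co (g * c.t * g⁻¹) = e := ⟨_, rfl⟩
  rw [e] at h1 hn
  rcases z2 ε with rfl | rfl
  · obtain ⟨x, hx, ex⟩ := H.sur (0, 0, 1)
    obtain ⟨y, hy, ey⟩ := H.sur (0, 0, c.l)
    have := c.TC ((H.comm_iff hx hU).2 (by simp [ex, e, bf])) ((H.comm_iff hy hU).2 (by simp [ey, e, bf]))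
      ((H.comm_iff hx hy).2 (by simp [ex, ey, bf])) (by rw [H.sq x hx, c.z_sq]) (by rw [H.sq y hy, c.z_sq])
    rw [H.sq x hx, H.sq y hy, c.z_eq_one, c.z_eq_one, c.z_inj, ex, ey] at this
    have l0 := c.l_ne.1
    simp [qf, hs, l0] at this
    exact absurd this c.l_ne.2
  by_cases ha : a = 0
  · subst ha
    have hβ : β ≠ 0 := fun e => hn (by rw [e])
    simpa [qf, hβ, CharTwo.add_eq_zero] using h1
  have h2 : ∀ x, x ≠ 0 → ∀ y, N x + s * cm a x ≠ cm x y := fun x x0 y exy => by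
    obtain ⟨p, hp, ep⟩ := H.sur (0, x, cm a x)
    obtain ⟨q, hq, eq⟩ := H.sur (0, y, cm a y)
    have hc : ∀ p ∈ U, ∀ x, co p = (0, x, cm a x) → (co (g⁻¹ * p * g)).2.2 = 0 := fun p hp x ep => by
      have h3 := (H.comm_iff hU hp).2 (by simp [ep, e, bf, CharTwo.add_self_eq_zero])
      have h4 := (H.comm_iff H.tU (cm_norm' hg hp)).1 (by
        calc c.t * (g⁻¹ * p * g) = g⁻¹ * (g * c.t * g⁻¹ * p) * g := by group
          _ = _ := by rw [h3]; group)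
      simpa [H.cot, bf] using h4
    have h3 : p * p = p * q * p⁻¹ * q⁻¹ := by
      rw [H.sq p hp, H.comm hp hq, ep, eq]
      simpa [qf, bf, c.z_inj] using exy
    have h4 : g⁻¹ * p * g * (g⁻¹ * p * g) =
        g⁻¹ * p * g * (g⁻¹ * q * g) * (g⁻¹ * p * g)⁻¹ * (g⁻¹ * q * g)⁻¹ := by
      calc _ = g⁻¹ * (p * p) * g := by group
        _ = _ := by rw [h3]; group
    rw [H.sq _ (cm_norm' hg hp), H.comm (cm_norm' hg hp) (cm_norm' hg hq), c.z_inj] at h4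
    have h5 := hc p hp x ep
    simp only [qf, bf, h5, hc q hq y eq, zero_mul, mul_zero, add_zero] at h4
    have h6 : (co (g⁻¹ * p * g)).2.1 = 0 := by_contra fun n => N_ne_cm n _ h4
    rcases z2 (co (g⁻¹ * p * g)).1 with h7 | h7
    · have := cm_norm hZ ((H.ker _ (cm_norm' hg hp)).1 (Prod.ext h7 (Prod.ext h6 h5)))
      rw [show g * (g⁻¹ * p * g) * g⁻¹ = p by group, ← H.ker p hp, ep] at this
      exact x0 (congrArg (·.2.1) this)
    · have := cm_norm hZ ((H.ker _ (mul_mem (cm_norm' hg hp) H.tU)).1 (by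
        rw [H.mul _ (cm_norm' hg hp) _ H.tU, V_add_eq_zero, H.cot]
        exact Prod.ext h7 (Prod.ext h6 h5)))
      rw [show g * (g⁻¹ * p * g * c.t) * g⁻¹ = p * (g * c.t * g⁻¹) by group,
        ← H.ker _ (mul_mem hp hU), H.mul _ hp _ hU, V_add_eq_zero, ep, e] at this
      exact zero_ne_one (α := ZMod 2) (congrArg Prod.fst this)
  refine (scal_cm one_ne_zero fun r => ?_).resolve_left hs
  by_cases r0 : r = 0
  · exact ⟨0, by simp [r0]⟩
  have x0 : a * r⁻¹ ≠ 0 := mul_ne_zero ha (inv_ne_zero r0)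
  generalize hx : a * r⁻¹ = x at x0
  obtain rfl : a = x * r := by rw [← hx, inv_mul_cancel_right₀ r0]
  obtain ⟨y, hy⟩ := (cm_or x0 _).resolve_left fun ⟨y, hy⟩ => h2 x x0 y hy
  refine ⟨x⁻¹ * y, mul_left_cancel₀ (N_eq_zero.not.2 x0) ?_⟩
  rw [← cm_mul, mul_one, mul_inv_cancel_left₀ x0, ← add_left_cancel hy, mul_left_comm, ← cm_mul,
    mul_one, cm_comm]

end L1

namespace Ctx

open L1

theorem lev1_syl (S : c.Step 0 c.Z h Y' ι s k) (hs : IsSylowOf 2 (c.P Y') ⊤) : c.SC := by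
  obtain ⟨co, H⟩ := exists_co S
  refine ⟨_, c.Z, hs, c.Q_le_P _, le_rfl, abelian_iff.2 (H.ZU.trans H.cZ), by_contra fun hn => ?_⟩
  obtain ⟨g, h1, h2, h3, h4⟩ := wc hs H.ZU (cent_symm H.cZ) hn
  refine H.noW h1 (card_cj _ _) h2 (fun w hw => ?_) (fun w hw wn x hx e => ?_)
    fun w hw wn x hx => h4 x hx (fun w hw => by rw [H.comm (h1 hw) hx]; exact c.z_mem_Z _) w hw wn
  · obtain ⟨y, hy, rfl⟩ := mem_cj'.1 hw
    obtain ⟨b, rfl⟩ := c.mem_Z.1 hy
    rw [show g * c.z b * g⁻¹ * (g * c.z b * g⁻¹) = g * (c.z b * c.z b) * g⁻¹ by group, c.z_sq,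
      mul_one, mul_inv_cancel]
  · obtain ⟨y, hy, rfl⟩ := mem_cj'.1 (h3 w hw wn (mem_inf.2 ⟨hx, mem_cent1.2 e.symm⟩)).1
    rw [show g * y * g⁻¹ * (g * y * g⁻¹) = g * (y * y) * g⁻¹ by group, conj_mem_cj]
    exact S.sqY y hy

theorem lev1_ns (S : c.Step 0 c.Z h Y' ι s k) (hn : ¬ IsSylowOf 2 (c.P Y') ⊤) :
    k = 0 ∧ (s = 0 ∨ s = 1) := by
  obtain ⟨co, H⟩ := exists_co S
  obtain ⟨g, hg, -, h1⟩ := c.exists_mover S.two (c.T_le_P _) hn
  have h2 : co (g * c.t * g⁻¹) ≠ (1, 0, 0) := fun e => by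
    have hU := cm_norm hg H.tU
    obtain ⟨p, hp, ep⟩ := S.conj_tY ((H.ker _ (mul_mem hU H.tU)).1 (by
      rw [H.mul _ hU _ H.tU, e, H.cot, V_add_self]))
    exact h1 p hp (by rw [ep, mul_assoc _ c.t c.t, c.tt, mul_one])
  obtain rfl : k = 0 := by_contra fun hk => h2 (H.fix hk hg (S.norm_Z hg))
  exact ⟨rfl, (em _).imp_right fun hs => H.k0 hs hg (S.norm_Z hg) h2⟩

end Ctx

end Cfsg.Agent.SZS
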