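import Cfsg.Agent.SZS.Basic
import Cfsg.Agent.SZS.Gen

/-! The case `s = k = 0`: the group `U = Q W ⟨t⟩` and the next step `U₂`. -/

set_option autoImplicit false
set_option linter.unusedSectionVars false

namespace Cfsg.Agent.SZS.Mn

open Subgroup H13 H49 Ctx

variable {G F : Type*} [Group G] [Finite G] [Field F] [Tits F] [Finite F] {c : Ctx G F}
  {W : Subgroup G} {h g w w' x y v v' : G} {ι : G → F} {a b : F}

open Classical in
/-- the first coordinate on `Q W` -/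
noncomputable def fa (c : Ctx G F) (W : Subgroup G) (x : G) : F :=
  if h : ∃ a, ∃ b, ∃ w ∈ W, x = c.u a b * w then h.choose else 0

/-- the coordinate on `U₂ / U` -/
noncomputable def i2 (c : Ctx G F) (W : Subgroup G) (v : G) : F := fa c W (v * c.t * v⁻¹ * c.t)

theorem two (a : F) : a + a = 0 := by grind

section
variable (S : c.Step 0 c.Z h W ι 0 0)
include S

theorem ww (hw : w ∈ W) : w * w = 1 := by simpa using S.sq w hw
theorem wi (hw : w ∈ W) : w⁻¹ = w := inv_eq_of_mul_eq_one_right (ww S hw)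
theorem wu (hw : w ∈ W) (a b : F) : w * c.u a b = c.u a b * w :=
  mul_inv_eq_iff_eq_mul.1 (by simpa using S.cQ w hw a b)
theorem wt (hw : w ∈ W) : w * c.t * w * c.t = c.z (ι w) := by simpa [wi S hw] using (S.ι_t w hw).2
theorem wc (hw : w ∈ W) (hw' : w' ∈ W) : w * w' = w' * w := by
  rw [← wi S (mul_mem hw hw'), mul_inv_rev, wi S hw, wi S hw']
theorem zW (b : F) : c.z b ∈ W := S.le (c.z_mem_Z b)

theorem fa_eq (a b : F) (hw : w ∈ W) : fa c W (c.u a b * w) = a := by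
  have e : ∃ a', ∃ b', ∃ w' ∈ W, c.u a b * w = c.u a' b' * w' := ⟨a, b, w, hw, rfl⟩
  rw [fa, dif_pos e]
  obtain ⟨b', w', h1, h2⟩ := e.choose_spec
  generalize e.choose = a' at *
  have : (c.u a b)⁻¹ * c.u a' b' ∈ W := by
    rw [show (c.u a b)⁻¹ * c.u a' b' = w * w'⁻¹ by rw [inv_mul_eq_iff_eq_mul, ← mul_assoc, h2, mul_inv_cancel_right]]
    exact mul_mem hw (inv_mem h1)
  rw [u_inv, u_mul] at this
  have := S.u_mem this
  grind

theorem mem1 : x ∈ c.Q ⊔ W ↔ ∃ a b, ∃ w ∈ W, x = c.u a b * w := by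
  rw [mem_sup_of_norm_left (norm_of_cent fun w hw q hq => by obtain ⟨a, b, rfl⟩ := c.mem_Q.1 hq; exact (wu S hw a b).symm)]
  exact ⟨fun ⟨q, hq, r⟩ => by obtain ⟨a, b, rfl⟩ := c.mem_Q.1 hq; exact ⟨a, b, r⟩,
    fun ⟨a, b, r⟩ => ⟨_, c.u_mem_Q a b, r⟩⟩

theorem memP : x ∈ c.P W ↔ x ∈ c.Q ⊔ W ∨ x * c.t ∈ c.Q ⊔ W := by
  rw [S.mem, mem1 S, mem1 S]
  constructor
  · rintro ⟨a, b, v, hv, rfl | rfl⟩
    exacts [.inl ⟨a, b, v, hv, rfl⟩, .inr ⟨a, b, v, hv, by rw [mul_assoc, c.tt, mul_one]⟩]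
  · rintro (⟨a, b, v, hv, e⟩ | ⟨a, b, v, hv, e⟩)
    exacts [⟨a, b, v, hv, .inl e⟩, ⟨a, b, v, hv, .inr (by rw [← e, mul_assoc, c.tt, mul_one])⟩]

theorem cW (hx : x ∈ c.Q ⊔ W) (hw : w ∈ W) : w * x = x * w := by
  obtain ⟨a, b, v, hv, rfl⟩ := (mem1 S).1 hx
  rw [← mul_assoc, wu S hw, mul_assoc, wc S hw hv, mul_assoc]

theorem fa_mul (hx : x ∈ c.Q ⊔ W) (hy : y ∈ c.Q ⊔ W) : fa c W (x * y) = fa c W x + fa c W y := by
  obtain ⟨a, b, v, hv, rfl⟩ := (mem1 S).1 hx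
  obtain ⟨a', b', v', hv', rfl⟩ := (mem1 S).1 hy
  rw [mul_assoc, ← mul_assoc v, wu S hv, mul_assoc, ← mul_assoc, u_mul, fa_eq S _ _ (mul_mem hv hv'), fa_eq S _ _ hv,
    fa_eq S _ _ hv']

theorem fa_u (a b : F) : fa c W (c.u a b) = a := by simpa using fa_eq S a b (one_mem W)
theorem fa_W (hw : w ∈ W) : fa c W w = 0 := by simpa using fa_eq S 0 0 hw

theorem fa_ker (hx : x ∈ c.Q ⊔ W) (e : fa c W x = 0) : x ∈ W := by
  obtain ⟨a, b, v, hv, rfl⟩ := (mem1 S).1 hx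
  rw [fa_eq S _ _ hv] at e
  exact mul_mem (e ▸ zW S b) hv

theorem fa_inv (hx : x ∈ c.Q ⊔ W) : fa c W x⁻¹ = fa c W x := by
  have := fa_mul S hx (inv_mem hx)
  rw [mul_inv_cancel, fa_W S (one_mem W)] at this
  grind

theorem fa_sq (hx : x ∈ c.Q ⊔ W) : x * x = c.z (N (fa c W x)) := by
  obtain ⟨a, b, v, hv, rfl⟩ := (mem1 S).1 hx
  rw [fa_eq S _ _ hv, mul_assoc, ← mul_assoc v, wu S hv, mul_assoc, ww S hv, mul_one, u_sq]

theorem fa_comm (hx : x ∈ c.Q ⊔ W) (hy : y ∈ c.Q ⊔ W) : x * y = c.z (cm (fa c W x) (fa c W y)) * (y * x) := by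
  obtain ⟨a, b, v, hv, rfl⟩ := (mem1 S).1 hx
  rw [mul_assoc, cW S hy hv, ← mul_assoc y, ← mul_assoc, ← mul_assoc _ _ v, fa_eq S _ _ hv]
  obtain ⟨a', b', v', hv', rfl⟩ := (mem1 S).1 hy
  rw [fa_eq S _ _ hv', ← mul_assoc, u_comm, mul_assoc (c.u a' b') v', wu S hv']
  simp only [mul_assoc]

theorem inv_W (hx : x ∈ c.Q ⊔ W) (e : x * x = 1) : x ∈ W :=
  fa_ker S hx (N_eq_zero.1 (c.z_eq_one.1 ((fa_sq S hx).symm.trans e)))

theorem t_not : c.t ∉ c.Q ⊔ W := fun ht => S.ut_not_mem 0 0 (by simpa using inv_W S ht c.tt)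

theorem fa_tor (H : c.Tor g) (hg : g ∈ 𝒩(W)) (hx : x ∈ c.Q ⊔ W) : fa c W (g * x * g⁻¹) = c.l * fa c W x := by
  obtain ⟨a, b, v, hv, rfl⟩ := (mem1 S).1 hx
  obtain ⟨b', e⟩ := H.hu a b
  rw [← conj_mul, e, fa_eq S _ _ hv, fa_eq S _ _ ((mem_normalizer_iff.1 hg _).1 hv)]

theorem wxt (hw : w ∈ W) (hx : x * c.t ∈ c.Q ⊔ W) : w * x * w⁻¹ = c.z (ι w) * x := by
  have e : x = x * c.t * c.t := by rw [mul_assoc, c.tt, mul_one]
  rw [e, ← mul_assoc, ← mul_assoc (c.z _), cW S hx hw, cW S hx (zW S _), ← wt S hw, wi S hw]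
  simp only [mul_assoc, c.tt, mul_one]

theorem nW : 𝒩(c.P W) ≤ 𝒩(W) := fun g hg => mem_norm_of_cj_le (by
  rintro _ ⟨w, hw, rfl⟩
  change g * w * g⁻¹ ∈ W
  rcases (memP S).1 ((mem_normalizer_iff.1 hg _).1 (c.le_P W hw)) with k | k
  · exact inv_W S k (by rw [conj_mul, ww S hw]; simp)
  have key : ∀ b, b = 0 ∨ c.z b = g * c.z (ι w) * g⁻¹ := fun b => by
    obtain ⟨v, hv, rfl⟩ := S.ι_sur b
    have e := wxt S hv k
    have e2 : g⁻¹ * c.z (ι v) * g = (g⁻¹ * v * g) * w * (g⁻¹ * v * g)⁻¹ * w⁻¹ := by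
      rw [← mul_inv_eq_iff_eq_mul] at e; rw [← e]; group
    rcases (memP S).1 ((mem_normalizer_iff''.1 hg _).1 (c.le_P W hv)) with m | m
    · rw [← cW S m hw, mul_inv_cancel_right, mul_inv_cancel] at e2
      exact .inl (c.z_eq_one.1 (by simpa [mul_assoc] using congrArg (fun t => g * t * g⁻¹) e2))
    · have := wxt S hw m
      refine .inr ?_
      rw [← c.z_inv (ι w), eq_mul_inv_of_mul_eq this.symm, eq_mul_inv_iff_mul_eq, ← inv_mul_eq_iff_eq_mul, ← mul_assoc, e2]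
      group
  obtain ⟨l0, l1⟩ := gen_ne c.par c.gen
  exact absurd (c.z_inj.1 (((key _).resolve_left l0).trans ((key 1).resolve_left one_ne_zero).symm)) l1)

theorem n1 : 𝒩(c.P W) ≤ 𝒩(c.Q ⊔ W) := by
  have : c.Q ⊔ W = c.P W ⊓ 𝒞(W) := le_antisymm (le_inf le_sup_left fun x hx w hw => cW S hx hw) fun x hx =>
    ((memP S).1 hx.1).elim id fun k => by
      obtain ⟨v, hv, e⟩ := S.ι_sur 1
      have := wxt S hv k
      rw [hx.2 v hv, mul_inv_cancel_right, e, right_eq_mul, c.z_eq_one] at this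
      exact absurd this one_ne_zero
  rw [this]
  exact norm_inf le_rfl (norm_cent (nW S))

theorem xv (hg : g ∈ 𝒩(c.P W)) : g * c.t * g⁻¹ * c.t ∈ c.Q ⊔ W :=
  ((memP S).1 ((mem_normalizer_iff.1 hg _).1 (c.t_mem_P W))).resolve_left fun k =>
    t_not S ((mem_normalizer_iff.1 (n1 S hg) _).2 k)

theorem fa_cent (hg : g ∈ 𝒩(c.P W)) (hz : g ∈ 𝒞(c.Z)) (hx : x ∈ c.Q ⊔ W) : fa c W (g * x * g⁻¹) = fa c W x :=
  N_inj (c.z_inj.1 (by
    rw [← fa_sq S ((mem_normalizer_iff.1 (n1 S hg) _).1 hx), conj_mul, fa_sq S hx, ← hz _ (c.z_mem_Z _),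
      mul_inv_cancel_right]))

theorem inv_conj (hx : x * c.t ∈ c.Q ⊔ W) (hy : y * c.t ∈ c.Q ⊔ W) (xx : x * x = 1) (yy : y * y = 1)
    (e : fa c W (x * c.t) = fa c W (y * c.t)) : ∃ p ∈ W, y = p * x * p⁻¹ := by
  have m : y * x⁻¹ ∈ W := fa_ker S (by simpa [mul_assoc, c.tt'] using mul_mem hy (inv_mem hx)) (by
    have := fa_mul S hy (inv_mem hx)
    rw [fa_inv S hx, e, two] at this
    simpa [mul_assoc, c.tt'] using this)
  have k := wxt S m hx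
  rw [inv_mul_cancel_right, wi S m, ← mul_assoc, yy, one_mul, inv_eq_of_mul_eq_one_right xx, right_eq_mul,
    c.z_eq_one] at k
  obtain ⟨d, hd⟩ := c.mem_Z.1 ((S.ι_ker _ m).1 (by rwa [inv_eq_of_mul_eq_one_right xx]))
  obtain ⟨p, hp, rfl⟩ := S.ι_sur d
  exact ⟨p, hp, by rw [wxt S hp hx, ← hd, inv_mul_cancel_right]⟩

theorem co_conj (hx : x * c.t ∈ c.Q ⊔ W) (hp : y ∈ c.P W) : fa c W (y * x * y⁻¹ * c.t) = fa c W (x * c.t) := by
  have m := S.le (S.comm_mem hp ((memP S).2 (.inr hx)))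
  rw [show y * x * y⁻¹ * c.t = y * x * y⁻¹ * x⁻¹ * (x * c.t) by group, fa_mul S (mem_sup_right m) hx, fa_W S m, zero_add]

theorem i2_mul (hv : v ∈ 𝒩(c.P W)) (hz : v ∈ 𝒞(c.Z)) (hv' : v' ∈ 𝒩(c.P W)) :
    i2 c W (v * v') = i2 c W v + i2 c W v' := by
  rw [i2, i2, i2, ← fa_cent S hv hz (xv S hv'), add_comm,
    ← fa_mul S ((mem_normalizer_iff.1 (n1 S hv) _).1 (xv S hv')) (xv S hv)]
  congr 1; simp [mul_assoc, c.tt']

theorem i2_P (hv : v ∈ c.P W) : i2 c W v = 0 := by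
  rw [i2, co_conj S (by rw [c.tt]; exact one_mem _) hv, c.tt, fa_W S (one_mem W)]

theorem i2_tor (H : c.Tor g) (hg : g ∈ 𝒩(c.P W)) (hv : v ∈ 𝒩(c.P W)) :
    i2 c W (g * v * g⁻¹) = c.l * i2 c W v := by
  rw [i2, i2, ← fa_tor S H (nW S hg) (xv S hv)]
  have e : g * c.t * g⁻¹ = c.t := mul_inv_eq_iff_eq_mul.2 H.ht
  congr 1
  conv_lhs => rw [← e]
  group

end

/-- the second level -/
structure L2 (c : Ctx G F) (W : Subgroup G) (ι : G → F) (U S : Subgroup G) (h : G) : Prop where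
  st : ∃ h, c.Step 0 c.Z h W ι 0 0
  tor : c.Tor h
  hP : h ∈ 𝒩(c.P W)
  hS : h ∈ 𝒩(S)
  two : IsPGroup 2 U
  le : c.P W ≤ U
  nP : U ≤ 𝒩(c.P W)
  cZ : U ≤ 𝒞(c.Z)
  sur : ∀ b, ∃ v ∈ S, i2 c W v = b
  ker : ∀ v ∈ S, i2 c W v = 0 → v ∈ c.Q ⊔ W
  l1 : c.Q ⊔ W ≤ S
  l2 : S ≤ U
  tS : c.t ∉ S
  dec : ∀ x ∈ U, x ∈ S ∨ x * c.t ∈ S
  sq : ∀ v ∈ U, v * v ∈ c.Q ⊔ W

theorem exists_L2 (S : c.Step 0 c.Z h W ι 0 0) (hn : ¬ IsSylowOf 2 (c.P W) ⊤) : ∃ U S h, L2 c W ι U S h := by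
  have tt : ∀ g : G, g * c.t * g⁻¹ * (g * c.t * g⁻¹) = 1 := fun g => by rw [conj_mul, c.tt]; simp
  have hco : ∀ g ∈ 𝒩(c.P W), ∀ g' ∈ 𝒩(c.P W), fa c W (g * c.t * g⁻¹ * c.t) = fa c W (g' * c.t * g'⁻¹ * c.t) ↔
      ∃ p ∈ c.P W, g' * c.t * g'⁻¹ = p * (g * c.t * g⁻¹) * p⁻¹ := fun g hg g' hg' =>
    ⟨fun e => by
      obtain ⟨p, hp, e⟩ := inv_conj S (xv S hg) (xv S hg') (tt g) (tt g') e
      exact ⟨p, c.le_P W hp, e⟩, fun ⟨p, hp, e⟩ => by rw [e, co_conj S (xv S hg) hp]⟩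
  obtain ⟨U, h', u1, u2, u3, H, u4, u5, u6, u7⟩ := c.climb S.two (c.T_le_P W) S.st.tor S.hP S.norm_Z
    (fun g hg k hk => c.autG (fa c W) (fun x hx y hy => fa_mul S hx hy)
      (fun a => ⟨_, mem_sup_left (c.u_mem_Q a 0), fa_u S a 0⟩) (fun x hx => fa_sq S hx) (n1 S hg) hk)
    (fun x => fa c W (x * c.t)) hco fun b => by
      obtain ⟨g, hg, -, mv⟩ := c.exists_mover S.two (c.T_le_P W) hn
      have n0 : i2 c W g ≠ 0 := fun e => by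
        obtain ⟨p, hp, e⟩ := (hco 1 (one_mem _) g hg).1 ((i2_P S (one_mem _)).trans e.symm)
        exact mv p hp (by simpa using e)
      by_cases b0 : b = 0
      · exact ⟨1, one_mem _, b0 ▸ i2_P S (one_mem _)⟩
      obtain ⟨i, hi⟩ := c.gen _ (div_ne_zero b0 n0)
      have k : ∀ i : ℕ, i2 c W (h ^ i * g * (h ^ i)⁻¹) = c.l ^ i * i2 c W g := fun i => by
        induction i with
        | zero => simp
        | succ i ih =>
          rw [pow_succ', pow_succ', mul_assoc c.l, ← ih, ← i2_tor S S.st.tor S.hP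
            (mul_mem (mul_mem (pow_mem S.hP i) hg) (inv_mem (pow_mem S.hP i)))]
          congr 1; group
      exact ⟨_, mul_mem (mul_mem (pow_mem S.hP i) hg) (inv_mem (pow_mem S.hP i)),
        (k i).trans (by rw [hi, div_mul_cancel₀ _ n0])⟩
  have ker : ∀ v ∈ U, i2 c W v = 0 → v ∈ c.P W := fun v hv e => u7 v hv (by
    rw [c.tt, fa_W S (one_mem W)]; exact e)
  have sq : ∀ v ∈ U, v * v ∈ c.Q ⊔ W := fun v hv =>
    ((memP S).1 (ker _ (mul_mem hv hv) (by rw [i2_mul S (u1.le hv) (u3 hv) (u1.le hv), two]))).elim id fun k => by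
      have := fa_mul S ((mem_normalizer_iff.1 (n1 S (u1.le hv)) _).1 k) (xv S (u1.le hv))
      rw [fa_cent S (u1.le hv) (u3 hv) k, show v * (v * v * c.t) * v⁻¹ * (v * c.t * v⁻¹ * c.t) = v * v * c.t by
        simp [mul_assoc, c.tt'], left_eq_add] at this
      exact mem_sup_right (S.le (S.sqY v (ker v hv this)))
  obtain ⟨S0, s1, s2, s3, s4, s5⟩ := relMaschke (le_sup_left : c.Q ⊔ W ≤ c.P W) u2 (u1.le.trans (n1 S)) sq H.odd
    (n1 S u4) u4 u5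
  have nS : U ≤ 𝒩(S0) := le_norm_iff.2 fun a ha x hx => by
    have := mul_mem (mul_mem (s1 (sq _ ha)) (s1 (sq _ (mul_mem (inv_mem ha) (s2 hx))))) (inv_mem hx)
    convert this using 1; group
  refine ⟨U, S0, h', ⟨h, S⟩, H, u4, s3, u1.pi.isPGroup Nat.prime_two, u2, u1.le, u3, fun b => ?_,
    fun v hv e => s4 ⟨ker v (s2 hv) e, hv⟩, s1, s2, fun k => t_not S (s4 ⟨c.t_mem_P W, k⟩), fun x hx => ?_, sq⟩
  · obtain ⟨x, hx, rfl⟩ := u6 b
    obtain ⟨p, hp, v, hv, rfl⟩ := s5 x hx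
    exact ⟨v, hv, by rw [← zero_add (i2 c W v), ← i2_P S hp, ← i2_mul S (le_normalizer hp) (S.cent_Z hp) (u1.le (s2 hv))]; rfl⟩
  · obtain ⟨p, hp, v, hv, rfl⟩ := s5 x hx
    refine ((memP S).1 hp).imp (fun k => mul_mem (s1 k) hv) fun k => ?_
    convert mul_mem (s1 k) (conj_mem_of_norm nS (u2 (c.t_mem_P W)) hv) using 1
    simp [mul_assoc, c.tt']

end Cfsg.Agent.SZS.Mn
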