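import Cfsg.Agent.SZS.Main1

/-! The case `s = k = 0`: `W` is central in `S₀` and contains its squares. -/

set_option autoImplicit false
set_option linter.unusedSectionVars false

namespace Cfsg.Agent.SZS.Mn

open Subgroup H13 H49 Ctx

variable {G F : Type*} [Group G] [Finite G] [Field F] [Tits F] [Finite F] {c : Ctx G F}
  {W U T : Subgroup G} {h h' g w x y v v' : G} {ι : G → F} {a b : F}

theorem exists_four (c : Ctx G F) : ∃ r : F, r ≠ 0 ∧ r ≠ 1 ∧ r ≠ c.l ∧ r ≠ c.l + 1 := by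
  classical
  have := Fintype.ofFinite F
  by_contra! k
  have h1 : (Finset.univ : Finset F) ⊆ {0, 1, c.l, c.l + 1} := fun r _ => by have := k r; grind
  have h2 := (Finset.card_le_card h1).trans Finset.card_le_four
  have h3 := eight_le c.par
  rw [Finset.card_univ, ← Nat.card_eq_fintype_card] at h2
  omega

variable (S : c.Step 0 c.Z h' W ι 0 0) (L : L2 c W ι U T h)
include L

theorem L2.nS : U ≤ 𝒩(T) := le_norm_iff.2 fun a ha x hx => by
  have := mul_mem (mul_mem (L.l1 (L.sq _ ha)) (L.l1 (L.sq _ (mul_mem (inv_mem ha) (L.l2 hx))))) (inv_mem hx)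
  convert this using 1; group

theorem L2.zc (hv : v ∈ U) (b : F) : v * c.z b = c.z b * v := (L.cZ hv _ (c.z_mem_Z b)).symm

include S

theorem i2_add (hv : v ∈ U) (hv' : v' ∈ U) : i2 c W (v * v') = i2 c W v + i2 c W v' :=
  i2_mul S (L.nP hv) (L.cZ hv) (L.nP hv')

theorem i2_inv (hv : v ∈ U) : i2 c W v⁻¹ = i2 c W v := by
  have := i2_add S L hv (inv_mem hv)
  rw [mul_inv_cancel, i2_P S (one_mem _)] at this
  grind

theorem i2_eq (hv : v ∈ T) (hv' : v' ∈ T) (e : i2 c W v = i2 c W v') : ∃ y ∈ c.Q ⊔ W, v' = v * y :=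
  ⟨_, L.ker _ (mul_mem (inv_mem hv) hv') (by rw [i2_add S L (inv_mem (L.l2 hv)) (L.l2 hv'), i2_inv S L (L.l2 hv), e, two]),
    (mul_inv_cancel_left _ _).symm⟩

theorem ι_h (hw : w ∈ W) : ι (h * w * h⁻¹) = N c.l * ι w :=
  c.z_inj.1 (by rw [S.ι_conj (nW S L.hP) L.tor.ht hw, L.tor.hz])

theorem ι_v (hv : v ∈ U) (hw : w ∈ W) : ι (v * w * v⁻¹) = ι w := by
  have k1 := wxt S ((mem_normalizer_iff.1 (nW S (L.nP hv)) _).1 hw) (xv S (L.nP hv))
  have k2 := wxt S hw (x := c.t) (by rw [c.tt]; exact one_mem _)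
  rw [show v * w * v⁻¹ * (v * c.t * v⁻¹) * (v * w * v⁻¹)⁻¹ = v * (w * c.t * w⁻¹) * v⁻¹ by group, k2, ← mul_assoc,
    L.zc hv, mul_assoc, mul_assoc, ← mul_assoc v, mul_left_inj] at k1
  exact (c.z_inj.1 k1).symm

theorem gam (hv : v ∈ U) (a b : F) : ∃ γ ∈ W, v * c.u a b * v⁻¹ = γ * c.u a b ∧ ι γ = cm a (i2 c W v) := by
  have m : c.u a b ∈ c.Q ⊔ W := mem_sup_left (c.u_mem_Q a b)
  have m1 := (mem_normalizer_iff.1 (n1 S (L.nP hv)) _).1 m
  have m2 : v * c.u a b * v⁻¹ * (c.u a b)⁻¹ ∈ W := fa_ker S (mul_mem m1 (inv_mem m)) (by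
    rw [fa_mul S m1 (inv_mem m), fa_inv S m, fa_cent S (L.nP hv) (L.cZ hv) m, two])
  refine ⟨_, m2, (inv_mul_cancel_right _ _).symm, ?_⟩
  have k0 := xv S (L.nP hv)
  have k1 := wxt S m2 k0
  have k2 := fa_comm S m k0
  rw [fa_u S, ← i2] at k2
  have k3 : c.u a b * (v * c.t * v⁻¹) * (c.u a b)⁻¹ = c.z (cm a (i2 c W v)) * (v * c.t * v⁻¹) := by
    rw [mul_inv_eq_iff_eq_mul, ← mul_left_inj c.t, mul_assoc, k2]
    simp only [mul_assoc, c.t_u]
  generalize ι (v * c.u a b * v⁻¹ * (c.u a b)⁻¹) = d at *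
  have k4 : v * c.u a b * v⁻¹ * (c.u a b)⁻¹ * (c.u a b * (v * c.t * v⁻¹) * (c.u a b)⁻¹) *
      (v * c.u a b * v⁻¹ * (c.u a b)⁻¹)⁻¹ = v * c.t * v⁻¹ := by
    calc _ = v * (c.u a b * c.t * (c.u a b)⁻¹) * v⁻¹ := by group
      _ = _ := by rw [← c.t_u, mul_inv_cancel_right]
  rw [k3, ← mul_assoc, wc S m2 (zW S _), mul_assoc (c.z _), mul_assoc (c.z _), k1, ← mul_assoc, z_mul, mul_eq_right,
    z_eq_one] at k4
  grind

theorem central : (∀ v ∈ T, ∀ w ∈ W, v * w = w * v) ∧ ∀ v ∈ T, v * v ∈ W := by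
  obtain ⟨l0, l1⟩ := gen_ne c.par c.gen
  choose va v1 v2 using L.sur
  choose wb w1 w2 using S.ι_sur
  have nw : ∀ v ∈ U, ∀ w ∈ W, v * w * v⁻¹ ∈ W := fun v hv w hw => (mem_normalizer_iff.1 (nW S (L.nP hv)) _).1 hw
  have ex : ∀ a b, ∃ d, va a * wb b * (va a)⁻¹ * (wb b)⁻¹ = c.z d := fun a b =>
    c.mem_Z.1 ((S.ι_ker _ (mul_mem (nw _ (L.l2 (v1 a)) _ (w1 b)) (inv_mem (w1 b)))).1 (by
      rw [S.ι_mul _ (nw _ (L.l2 (v1 a)) _ (w1 b)) _ (inv_mem (w1 b)), S.ι_inv (w1 b), ι_v S L (L.l2 (v1 a)) (w1 b), two]))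
  choose B hB using ex
  have fB : ∀ v ∈ T, ∀ w ∈ W, v * w * v⁻¹ = c.z (B (i2 c W v) (ι w)) * w := fun v hv w hw => by
    obtain ⟨y, hy, e⟩ := i2_eq S L (v1 _) hv (v2 _)
    obtain ⟨d, hd⟩ := c.mem_Z.1 ((S.ι_ker _ (mul_mem (inv_mem (w1 (ι w))) hw)).1 (by
      rw [S.ι_mul _ (inv_mem (w1 _)) _ hw, S.ι_inv (w1 _), w2, two]))
    rw [← hB]
    generalize i2 c W v = a at *
    generalize wb (ι w) = w0 at *
    rw [e, mul_assoc _ y, ← cW S hy hw, inv_mul_eq_iff_eq_mul.1 hd]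
    calc _ = va a * w0 * (c.z d * (va a)⁻¹) := by group
      _ = _ := by rw [← L.zc (inv_mem (L.l2 (v1 a)))]; group
  have hh : ∀ v ∈ T, h * v * h⁻¹ ∈ T := fun v hv => (mem_normalizer_iff.1 L.hS _).1 hv
  obtain ⟨k, hk⟩ := wlQ c.par c.gen B (fun a a' b => by
      have := fB _ (mul_mem (v1 a) (v1 a')) _ (w1 b)
      rw [i2_add S L (L.l2 (v1 a)) (L.l2 (v1 a')), show va a * va a' * wb b * (va a * va a')⁻¹ =
        va a * (va a' * wb b * (va a')⁻¹) * (va a)⁻¹ by group, fB _ (v1 a') _ (w1 b), ← mul_assoc, L.zc (L.l2 (v1 a)),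
        mul_assoc, mul_assoc, ← mul_assoc (va a), fB _ (v1 a) _ (w1 b), ← mul_assoc, z_mul, mul_left_inj, z_inj,
        v2, v2, w2] at this
      rw [← this, add_comm])
    (fun a b b' => by
      have := fB _ (v1 a) _ (mul_mem (w1 b) (w1 b'))
      rw [← conj_mul, fB _ (v1 a) _ (w1 b), fB _ (v1 a) _ (w1 b'), S.ι_mul _ (w1 b) _ (w1 b'), mul_assoc,
        ← mul_assoc (wb b), S.cZ _ (w1 b), mul_assoc, ← mul_assoc, z_mul, mul_left_inj, z_inj, v2, w2, w2] at this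
      exact this.symm)
    fun a b => by
      have := fB _ (hh _ (v1 a)) _ ((mem_normalizer_iff.1 (nW S L.hP) _).1 (w1 b))
      rw [i2_tor S L.tor L.hP (L.nP (L.l2 (v1 a))), ι_h S L (w1 b), conj_inv, conj_mul, conj_mul, fB _ (v1 a) _ (w1 b),
        ← conj_mul, L.tor.hz, mul_left_inj, z_inj, v2, w2] at this
      exact this.symm
  have fs : ∀ v ∈ T, fa c W (v * v) = fa c W (va (i2 c W v) * va (i2 c W v)) := fun v hv => by
    obtain ⟨y, hy, e⟩ := i2_eq S L (v1 _) hv (v2 _)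
    generalize i2 c W v = a at *
    have m := inv_mem (L.l2 (v1 a))
    have m' := (mem_normalizer_iff.1 (n1 S (L.nP m)) _).1 hy
    rw [e, show va a * y * (va a * y) = va a * va a * ((va a)⁻¹ * y * (va a)⁻¹⁻¹ * y) by group,
      fa_mul S (L.sq _ (L.l2 (v1 a))) (mul_mem m' hy), fa_mul S m' hy, fa_cent S (L.nP m) (L.cZ m) hy, two, add_zero]
  obtain ⟨τ, hτ⟩ := eqv c.gen (fun a => fa c W (va a * va a)) (by
      have := fs 1 (one_mem _)
      rw [i2_P S (one_mem _), one_mul, fa_W S (one_mem _)] at this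
      exact this.symm)
    fun a => by
      have := fs _ (hh _ (v1 a))
      rw [i2_tor S L.tor L.hP (L.nP (L.l2 (v1 a))), v2, conj_mul, fa_tor S L.tor (nW S L.hP) (L.sq _ (L.l2 (v1 a)))] at this
      exact this.symm
  have key : ∀ a, k * ψ (1 * cm a 1) = cm τ a := fun a => by
    obtain ⟨γ, g1, g2, g3⟩ := gam S L (L.l2 (v1 1)) a 0
    have k1 := fa_comm S (L.sq _ (L.l2 (v1 1))) (mem_sup_left (c.u_mem_Q a 0))
    rw [hτ, mul_one, fa_u S, ← mul_assoc, ← mul_inv_eq_iff_eq_mul, show va 1 * va 1 * c.u a 0 * (va 1 * va 1)⁻¹ =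
      va 1 * (va 1 * c.u a 0 * (va 1)⁻¹) * (va 1)⁻¹ by group, g2, ← conj_mul, g2, fB _ (v1 1) _ g1, mul_assoc,
      ← mul_assoc γ, ww S g1, one_mul, mul_left_inj, z_inj, hk, g3, v2] at k1
    exact k1
  have c1 : ∀ a : F, a ≠ 0 → a ≠ 1 → cm a 1 ≠ 0 := fun a a0 a1 e => by have := cm_eq_zero e; grind
  have τ0 : τ = 0 := by
    have k1 := key 1
    rw [cm_self, mul_zero, map_zero, mul_zero] at k1
    rcases cm_eq_zero k1.symm with e | e | rfl
    exacts [e, absurd e one_ne_zero, by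
      obtain ⟨r, r0, r1, r2, r3⟩ := exists_four c
      have k0 : k ≠ 0 := fun e => c1 _ l0 l1 (by rw [cm_comm, ← key, e, zero_mul])
      rcases psi_fix k0 one_ne_zero ((key c.l).trans (cm_comm _ _)) ((key r).trans (cm_comm _ _)) with e | e | e
      exacts [absurd e (c1 _ l0 l1), absurd e (c1 _ r0 r1),
        absurd (by rw [cm_add_left, e, two]) (c1 (c.l + r) (by grind) (by grind))]]
  have k0 : k = 0 := by
    have k1 := key c.l
    rw [τ0, cm_zero_left, one_mul, mul_eq_zero, ψ_eq_zero] at k1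
    exact k1.resolve_right (c1 _ l0 l1)
  exact ⟨fun v hv w hw => by simpa [hk, k0, mul_inv_eq_iff_eq_mul] using fB v hv w hw,
    fun v hv => fa_ker S (L.sq _ (L.l2 hv)) (by rw [fs v hv, hτ, τ0, zero_mul])⟩

theorem not_conj (g : G) : g * c.t * g⁻¹ ∉ T := fun m => by
  have k := c.elem_le_of_cent (fun w hw => ww S hw) fun w hw => mem_cent1.2 ((central S L).1 _ m w hw).symm
  have := eight_le c.par
  rw [S.card, zero_add, pow_two] at k
  nlinarith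

theorem sylow : IsSylowOf 2 U ⊤ := c.principle L.two ((c.T_le_P W).trans L.le) fun g hg => by
  have tt : ∀ g : G, g * c.t * g⁻¹ * (g * c.t * g⁻¹) = 1 := fun g => by rw [conj_mul, c.tt]; simp
  have m := (L.dec _ ((mem_normalizer_iff.1 hg _).1 (L.le (c.t_mem_P W)))).resolve_left (not_conj S L g)
  have k := tt g
  generalize g * c.t * g⁻¹ = s at *
  have m1 := L.ker _ m (by
    rw [i2, show s * c.t * c.t * (s * c.t)⁻¹ * c.t = s * c.t * (c.t * c.t⁻¹ * s⁻¹ * c.t) by group,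
      inv_eq_of_mul_eq_one_right k, mul_inv_cancel, one_mul]
    exact fa_W S ((central S L).2 _ m))
  obtain ⟨v, hv, e⟩ := L.sur (fa c W (s * c.t))
  obtain ⟨p, hp, e⟩ := inv_conj S (xv S (L.nP (L.l2 hv))) m1 (tt v) k e
  exact ⟨p * v, mul_mem (L.le (c.le_P W hp)) (L.l2 hv), by rw [e]; group⟩

theorem cent_h : T ⊓ 𝒞(zpowers h) = ⊥ := eq_bot_iff.2 fun y hy => by
  obtain ⟨l0, l1⟩ := gen_ne c.par c.gen
  have e : h * y * h⁻¹ = y := mul_inv_eq_iff_eq_mul.2 (hy.2 h (mem_zpowers h))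
  have k : ∀ {r a : F}, r ≠ 1 → a = r * a → a = 0 := fun r1 e => by grind
  have n1 : N c.l ≠ 1 := fun e => l1 (N_inj (e.trans N_one.symm))
  have m1 := L.ker y hy.1 (k l1 (by rw [← i2_tor S L.tor L.hP (L.nP (L.l2 hy.1)), e]))
  have m2 := fa_ker S m1 (k l1 (by rw [← fa_tor S L.tor (nW S L.hP) m1, e]))
  obtain ⟨d, rfl⟩ := c.mem_Z.1 ((S.ι_ker y m2).1 (k n1 (by rw [← ι_h S L m2, e])))
  rw [L.tor.hz, z_inj] at e
  exact c.z_eq_one.2 (k n1 e.symm)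

end Cfsg.Agent.SZS.Mn
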