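import Cfsg.Agent.SZS.Stepa
import Cfsg.Agent.SZS.Gen

/-! Standard Suzuki subgroups: one step up the tower. -/

set_option autoImplicit false
set_option linter.unusedSectionVars false

namespace Cfsg.Agent.SZS.Ctx

open Subgroup H13 H49

variable {G F : Type*} [Group G] [Finite G] [Field F] [Tits F] [Finite F] {c : Ctx G F}
  {j : ℕ} {Y Y' : Subgroup G} {h : G} {ι : G → F} {s k : F}

/-- the group reached by climbing -/
structure Up (c : Ctx G F) (j : ℕ) (Y : Subgroup G) (h : G) (R : Subgroup G) : Prop where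
  st : c.St j Y h
  two : IsPGroup 2 R
  le : c.P Y ≤ R
  nP : R ≤ 𝒩(c.P Y)
  nY : R ≤ 𝒩(Y)
  cZ : R ≤ 𝒞(c.Z)
  hR : h ∈ 𝒩(R)
  sur : ∀ b, ∃ v ∈ R, c.π j (v⁻¹ * c.t * v * c.t) = b
  ker : ∀ v ∈ R, c.π j (v⁻¹ * c.t * v * c.t) = 0 ↔ v ∈ c.P Y

theorem St.up (S : c.St j Y h) (hn : ¬ IsSylowOf 2 (c.P Y) ⊤) : ∃ h' R, c.Up j Y h' R := by
  obtain ⟨R, h', h1, h2, h3, h4, h5, h6, h7, h8⟩ := c.climb S.two (c.T_le_P Y) S.tor S.hP
    ((S.normY hn).trans S.normZ) (S.haut hn) (fun x => c.π j (x * c.t)) S.hco (S.hsur hn)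
  refine ⟨h', R, { S with tor := h4, hY := S.normY hn h5 }, h1.pi.isPGroup Nat.prime_two, h2,
    h1.le, h1.le.trans (S.normY hn), h3, h6, fun b => ?_, fun v hv => ⟨fun e => ?_, fun e => ?_⟩⟩
  · obtain ⟨v, hv, e⟩ := h7 b
    exact ⟨v⁻¹, inv_mem hv, by rwa [inv_inv]⟩
  · exact inv_mem_iff.1 (h8 _ (inv_mem hv) (by simpa [c.tt] using e))
  · have := (S.hco 1 (one_mem _) _ (inv_mem (h1.le hv))).2 ⟨_, inv_mem e, by simp⟩
    simpa [c.tt] using this.symm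

variable {R : Subgroup G}

theorem Up.mem (U : c.Up j Y h R) {v : G} (hv : v ∈ R) : v⁻¹ * c.t * v * c.t ∈ Y := by
  obtain ⟨y, hy, e⟩ := U.st.t_conj (cm_norm (inv_mem (U.nP hv)) (c.t_mem_P Y))
  rw [inv_inv] at e
  rwa [e, mul_assoc, c.tt, mul_one]

theorem Up.mul (U : c.Up j Y h R) {v w : G} (hv : v ∈ R) (hw : w ∈ R) :
    c.π j ((v * w)⁻¹ * c.t * (v * w) * c.t) =
      c.π j (v⁻¹ * c.t * v * c.t) + c.π j (w⁻¹ * c.t * w * c.t) := by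
  rw [← U.st.π_conj' (U.nY hw) (U.cZ hw) (U.mem hv),
    ← U.st.π_mul (cm_norm' (U.nY hw) (U.mem hv)) (U.mem hw)]
  congr 1
  simp only [mul_assoc, tt', mul_inv_rev, mul_inv_cancel_left]

theorem Up.sqP (U : c.Up j Y h R) {v : G} (hv : v ∈ R) : v * v ∈ c.P Y :=
  (U.ker _ (mul_mem hv hv)).1 (by rw [U.mul hv hv]; grind)

theorem Up.conj_z (U : c.Up j Y h R) {v : G} (hv : v ∈ R) (b : F) : v⁻¹ * c.z b * v = c.z b := by
  rw [mul_assoc, mem_cent.1 (U.cZ hv) _ (c.z_mem_Z b), inv_mul_cancel_left]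

theorem Up.normQ0 (U : c.Up 0 Y h R) : R ≤ 𝒩(c.Q) := by
  have hP : c.P Y = c.T := by rw [U.st.eq_Z, P_Z]
  have hπ : ∀ v ∈ R, v⁻¹ * c.t * v = c.z (c.π 0 (v⁻¹ * c.t * v * c.t)) * c.t := fun v hv => by
    rw [U.st.π_spec (U.mem hv), pow_zero, pow_one, mul_assoc _ c.t c.t, c.tt, mul_one]
  have h1 : ∀ v ∈ R, ∀ a, ∃ d, v⁻¹ * c.u a 0 * v = c.u a 0 * c.z d ∨
      v⁻¹ * c.u a 0 * v = c.u a 0 * c.z d * c.t := fun v hv a => by
    have h2 : v⁻¹ * c.u a 0 * v * (v⁻¹ * c.u a 0 * v) = c.z (N a) := by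
      rw [← U.conj_z hv, ← c.u_sq a 0]; group
    obtain ⟨a', b', e | e⟩ := c.mem_T.1 (hP ▸ cm_norm' (U.nP hv) (c.Q_le_P Y (c.u_mem_Q a 0)))
    · rw [e, u_sq, z_inj] at h2
      exact ⟨b', Or.inl (by rw [e, N_inj h2, u_z, zero_add])⟩
    · rw [e, ut_sq, z_inj] at h2
      exact ⟨b', Or.inr (by rw [e, N_inj h2, u_z, zero_add])⟩
  have h3 : ∀ w ∈ R, ∀ a d, w⁻¹ * c.u a 0 * w = c.u a 0 * c.z d * c.t →
      ∃ x, c.π 0 (w⁻¹ * c.t * w * c.t) = cm a x := fun w hw a d e => by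
    have h4 : (w * w)⁻¹ * c.u a 0 * (w * w) = c.u a (c.π 0 (w⁻¹ * c.t * w * c.t)) := by
      have h5 := hπ w hw
      generalize c.π 0 (w⁻¹ * c.t * w * c.t) = p at h5 ⊢
      calc _ = w⁻¹ * (w⁻¹ * c.u a 0 * w) * w := by group
        _ = w⁻¹ * (c.u a 0 * c.z d * c.t) * w := by rw [e]
        _ = w⁻¹ * c.u a 0 * w * (w⁻¹ * c.z d * w) * (w⁻¹ * c.t * w) := by group
        _ = c.u a 0 * c.z d * (c.t * c.z d) * (c.z p * c.t) := by
          rw [e, U.conj_z hw, h5]; group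
        _ = c.u a 0 * c.z d * c.z d * (c.t * c.z p * c.t) := by rw [c.t_z]; group
        _ = _ := by
          rw [c.t_z, mul_assoc _ c.t c.t, c.tt, mul_one, u_z, u_z, u_z]; congr 1; grind
    obtain ⟨a', b', -, e', e1, e2⟩ := c.co_T (hP ▸ inv_mem (U.sqP hw))
    rw [← inv_inv (w * w), e1, inv_inv, mul_assoc _ e', e2 _ (c.Q_le_T (c.u_mem_Q a 0)),
      mul_inv_rev, ← mul_assoc, ← mul_assoc, mul_inv_cancel_right, u_conj, u_inj, zero_add] at h4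
    exact ⟨a', by rw [← h4.2, cm_comm]⟩
  have h5 : ∀ v ∈ R, ∀ a d, v⁻¹ * c.u a 0 * v ≠ c.u a 0 * c.z d * c.t := fun v hv a d e => by
    by_cases ha : a = 0
    · subst ha
      rw [← z, U.conj_z hv, z_mul] at e
      exact c.u_mul_t_ne _ _ _ _ e.symm
    obtain ⟨w, hw, e1⟩ := U.sur (N a)
    obtain ⟨d', e2 | e2⟩ := h1 w hw a
    · obtain ⟨x, hx⟩ := h3 v hv a d e
      obtain ⟨y, hy⟩ := h3 _ (mul_mem hw hv) a (d + d') (by
        calc _ = v⁻¹ * (w⁻¹ * c.u a 0 * w) * v := by group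
          _ = v⁻¹ * c.u a 0 * v * (v⁻¹ * c.z d' * v) := by rw [e2]; group
          _ = _ := by rw [e, U.conj_z hv, mul_assoc, c.t_z, ← z_mul]; group)
      rw [U.mul hw hv, e1, hx] at hy
      exact N_ne_cm ha (x + y) (by rw [cm_add_right]; grind)
    · obtain ⟨x, hx⟩ := h3 w hw a d' e2
      exact N_ne_cm ha x (e1.symm.trans hx)
  refine fun v hv => inv_mem_iff.1 (norm_of_conj fun x hx => ?_)
  obtain ⟨a, b, rfl⟩ := c.mem_Q.1 hx
  obtain ⟨d, e | e⟩ := h1 v hv a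
  · rw [show v⁻¹ * c.u a b * v⁻¹⁻¹ = v⁻¹ * c.u a 0 * v * (v⁻¹ * c.z b * v) by
      rw [← zero_add b, ← u_z, zero_add]; group, e, U.conj_z hv, u_z, u_z]
    exact c.u_mem_Q _ _
  · exact absurd e (h5 v hv a d)

theorem Up.conj_u (U : c.Up j Y h R) (hQ : R ≤ 𝒩(c.Q)) {v : G} (hv : v ∈ R) (a b : F) :
    v * c.u a b * v⁻¹ = c.u a (b + c.zc (v * c.u a 0 * v⁻¹ * (c.u a 0)⁻¹)) := by
  have hz : ∀ b, v * c.z b * v⁻¹ = c.z b := fun b => by simpa using U.conj_z (inv_mem hv) b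
  obtain ⟨a', b', e⟩ := c.mem_Q.1 (cm_norm (hQ hv) (c.u_mem_Q a 0))
  have h1 : c.z (N a') = c.z (N a) := by rw [← c.u_sq a' b', ← e, conj_mul, u_sq, hz]
  obtain rfl := N_inj (c.z_inj.1 h1)
  have h2 : c.u a' b' * (c.u a' 0)⁻¹ = c.z b' := by rw [mul_inv_eq_iff_eq_mul, z_u, zero_add]
  rw [e, h2, zc_z, add_comm, ← u_z, ← e, ← hz, conj_mul, u_z, zero_add]

theorem St.sq_mem (S : c.St j Y h) {x : G} (hx : x ∈ c.P Y) : x * x ∈ Y := by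
  obtain ⟨a, b, y, hy, rfl | rfl⟩ := S.mem_P.1 hx
  · rw [mul_assoc, ← mul_assoc y, ← S.cQ y hy, ← mul_assoc, ← mul_assoc, u_sq, mul_assoc]
    exact mul_mem (S.ZY (c.z_mem_Z _)) (mul_mem hy hy)
  · rw [S.uyt_sq a b hy]; exact S.ZY (c.z_mem_Z _)

theorem eq_zero_of_comm {a b : F} (e : ∀ y, c.u y 0 * c.u a b = c.u a b * c.u y 0) : a = 0 := by
  by_contra ha
  rcases cm_eq_zero (c.u_comm_iff.1 (e (c.l * a))) with e1 | e1 | e1
  · exact mul_ne_zero c.l_ne.1 ha e1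
  · exact ha e1
  · exact c.l_ne.2 (mul_right_cancel₀ ha (e1.symm.trans (one_mul a).symm))

theorem Up.sqY (U : c.Up j Y h R) (hQ : R ≤ 𝒩(c.Q)) {v : G} (hv : v ∈ R) : v * v ∈ Y := by
  have h1 : ∀ x, c.u x 0 * (v * v) = v * v * c.u x 0 := fun x => by
    have h2 : v * (v * c.u x 0 * v⁻¹) * v⁻¹ = c.u x 0 := by
      rw [U.conj_u hQ hv, U.conj_u hQ hv]; congr 1; grind
    conv_lhs => rw [← h2]
    group
  obtain ⟨a, b, y, hy, e | e⟩ := U.st.mem_P.1 (U.sqP hv)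
  · obtain rfl : a = 0 := eq_zero_of_comm (c := c) (b := b) fun x => by
      have := h1 x
      rwa [e, mul_assoc, ← U.st.cQ y hy, ← mul_assoc, ← mul_assoc, mul_left_inj] at this
    exact e ▸ mul_mem (U.st.ZY (c.z_mem_Z b)) hy
  · obtain rfl : a = 0 := eq_zero_of_comm (c := c) (b := b) fun x => by
      have := h1 x
      rwa [e, mul_assoc _ c.t, c.t_u, ← mul_assoc, ← mul_assoc, ← mul_assoc, mul_left_inj,
        mul_assoc _ y, ← U.st.cQ y hy, ← mul_assoc, mul_left_inj] at this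
    have hy' := mul_mem (U.st.ZY (c.z_mem_Z b)) hy
    rw [← z] at e
    generalize c.z b * y = y' at e hy'
    have h2 : v⁻¹ * y' * v * (v⁻¹ * c.t * v * c.t) = y' := by
      calc _ = v⁻¹ * (y' * c.t) * v * c.t := by group
        _ = _ := by rw [← e, show v⁻¹ * (v * v) * v = v * v by group, e, mul_assoc, c.tt, mul_one]
    have h3 := U.st.π_mul (cm_norm' (U.nY hv) hy') (U.mem hv)
    rw [h2, U.st.π_conj' (U.nY hv) (U.cZ hv) hy', left_eq_add, U.ker v hv] at h3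
    exact U.st.sq_mem h3

theorem step (S : c.St j Y h) (hn : ¬ IsSylowOf 2 (c.P Y) ⊤) :
    ∃ h' Y' ι s k, c.Step j Y h' Y' ι s k := by
  obtain ⟨h, R, U⟩ := S.up hn
  have hQ : R ≤ 𝒩(c.Q) := by
    rcases Nat.eq_zero_or_pos j with rfl | hj
    exacts [U.normQ0, U.nP.trans (S.normQ hj hn)]
  replace S := U.st
  obtain ⟨Y', h1, h2, h3, h4, h5⟩ := relMaschke (c.le_P Y) U.le U.nY (fun x => U.sqY hQ) S.tor.odd
    S.hY S.hP U.hR
  set ι : G → F := fun v => c.π j (v⁻¹ * c.t * v * c.t) with hι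
  have hmul : ∀ v ∈ R, ∀ w ∈ R, ι (v * w) = ι v + ι w := fun v hv w hw => U.mul hv hw
  have hker : ∀ v ∈ Y', ι v = 0 ↔ v ∈ Y := fun v hv =>
    (U.ker v (h2 hv)).trans ⟨fun e => h4 ⟨e, hv⟩, fun e => c.le_P Y e⟩
  have hsur : ∀ b, ∃ v ∈ Y', ι v = b := fun b => by
    obtain ⟨v, hv, e⟩ := U.sur b
    obtain ⟨p, hp, w, hw, rfl⟩ := h5 v hv
    exact ⟨w, hw, by rw [← e, ← zero_add (ι w), ← (U.ker p (U.le hp)).2 hp]; exact
      (hmul p (U.le hp) w (h2 hw)).symm⟩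
  have hR : c.P Y' ≤ R := sup_le (sup_le ((c.Q_le_P Y).trans U.le) h2)
    (zpowers_le.2 (U.le (c.t_mem_P Y)))
  have hform : ∀ x ∈ R, ∃ a b, ∃ v ∈ Y', x = c.u a b * v ∨ x = c.u a b * v * c.t := fun x hx => by
    obtain ⟨p, hp, w, hw, rfl⟩ := h5 x hx
    obtain ⟨a, b, y, hy, rfl | rfl⟩ := S.mem_P.1 hp
    · exact ⟨a, b, _, mul_mem (h1 hy) hw, Or.inl (mul_assoc _ _ _)⟩
    · refine ⟨a, b, _, mul_mem (h1 hy) (mul_mem hw (h1 (U.mem (h2 hw)))), Or.inr ?_⟩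
      simp only [mul_assoc, c.tt, mul_one, mul_inv_cancel_left]
  have hπh : ∀ y ∈ Y, c.π j (h * y * h⁻¹) = N c.l * c.π j y := fun y hy =>
    c.z_inj.1 (by rw [S.π_conj S.hY hy, S.tor.hz])
  have hιh : ∀ v ∈ Y', ι (h * v * h⁻¹) = N c.l * ι v := fun v hv => by
    rw [← hπh _ (U.mem (h2 hv))]
    refine congrArg (c.π j) ?_
    conv_lhs => rw [show c.t = h * c.t * h⁻¹ by rw [S.tor.ht, mul_inv_cancel_right]]
    group
  choose r hr1 hr2 using hsur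
  have hdif : ∀ v ∈ Y', ∃ y ∈ Y, v = r (ι v) * y := fun v hv =>
    ⟨_, (hker _ (mul_mem (inv_mem (hr1 _)) hv)).1 (by
      have e1 := hmul _ (h2 (hr1 (ι v))) _ (mul_mem (inv_mem (h2 (hr1 (ι v)))) (h2 hv))
      rwa [mul_inv_cancel_left, hr2, left_eq_add] at e1), (mul_inv_cancel_left _ _).symm⟩
  have hsq : ∀ v ∈ Y', c.π j (v * v) = c.π j (r (ι v) * r (ι v)) := fun v hv => by
    obtain ⟨y, hy, e⟩ := hdif v hv
    have hw := h2 (hr1 (ι v))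
    generalize r (ι v) = w at e hw
    rw [e, show w * y * (w * y) = w * w * (w⁻¹ * y * w * y) by group,
      S.π_mul (U.sqY hQ hw) (mul_mem (cm_norm' (U.nY hw) hy) hy),
      S.π_mul (cm_norm' (U.nY hw) hy) hy, S.π_conj' (U.nY hw) (U.cZ hw) hy]
    grind
  obtain ⟨s, hs⟩ := eqv (gen_N c.gen) (fun b => c.π j (r b * r b))
    (S.π_sq ((hker _ (hr1 0)).1 (hr2 0))) fun b => by
      rw [← hπh _ (U.sqY hQ (h2 (hr1 b))), ← conj_mul, hsq _ (cm_norm h3 (hr1 b)), hιh _ (hr1 b),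
        hr2]
  set κ : G → F → F := fun v a => c.zc (v * c.u a 0 * v⁻¹ * (c.u a 0)⁻¹) with hκ
  have hcu : ∀ v ∈ Y', ∀ a b, v * c.u a b * v⁻¹ = c.u a (b + κ v a) := fun v hv =>
    U.conj_u hQ (h2 hv)
  have hκv : ∀ v ∈ Y', ∀ a, κ v a = κ (r (ι v)) a := fun v hv a => by
    obtain ⟨y, hy, e⟩ := hdif v hv
    have e1 := hcu v hv a 0
    rw [e, mul_assoc _ y, ← S.cQ y hy, mul_inv_rev, ← mul_assoc, ← mul_assoc, mul_inv_cancel_right,
      hcu _ (hr1 _), u_inj, ← e] at e1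
    simpa using e1.2.symm
  obtain ⟨k, hk⟩ := wlQ c.par c.gen (fun a b => κ (r b) a) (fun a a' b => by
      have e1 : r b * (c.u a 0 * c.u a' 0) * (r b)⁻¹ = _ := (conj_mul).symm
      rw [hcu _ (hr1 b), hcu _ (hr1 b), u_mul, hcu _ (hr1 b), u_mul, u_inj] at e1
      linear_combination e1.2) (fun a b b' => by
      have e1 := hcu _ (mul_mem (hr1 b) (hr1 b')) a 0
      rw [hκv _ (mul_mem (hr1 b) (hr1 b')), hmul _ (h2 (hr1 b)) _ (h2 (hr1 b')), hr2, hr2,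
        show r b * r b' * c.u a 0 * (r b * r b')⁻¹ = r b * (r b' * c.u a 0 * (r b')⁻¹) * (r b)⁻¹ by
          group, hcu _ (hr1 b'), hcu _ (hr1 b), u_inj] at e1
      linear_combination -e1.2) fun a b => by
      obtain ⟨b', e⟩ := S.tor.hu a 0
      have e1 := hcu _ (cm_norm h3 (hr1 b)) (c.l * a) b'
      rw [hκv _ (cm_norm h3 (hr1 b)), hιh _ (hr1 b), hr2, ← e, conj_mul, conj_inv, conj_mul,
        hcu _ (hr1 b), ← u_z, ← conj_mul, e, S.tor.hz, u_z, u_inj] at e1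
      linear_combination -e1.2
  refine ⟨h, Y', ι, s, k, S, h1, U.two.to_le hR, fun x => ⟨fun hx => hform x (hR hx), ?_⟩, h3,
    hR.trans U.nY, fun x hx => U.sqY hQ (hR hx), fun v hv w hw => hmul v (h2 hv) w (h2 hw), hker,
    fun b => ⟨_, hr1 b, hr2 b⟩, fun v hv => ⟨U.mem (h2 hv), (S.π_spec (U.mem (h2 hv))).symm⟩, hιh,
    fun v hv => ?_, fun v hv b => (mem_cent.1 (U.cZ (h2 hv)) _ (c.z_mem_Z b)).symm,
    fun v hv a b => ?_⟩
  · rintro ⟨a, b, v, hv, rfl | rfl⟩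
    exacts [mul_mem (c.Q_le_P _ (c.u_mem_Q a b)) (c.le_P _ hv),
      mul_mem (mul_mem (c.Q_le_P _ (c.u_mem_Q a b)) (c.le_P _ hv)) (c.t_mem_P _)]
  · rw [← S.π_spec (U.sqY hQ (h2 hv)), hsq v hv, ← hs]
  · rw [hcu v hv, hκv v hv, ← hk]

end Cfsg.Agent.SZS.Ctx
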