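import Cfsg.Agent.SZS.Basic

/-! Standard Suzuki subgroups: the normalizer of a state which is not Sylow. -/

set_option autoImplicit false
set_option linter.unusedSectionVars false

namespace Cfsg.Agent.SZS.Ctx

open Subgroup H13 H49

variable {G F : Type*} [Group G] [Finite G] [Field F] [Tits F] [Finite F] {c : Ctx G F}
  {j : ℕ} {Y Y' : Subgroup G} {h : G} {ι : G → F} {s k : F}

open Classical in
/-- the coordinate of an element of `Z` -/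
noncomputable def zc (c : Ctx G F) (x : G) : F := if h : ∃ b, x = c.z b then h.choose else 0

theorem zc_spec {x : G} (hx : x ∈ c.Z) : c.z (c.zc x) = x := by
  have h := c.mem_Z.1 hx
  rw [zc, dif_pos h, ← h.choose_spec]

@[simp] theorem zc_z (b : F) : c.zc (c.z b) = b := c.z_inj.1 (zc_spec (c.z_mem_Z b))

/-- the top coordinate on a state -/
noncomputable def π (c : Ctx G F) (j : ℕ) (y : G) : F := c.zc (y ^ 2 ^ j)

theorem St.π_spec (S : c.St j Y h) {y : G} (hy : y ∈ Y) : c.z (c.π j y) = y ^ 2 ^ j :=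
  zc_spec (S.pw y hy)

theorem St.π_mul (S : c.St j Y h) {x y : G} (hx : x ∈ Y) (hy : y ∈ Y) :
    c.π j (x * y) = c.π j x + c.π j y := c.z_inj.1 (by
  rw [← z_mul, S.π_spec hx, S.π_spec hy, S.π_spec (mul_mem hx hy), S.mul_pow hx hy])

@[simp] theorem π_one : c.π j 1 = 0 := by rw [π, one_pow, ← c.z_zero, zc_z]

theorem St.π_sq (S : c.St j Y h) {x : G} (hx : x ∈ Y) : c.π j (x * x) = 0 := by
  rw [S.π_mul hx hx]; grind

theorem St.π_inv (S : c.St j Y h) {x : G} (hx : x ∈ Y) : c.π j x⁻¹ = c.π j x := by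
  have := S.π_mul (inv_mem hx) hx
  rw [inv_mul_cancel, π_one] at this
  grind

theorem St.π_conj (S : c.St j Y h) {g y : G} (hg : g ∈ 𝒩(Y)) (hy : y ∈ Y) :
    c.z (c.π j (g * y * g⁻¹)) = g * c.z (c.π j y) * g⁻¹ := by
  rw [S.π_spec hy, S.π_spec (cm_norm hg hy), conj_pow]

theorem St.π_conj' (S : c.St j Y h) {g y : G} (hg : g ∈ 𝒩(Y)) (hc : g ∈ 𝒞(c.Z)) (hy : y ∈ Y) :
    c.π j (g⁻¹ * y * g) = c.π j y := c.z_inj.1 (by
  have := S.π_conj (inv_mem hg) hy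
  rw [inv_inv] at this
  rw [this, mul_assoc, mem_cent.1 hc _ (c.z_mem_Z _), inv_mul_cancel_left])

theorem St.π_sur (S : c.St j Y h) (b : F) : ∃ y ∈ Y, c.π j y = b := by
  obtain ⟨y, hy, e⟩ := S.sur b
  exact ⟨y, hy, by rw [π, e, zc_z]⟩

theorem St.conj_yt (S : c.St j Y h) {w y : G} (hw : w ∈ Y) (hy : y ∈ Y) :
    w * (y * c.t) * w⁻¹ = y * (w * w) * c.t := by
  have h3 : c.t * w⁻¹ = w * c.t := by rw [← S.inv w hw, mul_assoc c.t w, tt']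
  rw [mul_assoc, mul_assoc, h3, ← mul_assoc, S.comm w hw y hy]; group

theorem St.π_iff (S : c.St j Y h) {x y : G} (hx : x ∈ Y) (hy : y ∈ Y) :
    c.π j x = c.π j y ↔ ∃ p ∈ c.P Y, y * c.t = p * (x * c.t) * p⁻¹ := by
  constructor
  · intro e
    obtain ⟨w, hw, e1⟩ := S.eq_mul_sq hy hx (by rw [← S.π_spec hx, ← S.π_spec hy, e])
    exact ⟨w, c.le_P _ hw, by rw [S.conj_yt hw hx, e1]⟩
  · rintro ⟨p, hp, e⟩
    have hu : ∀ a b, ∀ w ∈ Y, c.u a b * (w * c.t) * (c.u a b)⁻¹ = w * c.t := fun a b w hw => by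
      rw [← mul_assoc, S.cQ w hw, mul_assoc w, ← c.t_u, ← mul_assoc, mul_inv_cancel_right]
    have key : ∀ a b, ∀ w ∈ Y, ∀ x ∈ Y, y * c.t = c.u a b * w * (x * c.t) * (c.u a b * w)⁻¹ →
        c.π j x = c.π j y := fun a b w hw x hx e => by
      have h1 : y * c.t = x * (w * w) * c.t := by
        rw [e, ← hu a b _ (mul_mem hx (mul_mem hw hw)), ← S.conj_yt hw hx]; group
      rw [mul_right_cancel h1, S.π_mul hx (mul_mem hw hw), S.π_sq hw, add_zero]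
    obtain ⟨a, b, w, hw, rfl | rfl⟩ := S.mem_P.1 hp
    · exact key a b w hw x hx e
    · rw [← S.π_inv hx]
      refine key a b w hw _ (inv_mem hx) ?_
      rw [e, ← S.inv x hx, mul_inv_rev _ c.t, t_inv]; group

theorem St.hco (S : c.St j Y h) (g : G) (hg : g ∈ 𝒩(c.P Y)) (g' : G) (hg' : g' ∈ 𝒩(c.P Y)) :
    c.π j (g * c.t * g⁻¹ * c.t) = c.π j (g' * c.t * g'⁻¹ * c.t) ↔
      ∃ p ∈ c.P Y, g' * c.t * g'⁻¹ = p * (g * c.t * g⁻¹) * p⁻¹ := by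
  obtain ⟨x, hx, e1⟩ := S.t_conj (cm_norm hg (c.t_mem_P Y))
  obtain ⟨y, hy, e2⟩ := S.t_conj (cm_norm hg' (c.t_mem_P Y))
  rw [e1, e2, mul_assoc, mul_assoc, c.tt, mul_one, mul_one, S.π_iff hx hy]

theorem St.hsur (S : c.St j Y h) (hn : ¬ IsSylowOf 2 (c.P Y) ⊤) (b : F) :
    ∃ g ∈ 𝒩(c.P Y), c.π j (g * c.t * g⁻¹ * c.t) = b := by
  by_cases hb : b = 0
  · exact ⟨1, one_mem _, by simp [hb, c.tt]⟩
  obtain ⟨g, hg, -, h1⟩ := c.exists_mover S.two (c.T_le_P Y) hn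
  obtain ⟨x, hx, e⟩ := S.t_conj (cm_norm hg (c.t_mem_P Y))
  have h0 : c.π j x ≠ 0 := fun h0 => by
    obtain ⟨p, hp, e1⟩ := (S.π_iff (one_mem _) hx).1 (by rw [h0, π_one])
    exact h1 p hp (by rw [e, e1, one_mul])
  obtain ⟨i, hi⟩ := gen_N c.gen _ (div_ne_zero hb h0)
  refine ⟨h ^ i * g, mul_mem (pow_mem S.hP i) hg, c.z_inj.1 ?_⟩
  have h2 : h ^ i * c.t = c.t * h ^ i := mem_cent1.1 (pow_mem (mem_cent1.2 S.tor.ht) i)
  have h3 : h ^ i * g * c.t * (h ^ i * g)⁻¹ * c.t = h ^ i * x * (h ^ i)⁻¹ := by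
    calc _ = h ^ i * (g * c.t * g⁻¹) * ((h ^ i)⁻¹ * (c.t * h ^ i)) * (h ^ i)⁻¹ := by group
      _ = _ := by rw [e, ← h2, inv_mul_cancel_left, mul_assoc (h ^ i), mul_assoc x, c.tt, mul_one]
  rw [h3, S.π_conj (pow_mem S.hY i) hx, S.tor.pow_z, hi, div_mul_cancel₀ _ h0]

theorem St.normY (S : c.St j Y h) (hn : ¬ IsSylowOf 2 (c.P Y) ⊤) : 𝒩(c.P Y) ≤ 𝒩(Y) :=
  fun g hg => norm_of_conj fun y hy => by
    obtain ⟨n, hn, e⟩ := S.hsur hn (c.π j y)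
    obtain ⟨x, hx, e1⟩ := S.t_conj (cm_norm hn (c.t_mem_P Y))
    rw [e1, mul_assoc, c.tt, mul_one] at e
    obtain ⟨p, hp, e2⟩ := (S.π_iff hx hy).1 e
    obtain ⟨y1, hy1, e3⟩ := S.t_conj
      (cm_norm (mul_mem hg (mul_mem (le_normalizer hp) hn)) (c.t_mem_P Y))
    obtain ⟨y2, hy2, e4⟩ := S.t_conj (cm_norm hg (c.t_mem_P Y))
    have h1 : g * y * g⁻¹ = y1 * c.t * (y2 * c.t)⁻¹ := by
      rw [← e3, ← e4, eq_mul_inv_of_mul_eq e2, ← e1]; group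
    rw [h1]
    simpa [mul_assoc, tt'] using mul_mem hy1 (inv_mem hy2)

theorem St.normZ (S : c.St j Y h) : 𝒩(Y) ≤ 𝒩(c.Z) := fun g hg => norm_of_conj fun x hx => by
  obtain ⟨b, rfl⟩ := c.mem_Z.1 hx
  exact S.om _ (cm_norm hg (S.ZY hx)) (by rw [conj_mul, z_sq]; simp)

theorem St.normQ (S : c.St j Y h) (hj : 1 ≤ j) (hn : ¬ IsSylowOf 2 (c.P Y) ⊤) :
    𝒩(c.P Y) ≤ 𝒩(c.Q) := fun g hg => norm_of_conj fun x hx => by
  have h1 : g * x * g⁻¹ ∈ 𝒞(Y) := cm_norm (norm_cent le_rfl (S.normY hn hg)) (cent_symm S.cent_Q hx)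
  obtain ⟨y0, hy0, e0⟩ := S.t_conj (cm_norm hg (c.t_mem_P Y))
  have h2 : g * x * g⁻¹ * (y0 * c.t) = y0 * c.t * (g * x * g⁻¹) := by
    rw [← e0, conj_mul, conj_mul, c.tc x (c.Q_le_A hx)]
  obtain ⟨a, b, y, hy, e | e⟩ := S.mem_P.1 (cm_norm hg (c.Q_le_P Y hx))
  · rw [e] at h2 ⊢
    have h3 : y * c.t = c.t * y := by
      rw [mul_assoc y0, ← mul_assoc c.t, c.t_u, ← mul_assoc, ← mul_assoc, ← mul_assoc,
        ← S.cQ y0 hy0, mul_assoc _ y, S.comm y hy y0 hy0] at h2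
      simpa [mul_assoc] using h2
    have h4 := S.inv y hy
    rw [← h3, mul_assoc, c.tt, mul_one] at h4
    exact mul_mem (c.u_mem_Q a b) (c.Z_le_Q (S.om y hy (by nth_rw 1 [h4]; rw [inv_mul_cancel])))
  · exfalso
    obtain ⟨w, hw, e1⟩ := S.exists_sq hj 1
    have h3 := mem_cent.1 h1 w hw
    rw [e, ← mul_assoc, ← mul_assoc, ← S.cQ w hw, mul_assoc _ w, S.comm w hw y hy] at h3
    have h4 : w * c.t = c.t * w := by simpa [mul_assoc] using h3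
    have h5 := S.inv w hw
    rw [← h4, mul_assoc, c.tt, mul_one] at h5
    nth_rw 1 [h5] at e1
    rw [inv_mul_cancel, eq_comm, z_eq_one] at e1
    exact one_ne_zero e1

open Classical in
/-- the first coordinate, read off from the square -/
noncomputable def fa (c : Ctx G F) (x : G) : F := (N_surj (c.zc (x * x))).choose

theorem fa_eq {x : G} {a : F} (e : x * x = c.z (N a)) : c.fa x = a :=
  N_inj ((N_surj (c.zc (x * x))).choose_spec.trans (by rw [e, zc_z]))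

theorem autT {R : Subgroup G} (h1 : c.Q ≤ R) (h2 : R ≤ c.T) {g : G} (hg : g ∈ 𝒩(R)) {k : ℕ}
    (hk : g ^ 2 ^ k = 1) : g ∈ 𝒞(c.Z) := by
  refine c.autG c.fa (fun x hx y hy => ?_) (fun a => ⟨_, h1 (c.u_mem_Q a 0), fa_eq (c.u_sq a 0)⟩)
    (fun x hx => ?_) hg hk
  · obtain ⟨a, b, rfl | rfl⟩ := c.mem_T.1 (h2 hx) <;>
      obtain ⟨a', b', rfl | rfl⟩ := c.mem_T.1 (h2 hy)
    · rw [u_mul, fa_eq (c.u_sq _ _), fa_eq (c.u_sq _ _), fa_eq (c.u_sq _ _)]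
    · rw [← mul_assoc, u_mul, fa_eq (c.ut_sq _ _), fa_eq (c.u_sq _ _), fa_eq (c.ut_sq _ _)]
    · rw [mul_assoc, c.t_u, ← mul_assoc, u_mul, fa_eq (c.ut_sq _ _), fa_eq (c.ut_sq _ _),
        fa_eq (c.u_sq _ _)]
    · rw [mul_assoc, ← mul_assoc c.t, c.t_u, mul_assoc, c.tt, mul_one, u_mul, fa_eq (c.u_sq _ _),
        fa_eq (c.ut_sq _ _), fa_eq (c.ut_sq _ _)]
  · obtain ⟨a, b, e, -⟩ := c.co_T (h2 hx)
    rw [fa_eq e, e]

theorem St.eq_Z (S : c.St 0 Y h) : Y = c.Z :=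
  le_antisymm (fun y hy => by simpa using S.pw y hy) S.ZY

theorem St.haut (S : c.St j Y h) (hn : ¬ IsSylowOf 2 (c.P Y) ⊤) (g : G) (hg : g ∈ 𝒩(c.P Y))
    (k : ℕ) (hk : g ^ 2 ^ k = 1) : g ∈ 𝒞(c.Z) := by
  rcases Nat.eq_zero_or_pos j with rfl | hj
  · rw [S.eq_Z, P_Z] at hg
    exact autT c.Q_le_T le_rfl hg hk
  · exact autT le_rfl c.Q_le_T (S.normQ hj hn hg) hk

end Cfsg.Agent.SZS.Ctx
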