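import Cfsg.Agent.SZS.Basic

/-! Common lemmas for the cases T1a and T1b (project SZS, notes/SZS.md). -/

set_option autoImplicit false

namespace Cfsg.Agent.SZS

open Subgroup H13 H49

/-- a `p`-group permuting a coset of a `p'`-group fixes one of its elements -/
theorem fix_coset {G : Type*} [Group G] [Finite G] {p : ℕ} (hp : p.Prime) {E Y : Subgroup G}
    (hE : IsPGroup p E) (hY : ¬ p ∣ Nat.card Y) {x : G}
    (h : ∀ f ∈ E, ∀ y ∈ Y, f * (y * x) * f⁻¹ * x⁻¹ ∈ Y) : ∃ y ∈ Y, y * x ∈ 𝒞(E) := by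
  have := Fact.mk hp
  let _ : MulAction E Y :=
    { smul := fun f y => ⟨f * (y * x) * (f : G)⁻¹ * x⁻¹, h f f.2 y y.2⟩
      one_smul := fun y => Subtype.ext (by
        change ((1 : E) : G) * (y * x) * ((1 : E) : G)⁻¹ * x⁻¹ = _
        simp)
      mul_smul := fun f g y => Subtype.ext (by
        change ((f * g : E) : G) * (y * x) * ((f * g : E) : G)⁻¹ * x⁻¹ =
          (f : G) * ((g : G) * (y * x) * (g : G)⁻¹ * x⁻¹ * x) * (f : G)⁻¹ * x⁻¹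
        simp [mul_assoc]) }
  obtain ⟨y, hy⟩ := hE.nonempty_fixed_point_of_prime_not_dvd_card Y hY
  refine ⟨y, y.2, fun g hg => ?_⟩
  have h1 : g * (y * x) * g⁻¹ * x⁻¹ = y := congrArg Subtype.val (hy ⟨g, hg⟩)
  rw [mul_inv_eq_iff_eq_mul, mul_inv_eq_iff_eq_mul] at h1
  exact h1

theorem not_dvd_two {G : Type*} [Group G] [Finite G] {p : ℕ} (hp : p.Prime) (p2 : p ≠ 2)
    {Y : Subgroup G} (hY : IsPGroup 2 Y) : ¬ p ∣ Nat.card Y := fun h =>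
  p2 (isPi_of_isPGroup Nat.prime_two hY p hp h)

theorem cm_all {F : Type*} [Field F] [Tits F] [Finite F] {m : ℕ} (P : Par F m) {l : F}
    (hl : ∀ a : F, a ≠ 0 → ∃ i : ℕ, l ^ i = a) {a : F} (h : ∀ x, cm a x = 0) : a = 0 := by
  by_contra ha
  rcases cm_eq_zero (h (l * a)) with e | e | e
  · exact ha e
  · exact mul_ne_zero (gen_ne P hl).1 ha e
  · exact (gen_ne P hl).2 (mul_right_cancel₀ ha (by rw [e, one_mul]))

namespace Ctx

variable {G F : Type*} [Group G] [Finite G] [Field F] [Tits F] [Finite F] {c : Ctx G F}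
  {j : ℕ} {Y Y' : Subgroup G} {h : G} {ι : G → F} {k e : F}

/-- the common hypotheses of T1a and T1b -/
structure T1 {G F : Type*} [Group G] [Field F] [Tits F] [Finite F] (c : Ctx G F) (j : ℕ)
    (Y : Subgroup G) (h : G) (Y' : Subgroup G) (ι : G → F) (k e : F) : Prop where
  hj : 1 ≤ j
  S : c.Step j Y h Y' ι 1 k
  hc : ∀ v ∈ Y', ∀ w ∈ Y', v * w = w * v
  he : ∀ v ∈ Y', c.t * v * c.t * v = c.z (e * ι v)

omit [Finite G] [Finite F] in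
theorem z_pow (c : Ctx G F) (b : F) {i : ℕ} (hi : 1 ≤ i) : c.z b ^ 2 ^ i = 1 := by
  obtain ⟨i, rfl⟩ := Nat.exists_eq_add_of_le hi
  rw [pow_add, pow_mul, pow_one, sq, c.z_sq, one_pow]

omit [Finite G] [Finite F] in
theorem u_eq (c : Ctx G F) (a b : F) : c.u a b = c.u a 0 * c.z b := by rw [u_z, zero_add]

omit [Finite G] in
theorem l_ne01 (c : Ctx G F) : c.l ≠ 0 ∧ c.l ≠ 1 := gen_ne c.par c.gen

namespace T1

variable (H : c.T1 j Y h Y' ι k e)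
include H

omit [Finite G] in
theorem z_mem (b : F) : c.z b ∈ Y' := H.S.le (H.S.st.ZY (c.z_mem_Z b))

theorem ι_z (b : F) : ι (c.z b) = 0 := (H.S.ι_ker _ (H.z_mem b)).2 (H.S.st.ZY (c.z_mem_Z b))

omit [Finite G] in
theorem mem1 (a b : F) {v : G} (hv : v ∈ Y') : c.u a b * v ∈ c.P Y' :=
  (H.S.mem _).2 ⟨a, b, v, hv, Or.inl rfl⟩

omit [Finite G] in
theorem mem2 (a b : F) {v : G} (hv : v ∈ Y') : c.u a b * v * c.t ∈ c.P Y' :=
  (H.S.mem _).2 ⟨a, b, v, hv, Or.inr rfl⟩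

omit [Finite G] in
theorem v_u {v : G} (hv : v ∈ Y') (a b : F) :
    v * c.u a b = c.u a (b + k * ψ (a * ι v)) * v := by
  rw [← H.S.cQ v hv, inv_mul_cancel_right]

omit [Finite G] in
theorem sq1 (a b : F) {v : G} (hv : v ∈ Y') :
    c.u a b * v * (c.u a b * v) = c.z (N a + k * ψ (a * ι v)) * (v * v) := by
  rw [mul_assoc, ← mul_assoc v, H.v_u hv, ← c.u_z a b (k * _), ← c.z_mul, ← c.u_sq a b]
  simp only [mul_assoc]

omit [Finite G] in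
theorem sq2 (a b : F) {v : G} (hv : v ∈ Y') :
    c.u a b * v * c.t * (c.u a b * v * c.t) = c.z (N a + k * ψ (a * ι v) + e * ι v) := by
  have h1 : v * (c.t * v * c.t) = c.z (e * ι v) := by
    have h2 := H.he v hv
    calc v * (c.t * v * c.t) = v * (c.t * v * c.t * v) * v⁻¹ := by group
      _ = _ := by rw [h2, H.S.cZ v hv, mul_inv_cancel_right]
  calc c.u a b * v * c.t * (c.u a b * v * c.t) = c.u a b * v * (c.t * c.u a b) * v * c.t := by group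
    _ = c.u a b * (v * c.u a b) * (c.t * v * c.t) := by rw [c.t_u]; group
    _ = c.u a b * c.u a b * c.z (k * ψ (a * ι v)) * (v * (c.t * v * c.t)) := by
      rw [H.v_u hv, ← c.u_z a b (k * _)]; group
    _ = _ := by rw [h1, c.u_sq, c.z_mul, c.z_mul]

omit [Finite G] in
theorem pw {v : G} (hv : v ∈ Y') : (v * v) ^ 2 ^ j = c.z (ι v) := by
  simpa using H.S.sq v hv

omit [Finite G] in
theorem sq_mem {v : G} (hv : v ∈ Y') : v * v ∈ Y := H.S.sqY v (c.le_P _ hv)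

omit [Finite G] in
theorem exists_root {y : G} (hy : y ∈ Y) : ∃ x ∈ c.P Y', y = x * x := by
  obtain ⟨b, hb⟩ := c.mem_Z.1 (H.S.st.pw y hy)
  obtain ⟨w, hw, rfl⟩ := H.S.ι_sur b
  have h1 := H.sq_mem hw
  have h2 : Commute y (w * w)⁻¹ := H.S.st.comm _ hy _ (inv_mem h1)
  obtain ⟨y', hy', e1⟩ := H.S.st.ker _ (mul_mem hy (inv_mem h1))
    (by rw [h2.mul_pow, inv_pow, H.pw hw, hb, mul_inv_cancel])
  refine ⟨y' * w, c.le_P _ (mul_mem (H.S.le hy') hw), ?_⟩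
  rw [mul_inv_eq_iff_eq_mul.1 e1, mul_assoc y' w, ← mul_assoc w, H.hc w hw y' (H.S.le hy')]
  simp only [mul_assoc]

theorem norm_Y : 𝒩(c.P Y') ≤ 𝒩(Y) := le_norm_iff.2 fun g hg y hy => by
  obtain ⟨x, hx, rfl⟩ := H.exists_root hy
  have := H.S.sqY _ (conj_mem_of_norm le_rfl hg hx)
  simpa [mul_assoc] using this

theorem cent_Y (a b : F) {v : G} (hv : v ∈ Y') : c.u a b * v ∈ 𝒞(Y) :=
  mul_mem (fun y hy => (H.S.st.cQ y hy a b).symm) fun y hy => H.hc y (H.S.le hy) v hv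

theorem t_not_cent : c.t ∉ 𝒞(Y) := fun h1 => by
  obtain ⟨y, hy, e1⟩ := H.S.st.exists_sq H.hj 1
  have h2 := H.S.st.inv y hy
  rw [← h1 y hy, mul_assoc, c.tt, mul_one] at h2
  rw [h2] at e1
  nth_rw 1 [← h2] at e1
  rw [mul_inv_cancel, eq_comm, c.z_eq_one] at e1
  exact one_ne_zero e1

theorem not_cent_Y (a b : F) {v : G} (hv : v ∈ Y') : c.u a b * v * c.t ∉ 𝒞(Y) := fun h1 =>
  H.t_not_cent ((mul_mem_cancel_left (H.cent_Y a b hv)).1 h1)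

theorem form1 {x : G} (hx : x ∈ c.P Y') (h1 : x ∈ 𝒞(Y)) : ∃ a b, ∃ v ∈ Y', x = c.u a b * v := by
  obtain ⟨a, b, v, hv, rfl | rfl⟩ := (H.S.mem x).1 hx
  exacts [⟨a, b, v, hv, rfl⟩, absurd h1 (H.not_cent_Y a b hv)]

theorem form2 {x : G} (hx : x ∈ c.P Y') (h1 : x ∉ 𝒞(Y)) :
    ∃ a b, ∃ v ∈ Y', x = c.u a b * v * c.t := by
  obtain ⟨a, b, v, hv, rfl | rfl⟩ := (H.S.mem x).1 hx
  exacts [absurd (H.cent_Y a b hv) h1, ⟨a, b, v, hv, rfl⟩]

theorem conj1 {g : G} (hg : g ∈ 𝒩(c.P Y')) (a b : F) {v : G} (hv : v ∈ Y') :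
    ∃ a' b', ∃ v' ∈ Y', g * (c.u a b * v) * g⁻¹ = c.u a' b' * v' :=
  H.form1 (conj_mem_of_norm le_rfl hg (H.mem1 a b hv))
    (conj_mem_of_norm (norm_cent H.norm_Y) hg (H.cent_Y a b hv))

theorem conj2 {g : G} (hg : g ∈ 𝒩(c.P Y')) (a b : F) {v : G} (hv : v ∈ Y') :
    ∃ a' b', ∃ v' ∈ Y', g * (c.u a b * v * c.t) * g⁻¹ = c.u a' b' * v' * c.t :=
  H.form2 (conj_mem_of_norm le_rfl hg (H.mem2 a b hv)) fun h1 => H.not_cent_Y a b hv (by
    simpa [mul_assoc] using conj_mem_of_norm' (norm_cent H.norm_Y) hg h1)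

/-- the conjugates of `t` in `P Y'` -/
theorem t_form {g : G} (hg : g * c.t * g⁻¹ ∈ c.P Y') : ∃ a b, ∃ v ∈ Y',
    g * c.t * g⁻¹ = c.u a b * v * c.t ∧ N a + k * ψ (a * ι v) + e * ι v = 0 := by
  obtain ⟨a, b, v, hv, e1⟩ := H.form2 hg fun h1 => by
    obtain ⟨x, hx, e1⟩ := H.S.st.exists_sq H.hj 1
    obtain ⟨y, hy, e2⟩ := H.S.st.exists_sq H.hj c.l
    rcases c.TC (h1 x hx) (h1 y hy) (H.S.st.comm x hx y hy) (by rw [e1, c.z_sq])
      (by rw [e2, c.z_sq]) with e3 | e3 | e3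
    · exact one_ne_zero (c.z_eq_one.1 (e1.symm.trans e3))
    · exact c.l_ne01.1 (c.z_eq_one.1 (e2.symm.trans e3))
    · exact c.l_ne01.2 (c.z_inj.1 (e2.symm.trans (e3.symm.trans e1)))
  refine ⟨a, b, v, hv, e1, c.z_eq_one.1 ?_⟩
  rw [← H.sq2 a b hv, ← e1]
  calc g * c.t * g⁻¹ * (g * c.t * g⁻¹) = g * (c.t * c.t) * g⁻¹ := by group
    _ = 1 := by rw [c.tt]; group

theorem eq_of_eq {a b a' b' : F} {v v' : G} (hv : v ∈ Y') (hv' : v' ∈ Y')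
    (e1 : c.u a b * v = c.u a' b' * v') : a = a' := by
  have h1 : (c.u a' b')⁻¹ * c.u a b = v' * v⁻¹ := by
    rw [inv_mul_eq_iff_eq_mul, ← mul_assoc, ← e1, mul_inv_cancel_right]
  have h2 := mul_mem hv' (inv_mem hv)
  rw [← h1, c.u_inv, c.u_mul] at h2
  have := H.S.u_mem h2
  grind

theorem ne_t {a b a' b' : F} {v v' : G} (hv : v ∈ Y') (hv' : v' ∈ Y') :
    c.u a b * v ≠ c.u a' b' * v' * c.t := fun e1 =>
  H.not_cent_Y a' b' hv' (e1 ▸ H.cent_Y a b hv)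

/-- the centralizer of `t` in `Q Y'` is `Q` -/
theorem mem_Q {a b : F} {v : G} (hv : v ∈ Y') (h1 : c.u a b * v * c.t = c.t * (c.u a b * v)) :
    c.u a b * v ∈ c.Q := by
  obtain ⟨a', b', e1 | e1⟩ := c.mem_T.1 (c.T_max H.S.two (c.T_le_P _) (H.mem1 a b hv) h1)
  · exact e1 ▸ c.u_mem_Q a' b'
  · exact absurd (e1.trans (by rw [mul_one])) (H.ne_t (a' := a') (b' := b') hv (one_mem _))

theorem mem_Z_of_sq {v : G} (hv : v ∈ Y') (h1 : v * v = 1) : v ∈ c.Z := by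
  have h2 := H.pw hv
  rw [h1, one_pow, eq_comm, c.z_eq_one] at h2
  exact H.S.st.om v ((H.S.ι_ker v hv).1 h2) h1

end T1

end Ctx

end Cfsg.Agent.SZS
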