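import Cfsg.Agent.SZS.Alg
import Cfsg.Agent.S0199

/-! Standard Suzuki subgroups: affine groups without translations. -/

set_option autoImplicit false

namespace Cfsg.Agent.SZS

open H13 Subgroup H49

/-- an involution in no normal `2`-subgroup inverts an element of odd prime order -/
theorem exists_inverted {X : Type*} [Group X] [Finite X] {s : X} (hs : s * s = 1)
    (h : ∀ N : Subgroup X, N.Normal → IsPGroup 2 N → s ∉ N) :
    ∃ (p : ℕ) (u : X), p.Prime ∧ p ≠ 2 ∧ orderOf u = p ∧ s * u * s⁻¹ = u⁻¹ := by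
  have zp : ∀ {g : X} {k : ℕ}, g ^ 2 ^ k = 1 → IsPGroup 2 (zpowers g) := fun {g k} hk => by
    rintro ⟨_, n, rfl⟩
    refine ⟨k, Subtype.ext ?_⟩
    change (g ^ n) ^ 2 ^ k = 1
    rw [← zpow_natCast, ← zpow_mul, mul_comm, zpow_mul, zpow_natCast, hk, one_zpow]
  have h2 : IsPGroup 2 (zpowers s) := zp (k := 1) (by rw [pow_one, sq, hs])
  have si : s⁻¹ = s := inv_eq_of_mul_eq_one_right hs
  by_contra hn
  refine (S0199.result (zpowers s) h2 fun g => ?_).elim fun N hN =>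
    h N hN.1 hN.2.1 (hN.2.2 (mem_zpowers s))
  have hi : s * (s * (g * s * g⁻¹)) * s⁻¹ = (s * (g * s * g⁻¹))⁻¹ := by
    rw [← mul_assoc s s, hs, one_mul, mul_inv_rev, conj_inv, si]
  have hw : s ∈ 𝒩(zpowers (s * (g * s * g⁻¹))) := by
    rw [mem_norm_iff_cj, cj_zpowers, hi, zpowers_inv]
  have hle : zpowers s ⊔ cj g (zpowers s) ≤ zpowers (s * (g * s * g⁻¹)) ⊔ zpowers s := by
    rw [cj_zpowers]
    refine sup_le le_sup_right (zpowers_le.2 ?_)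
    simpa using mul_mem (mem_sup_right (inv_mem (mem_zpowers s)) : s⁻¹ ∈ _ ⊔ zpowers s)
      (mem_sup_left (mem_zpowers (s * (g * s * g⁻¹))))
  generalize s * (g * s * g⁻¹) = w at hi hw hle
  obtain ⟨k, hk⟩ : ∃ k, orderOf w = 2 ^ k := ⟨_, Nat.eq_prime_pow_of_unique_prime_dvd
    (orderOf_pos w).ne' fun {p} hp hd => by
      by_contra p2
      exact hn ⟨p, w ^ (orderOf w / p), hp, p2, orderOf_pow_orderOf_div (orderOf_pos w).ne' hd,
        by rw [← conj_pow, hi, inv_pow]⟩⟩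
  exact (((isPi_of_isPGroup Nat.prime_two (zp (hk ▸ pow_orderOf_eq_one w))).sup
    (isPi_of_isPGroup Nat.prime_two h2) (Or.inr (zpowers_le.2 hw))).isPGroup
      Nat.prime_two).to_le hle

theorem odd_inverts {X : Type*} [Group X] {m u : X} (h : m * u * m⁻¹ = u⁻¹) (k : ℕ) :
    m ^ (2 * k + 1) * u * (m ^ (2 * k + 1))⁻¹ = u⁻¹ := by
  have h1 : m * u⁻¹ * m⁻¹ = u := by rw [← conj_inv, h, inv_inv]
  induction k with
  | zero => simpa using h
  | succ k ih =>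
    calc _ = m * (m * (m ^ (2 * k + 1) * u * (m ^ (2 * k + 1))⁻¹) * m⁻¹) * m⁻¹ := by group
      _ = _ := by rw [ih, h1, h]

/-- affine groups on `F` with semilinear point stabilizer and without translations -/
theorem t1p {F : Type*} [Field F] [Tits F] [Finite F] {m : ℕ} (P : Par F m)
    (X : Subgroup (Equiv.Perm F)) (ha : ∀ x ∈ X, ∀ a b, x (a + b) = x a + x b + x 0)
    (hs : ∀ r : F, r ≠ 0 → ∃ x ∈ X, ∀ a, x a = r * a)
    (h0 : ∀ x ∈ X, x 0 = 0 → ∃ (r : F) (φ : F ≃+* F), ∀ a, x a = r * φ a)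
    (h2 : ∀ x ∈ X, x 0 = 0 → ∀ k, x ^ 2 ^ k = 1 → x = 1)
    (ht : ∀ x ∈ X, (∀ a, x a = a + x 0) → x = 1) (hm : ∃ x ∈ X, x 0 ≠ 0) :
    ∃ (p : ℕ) (φ : F ≃+* F), ∃ u ∈ X, ∃ s ∈ X, p.Prime ∧ p ≠ 2 ∧ u ^ p = 1 ∧ (∀ a, u a = φ a) ∧
      (∀ a, φ a = a ↔ a = 0 ∨ a = 1) ∧ s * u * s⁻¹ = u⁻¹ ∧ s 0 = 1 := by
  have htr : ∀ b, ∃ x ∈ X, x 0 = b := fun b => by
    by_cases hb : b = 0
    · exact ⟨1, one_mem _, hb.symm⟩
    obtain ⟨x, hx, e⟩ := hm
    obtain ⟨y, hy, e1⟩ := hs _ (div_ne_zero hb e)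
    exact ⟨y * x, mul_mem hy hx, by rw [Equiv.Perm.mul_apply, e1, div_mul_cancel₀ _ e]⟩
  have : MulAction.IsPretransitive X F := ⟨fun a b => by
    obtain ⟨x, hx, rfl⟩ := htr a
    obtain ⟨y, hy, rfl⟩ := htr b
    exact ⟨⟨y * x⁻¹, mul_mem hy (inv_mem hx)⟩, by simp [Subgroup.smul_def]⟩⟩
  obtain ⟨s0, hs0⟩ := exists_prime_orderOf_dvd_card' (G := X) 2 ((even_card (F := F)).two_dvd.trans
    (MulAction.index_stabilizer_of_transitive X (0 : F) ▸ index_dvd_card _))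
  have s2 : s0 * s0 = 1 := by rw [← sq, ← hs0, pow_orderOf_eq_one]
  have s1 : s0 ≠ 1 := fun e => by simp [e] at hs0
  obtain ⟨p, u0, hp, p2, ho, hi⟩ := exists_inverted s2 fun N hN hN2 hsN => by
    let _ : MulAction N F :=
      { smul := fun n a => n.1.1 a + n.1.1 0
        one_smul := fun a => add_zero a
        mul_smul := fun x y a => by
          change x.1.1 (y.1.1 a) + x.1.1 (y.1.1 0) = x.1.1 (y.1.1 a + y.1.1 0) + x.1.1 0
          rw [ha _ x.1.2]; grind }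
    obtain ⟨a, h3, h4⟩ := hN2.exists_fixed_point_of_prime_dvd_card_of_fixed_point F
      (even_card (F := F)).two_dvd (a := 0) fun n => show n.1.1 0 + n.1.1 0 = 0 by grind
    refine s1 (Subtype.ext (ht _ s0.2 fun b => ?_))
    by_cases hb : b = 0
    · simp [hb]
    obtain ⟨y, hy, e⟩ := hs _ (div_ne_zero hb h4.symm)
    have e1 : (y⁻¹ * s0.1 * y) a + (y⁻¹ * s0.1 * y) 0 = a :=
      h3 ⟨_, hN.conj_mem' _ hsN ⟨y, hy⟩⟩
    have e2 := congrArg y e1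
    rw [ha y hy] at e2
    simp only [Equiv.Perm.mul_apply, Equiv.Perm.coe_inv, Equiv.apply_symm_apply] at e2
    simp only [e, mul_zero, div_mul_cancel₀ _ h4.symm, add_zero] at e2
    rw [← e2, add_assoc, CharTwo.add_self_eq_zero, add_zero, e2]
  have := Fact.mk hp
  obtain ⟨b1, hb1⟩ := (IsPGroup.of_card (p := p) (n := 1) (G := zpowers u0)
    (by rw [Nat.card_zpowers, ho, pow_one])).nonempty_fixed_point_of_prime_not_dvd_card F
      (by rw [P.card]; exact fun h => p2 ((Nat.prime_dvd_prime_iff_eq hp Nat.prime_two).1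
        (hp.dvd_of_dvd_pow h)))
  have f1 : u0.1 b1 = b1 := hb1 ⟨u0, mem_zpowers _⟩
  obtain ⟨x, hx, rfl⟩ := htr b1
  have f2 : (x⁻¹ * s0.1 * x) 0 ≠ 0 := fun e => s1 (Subtype.ext (by
    have := h2 _ (mul_mem (mul_mem (inv_mem hx) s0.2) hx) e 1 (by
      rw [pow_one, sq, show x⁻¹ * s0.1 * x * (x⁻¹ * s0.1 * x) = x⁻¹ * (s0 * s0 : X) * x by
        push_cast; group, s2]; simp)
    simpa [mul_assoc, inv_mul_eq_one, eq_comm] using this))
  obtain ⟨y, hy, ey⟩ := hs _ f2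
  set g : X := ⟨x * y, mul_mem hx hy⟩ with hg
  have g0 : g.1 0 = x 0 := by simp [hg, ey]
  have g1 : g.1 1 = s0.1 (x 0) := by simp [hg, ey]
  obtain ⟨u, hu⟩ : ∃ u, u = g⁻¹ * u0 * g := ⟨_, rfl⟩
  obtain ⟨s, hs'⟩ : ∃ s, s = g⁻¹ * s0 * g := ⟨_, rfl⟩
  have us : s * u * s⁻¹ = u⁻¹ := by
    rw [hu, hs', show (g⁻¹ * u0 * g)⁻¹ = g⁻¹ * u0⁻¹ * g by group, ← hi]; group
  have ss : s * s = 1 := by
    rw [hs', show g⁻¹ * s0 * g * (g⁻¹ * s0 * g) = g⁻¹ * (s0 * s0) * g by group, s2]; group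
  have uo : orderOf u = p := by
    rw [hu, ← ho]; simpa using (MulAut.conj g⁻¹).orderOf_eq u0
  have u00 : u.1 0 = 0 := by simp [hu, g0, f1, Equiv.symm_apply_eq]
  have s01 : s.1 0 = 1 := by simp [hs', g0, g1, Equiv.symm_apply_eq]
  have hfix : ∀ a, u.1 a = a → u.1 (s.1 a) = s.1 a := fun a e => by
    have e1 : u * s * u = s := by
      rw [mul_assoc, eq_mul_of_mul_inv_eq us, mul_inv_cancel_left]
    conv_rhs => rw [← e1]
    simp [e]
  have sa : ∀ a, s.1 (s.1 a) = a := fun a => congrArg (fun z : X => z.1 a) ss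
  obtain ⟨r0, φ, hφ⟩ := h0 _ u.2 u00
  obtain rfl : r0 = 1 := by simpa [s01, hφ] using hfix 0 u00
  simp only [one_mul] at hφ
  refine ⟨p, φ, u, u.2, s, s.2, hp, p2, congrArg Subtype.val (uo ▸ pow_orderOf_eq_one u), hφ,
    fun r => ⟨fun hr => ?_, by rintro (rfl | rfl) <;> simp⟩, congrArg Subtype.val us, s01⟩
  by_contra hn
  rw [not_or] at hn
  have r1 : s.1 r ≠ 0 := fun e => hn.2 (by rw [← sa r, e, s01])
  have hc : ∀ t : F, t ≠ 0 → φ t = t → ∃ z : X, (∀ a, z.1 a = t * a) ∧ z * u * z⁻¹ = u :=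
    fun t h1 h3 => by
      obtain ⟨z, hz, e⟩ := hs t h1
      exact ⟨⟨z, hz⟩, e, mul_inv_eq_iff_eq_mul.2 (Subtype.ext (Equiv.ext fun a => by
        simp [e, hφ, h3]))⟩
  obtain ⟨z1, a1, c1⟩ := hc r hn.1 hr
  obtain ⟨z2, a2, c2⟩ := hc _ (inv_ne_zero r1) (by
    rw [map_inv₀, ← hφ, hfix r ((hφ r).trans hr)])
  have mi : s * z2 * s * z1 * s * u * (s * z2 * s * z1 * s)⁻¹ = u⁻¹ := by
    calc _ = s * (z2 * (s * (z1 * (s * u * s⁻¹)⁻¹ * z1⁻¹)⁻¹ * s⁻¹) * z2⁻¹) * s⁻¹ := by group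
      _ = _ := by rw [us, inv_inv, c1, ← conj_inv, us, inv_inv, c2, us]
  have m0 : (s * z2 * s * z1 * s).1 0 = 0 := by
    simp only [Subgroup.coe_mul, Equiv.Perm.mul_apply, s01, a1, a2, mul_one, inv_mul_cancel₀ r1]
    rw [← s01, sa]
  generalize s * z2 * s * z1 * s = w at mi m0
  obtain ⟨a, n, ⟨k, rfl⟩, e⟩ := Nat.exists_eq_two_pow_mul_odd (orderOf_pos w).ne'
  have w1 : w ^ (2 * k + 1) = 1 := Subtype.ext (h2 _ (w ^ (2 * k + 1)).2
    (by rw [Subgroup.coe_pow, Equiv.Perm.coe_pow]; exact Function.iterate_fixed m0 _) a (by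
      rw [← Subgroup.coe_pow, ← pow_mul, mul_comm, ← e, pow_orderOf_eq_one]; rfl))
  have e1 := odd_inverts mi k
  rw [w1, one_mul, inv_one, mul_one] at e1
  exact p2 ((Nat.prime_dvd_prime_iff_eq hp Nat.prime_two).1 (uo ▸ orderOf_dvd_of_pow_eq_one (by
    rw [sq]; nth_rw 1 [e1]; rw [inv_mul_cancel])))

end Cfsg.Agent.SZS
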