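import Cfsg.Agent.SZS.Basic
import Cfsg.Agent.SZS.T1p
import Cfsg.Agent.SZS.T1o

/-! The `p`-group `E` (project SZS, notes/SZS.md section T1a). -/

set_option autoImplicit false

namespace Cfsg.Agent.SZS

open Subgroup H13 H49

theorem exists_ppart {G : Type*} [Group G] [Finite G] {p : ℕ} (hp : p.Prime) (x : G) :
    ∃ m k : ℕ, ¬ p ∣ m ∧ (x ^ m) ^ p ^ k = 1 := by
  obtain ⟨k, m, h1, h2⟩ := Nat.exists_eq_pow_mul_and_not_dvd (orderOf_pos x).ne' p hp.ne_one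
  exact ⟨m, k, h1, by rw [← pow_mul, mul_comm, ← h2, pow_orderOf_eq_one]⟩

theorem isPGroup_zp {G : Type*} [Group G] {p k : ℕ} {x : G} (h : x ^ p ^ k = 1) :
    IsPGroup p (zpowers x) := by
  rintro ⟨_, i, rfl⟩
  exact ⟨k, Subtype.ext (by
    change (x ^ i) ^ p ^ k = 1
    rw [← zpow_natCast, ← zpow_mul, mul_comm, zpow_mul, zpow_natCast, h, one_zpow])⟩

namespace Ctx

variable {G F : Type*} [Group G] [Finite G] [Field F] [Tits F] [Finite F] {c : Ctx G F}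
  {j : ℕ} {Y Y' : Subgroup G} {h : G} {ι : G → F} {s k e : F}

omit [Finite G] [Finite F] in
theorem exists_rho {g : G} (hg : g ∈ 𝒩(c.Z)) :
    ∃ ρ : F →+ F, ∀ b, g * c.z b * g⁻¹ = c.z (ρ b) := by
  choose ρ hρ using fun b => c.mem_Z.1 (conj_mem_of_norm le_rfl hg (c.z_mem_Z b))
  refine ⟨AddMonoidHom.mk' ρ fun a b => c.z_inj.1 ?_, hρ⟩
  rw [← hρ, ← c.z_mul, ← c.z_mul, ← hρ, ← hρ]
  group

open Classical in
/-- the coordinate of `P Y'` modulo `Y' ⟨t⟩` -/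
noncomputable def fb {G F : Type*} [Group G] [Field F] [Tits F] (c : Ctx G F) (Y' : Subgroup G)
    (x : G) : F :=
  if h : ∃ a b, ∃ v ∈ Y', x = c.u a b * v ∨ x = c.u a b * v * c.t then h.choose else 0

namespace T1

section
variable (H : c.T1 j Y h Y' ι k e)
include H

theorem conj_zero {b : F} {v : G} (hv : v ∈ Y') (h0 : ι v = 0) :
    c.u 0 b * v ∈ Y ∧ ∃ p ∈ c.P Y', p * c.t * p⁻¹ = c.u 0 b * v * c.t :=
  have h1 : c.u 0 b * v ∈ Y := mul_mem (H.S.st.ZY (c.z_mem_Z b)) ((H.S.ι_ker v hv).1 h0)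
  ⟨h1, H.S.conj_tY h1⟩

theorem cent_s {g : G} (hg : g ∈ 𝒩(c.P Y')) {a b : F} {v : G} (hv : v ∈ Y')
    (e1 : g * c.t * g⁻¹ = c.u a b * v * c.t) (x : F) :
    ∃ y ∈ Y, y * y = c.z (cm a x + k * ψ (x * ι v)) ∧
      ∃ α β, c.u x 0 * y = g * c.u α β * g⁻¹ := by
  obtain ⟨y, hy, e2⟩ := H.S.st.exists_sq H.hj (cm a x + k * ψ (x * ι v))
  refine ⟨y, hy, e2, ?_⟩
  have hy' := H.S.le hy
  have h1 : c.t * y = y⁻¹ * c.t := by rw [← H.S.st.inv y hy, mul_assoc, c.tt, mul_one]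
  have h2 : c.u a b * c.u x (0 + k * ψ (x * ι v)) = c.u x 0 * c.u a b * (y * y) := by
    rw [e2, u_mul, u_mul, u_z, c.u_inj]
    refine ⟨add_comm _ _, ?_⟩
    simp only [cm]; grind
  have h3 : c.u a b * v * c.t * (c.u x 0 * y) = c.u x 0 * y * (c.u a b * v * c.t) := by
    calc c.u a b * v * c.t * (c.u x 0 * y) = c.u a b * v * (c.t * c.u x 0) * y := by group
      _ = c.u a b * (v * c.u x 0) * (c.t * y) := by rw [c.t_u]; group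
      _ = c.u a b * c.u x (0 + k * ψ (x * ι v)) * (v * y⁻¹) * c.t := by rw [H.v_u hv, h1]; group
      _ = c.u x 0 * (c.u a b * y) * v * c.t := by
        rw [h2, H.hc v hv _ (inv_mem hy')]; group
      _ = _ := by rw [H.S.st.cQ y hy]; group
  obtain ⟨α, β, w, hw, e3⟩ := H.conj1 (inv_mem hg) x 0 hy'
  obtain ⟨α', β', e4⟩ := c.mem_Q.1 (H.mem_Q (a := α) (b := β) hw (by
    rw [← e3]
    calc g⁻¹ * (c.u x 0 * y) * g⁻¹⁻¹ * c.t = g⁻¹ * (c.u x 0 * y * (g * c.t * g⁻¹)) * g := by group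
      _ = g⁻¹ * (g * c.t * g⁻¹ * (c.u x 0 * y)) * g := by rw [e1, h3]
      _ = _ := by group))
  exact ⟨α', β', by rw [← e4, ← e3]; group⟩

theorem k_zero (hn : ¬ IsSylowOf 2 (c.P Y') ⊤) : k = 0 := by
  obtain ⟨g, hg, -, hm⟩ := c.exists_mover H.S.two (c.T_le_P _) hn
  obtain ⟨a, b, v, hv, e1, e2⟩ := H.t_form (conj_mem_of_norm le_rfl hg (c.t_mem_P _))
  have hβ : ι v ≠ 0 := fun h0 => by
    obtain rfl : a = 0 := by simpa [h0] using e2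
    obtain ⟨-, p, hp, e3⟩ := H.conj_zero (b := b) hv h0
    exact hm p hp (e1.trans e3.symm)
  refine (psi_cm fun x hx => ?_).resolve_right hβ
  rcases cm_or hx (N x + (cm a x + k * ψ (x * ι v))) with ⟨w, hw⟩ | ⟨w, hw⟩
  · exfalso
    obtain ⟨y, hy, e3, α, β, e4⟩ := H.cent_s hg hv e1 x
    obtain ⟨y', hy', -, α', β', e5⟩ := H.cent_s hg hv e1 w
    have h1 : c.u x 0 * y * (c.u x 0 * y) = c.z (cm x w) := by
      rw [mul_assoc, ← mul_assoc y, ← H.S.st.cQ y hy, ← hw, ← c.z_mul, ← e3, ← c.u_sq x 0]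
      group
    have h2 : c.u x 0 * y * (c.u w 0 * y') = c.z (cm x w) * (c.u w 0 * y' * (c.u x 0 * y)) := by
      calc c.u x 0 * y * (c.u w 0 * y') = c.u x 0 * (y * c.u w 0) * y' := by group
        _ = c.u x 0 * c.u w 0 * (y * y') := by rw [← H.S.st.cQ y hy]; group
        _ = c.z (cm x w) * (c.u w 0 * (c.u x 0 * y') * y) := by
          rw [c.u_comm x 0 w 0, H.S.st.comm y hy y' hy']; group
        _ = _ := by rw [H.S.st.cQ y' hy']; group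
    rw [← h1, e4, e5] at h2
    have h3 : c.u α β * c.u α' β' = c.u α β * c.u α β * (c.u α' β' * c.u α β) := by
      calc c.u α β * c.u α' β' = g⁻¹ * (g * c.u α β * g⁻¹ * (g * c.u α' β' * g⁻¹)) * g := by group
        _ = _ := by rw [h2]; group
    rw [c.u_sq, c.u_comm α β α' β', mul_left_inj, c.z_inj] at h3
    obtain rfl : α = 0 := by_contra fun h4 => N_ne_cm h4 α' h3.symm
    have h4 : c.u x 0 * y ∈ Y' :=
      e4 ▸ H.S.le (H.S.st.ZY (conj_mem_of_norm H.S.norm_Z hg (c.z_mem_Z β)))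
    exact hx (H.S.u_mem ((mul_mem_cancel_right (H.S.le hy)).1 h4))
  · exact ⟨a + w, by rw [cm_add_right, cm_comm x a]; grind⟩

theorem fb_eq {a b : F} {v x : G} (hv : v ∈ Y')
    (hx : x = c.u a b * v ∨ x = c.u a b * v * c.t) : c.fb Y' x = a := by
  have h1 : ∃ a b, ∃ v ∈ Y', x = c.u a b * v ∨ x = c.u a b * v * c.t := ⟨a, b, v, hv, hx⟩
  rw [fb, dif_pos h1]
  obtain ⟨b', v', hv', h2⟩ := h1.choose_spec
  generalize h1.choose = a' at h2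
  rcases hx with rfl | rfl <;> rcases h2 with h2 | h2
  exacts [(H.eq_of_eq hv hv' h2).symm, absurd h2 (H.ne_t hv hv'), absurd h2.symm (H.ne_t hv' hv),
    (H.eq_of_eq hv hv' (mul_right_cancel h2)).symm]

theorem fb1 (a b : F) {v : G} (hv : v ∈ Y') : c.fb Y' (c.u a b * v) = a := H.fb_eq hv (Or.inl rfl)

theorem fb2 (a b : F) {v : G} (hv : v ∈ Y') : c.fb Y' (c.u a b * v * c.t) = a :=
  H.fb_eq hv (Or.inr rfl)

theorem fb_u (a b : F) : c.fb Y' (c.u a b) = a := by simpa using H.fb1 a b (one_mem _)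

theorem fb_Y {v : G} (hv : v ∈ Y') : c.fb Y' v = 0 := by simpa using H.fb1 0 0 hv

theorem fb_t : c.fb Y' c.t = 0 := by simpa using H.fb2 0 0 (one_mem _)

end

variable (H : c.T1 j Y h Y' ι 0 e)
include H

omit [Finite G] in
theorem vu {v : G} (hv : v ∈ Y') (a b : F) : v * c.u a b = c.u a b * v := by
  simpa using H.v_u hv a b

theorem fb_mul {x y : G} (hx : x ∈ c.P Y') (hy : y ∈ c.P Y') :
    c.fb Y' (x * y) = c.fb Y' x + c.fb Y' y := by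
  have A : ∀ a b a' b', ∀ v ∈ Y', ∀ w : G,
      c.u a b * v * (c.u a' b' * w) = c.u (a + a') (b + b' + θ a * a') * (v * w) := by
    intro a b a' b' v hv w
    rw [← c.u_mul, mul_assoc, ← mul_assoc v, H.vu hv]; group
  have B : ∀ v ∈ Y', c.t * v * c.t ∈ Y' := fun v hv => by
    simpa using conj_mem_of_norm H.S.nY' (c.t_mem_P _) hv
  obtain ⟨a, b, v, hv, rfl | rfl⟩ := (H.S.mem x).1 hx <;>
    obtain ⟨a', b', v', hv', rfl | rfl⟩ := (H.S.mem y).1 hy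
  · rw [A _ _ _ _ v hv, H.fb1 _ _ (mul_mem hv hv'), H.fb1 _ _ hv, H.fb1 _ _ hv']
  · rw [← mul_assoc, A _ _ _ _ v hv, H.fb2 _ _ (mul_mem hv hv'), H.fb1 _ _ hv, H.fb2 _ _ hv']
  · rw [show c.u a b * v * c.t * (c.u a' b' * v') =
        c.u a b * v * (c.u a' b' * (c.t * v' * c.t)) * c.t by
          simp only [mul_assoc, c.tt, mul_one]; rw [← mul_assoc c.t, c.t_u, mul_assoc],
      A _ _ _ _ v hv, H.fb2 _ _ (mul_mem hv (B _ hv')), H.fb2 _ _ hv, H.fb1 _ _ hv']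
  · rw [show c.u a b * v * c.t * (c.u a' b' * v' * c.t) =
        c.u a b * v * (c.u a' b' * (c.t * v' * c.t)) by
          simp only [mul_assoc]; rw [← mul_assoc c.t, c.t_u, mul_assoc],
      A _ _ _ _ v hv, H.fb1 _ _ (mul_mem hv (B _ hv')), H.fb2 _ _ hv, H.fb2 _ _ hv']

theorem fb_conj {p x : G} (hp : p ∈ c.P Y') (hx : x ∈ c.P Y') :
    c.fb Y' (p * x * p⁻¹) = c.fb Y' x := by
  have h1 := H.fb_mul hp (inv_mem hp)
  rw [mul_inv_cancel, H.fb_Y (one_mem _)] at h1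
  rw [H.fb_mul (mul_mem hp hx) (inv_mem hp), H.fb_mul hp hx]
  grind

theorem norm_Y' : 𝒩(c.P Y') ≤ 𝒩(Y') := le_norm_iff.2 fun g hg w hw => by
  obtain ⟨a, b, v, hv, e1⟩ := H.conj1 hg 0 0 hw
  rw [c.u_zero, one_mul] at e1
  obtain rfl : a = 0 := cm_all c.par c.gen fun x => by
    obtain ⟨a', b', v', hv', e2⟩ := H.conj1 (inv_mem hg) x 0 (one_mem _)
    have h1 : w * (c.u a' b' * v') = c.u a' b' * v' * w := by
      rw [← mul_assoc, H.vu hw, mul_assoc, H.hc w hw v' hv', mul_assoc]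
    have h2 : c.u a b * v * c.u x 0 = c.u x 0 * (c.u a b * v) := by
      rw [← e1]
      calc g * w * g⁻¹ * c.u x 0 = g * (w * (g⁻¹ * (c.u x 0 * 1) * g⁻¹⁻¹)) * g⁻¹ := by group
        _ = g * (g⁻¹ * (c.u x 0 * 1) * g⁻¹⁻¹ * w) * g⁻¹ := by rw [e2, h1]
        _ = _ := by group
    rw [mul_assoc, H.vu hv, ← mul_assoc, ← mul_assoc, mul_left_inj] at h2
    exact c.u_comm_iff.1 h2
  exact e1 ▸ mul_mem (H.z_mem b) hv

theorem fb_g {g : G} (hg : g ∈ 𝒩(c.P Y')) {x y : G} (hx : x ∈ c.P Y') (hy : y ∈ c.P Y') :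
    c.fb Y' (g * (x * y) * g⁻¹) = c.fb Y' (g * x * g⁻¹) + c.fb Y' (g * y * g⁻¹) := by
  rw [← H.fb_mul (conj_mem_of_norm le_rfl hg hx) (conj_mem_of_norm le_rfl hg hy)]
  congr 1; group

theorem fb_g1 {g : G} (hg : g ∈ 𝒩(c.P Y')) (a b : F) {v : G} (hv : v ∈ Y') :
    c.fb Y' (g * (c.u a b * v) * g⁻¹) = c.fb Y' (g * c.u a 0 * g⁻¹) := by
  have h1 := mul_mem (H.z_mem b) hv
  rw [c.u_eq a b, mul_assoc (c.u a 0), H.fb_g hg (c.Q_le_P _ (c.u_mem_Q _ _)) (c.le_P _ h1),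
    H.fb_Y (conj_mem_of_norm H.norm_Y' hg h1), add_zero]

theorem fb_g2 {g : G} (hg : g ∈ 𝒩(c.P Y')) (a b : F) {v : G} (hv : v ∈ Y') :
    c.fb Y' (g * (c.u a b * v * c.t) * g⁻¹) = c.fb Y' (g * (c.u a 0 * c.t) * g⁻¹) := by
  rw [H.fb_g hg (H.mem1 a b hv) (c.t_mem_P _), H.fb_g1 hg a b hv,
    H.fb_g hg (c.Q_le_P _ (c.u_mem_Q _ _)) (c.t_mem_P _)]

/-- the action of `N(P Y')` on the cosets of `Y'` in `Q Y' t` -/
noncomputable def al : 𝒩(c.P Y') →* Equiv.Perm F :=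
  MonoidHom.toHomPerm
    { toFun := fun g a => c.fb Y' (g * (c.u a 0 * c.t) * (g : G)⁻¹)
      map_one' := funext fun a => by
        change c.fb Y' (((1 : 𝒩(c.P Y')) : G) * (c.u a 0 * c.t) * ((1 : 𝒩(c.P Y')) : G)⁻¹) = a
        simpa using H.fb2 a 0 (one_mem _)
      map_mul' := fun g g' => funext fun a => by
        obtain ⟨a', b', v', hv', e1⟩ := H.conj2 g'.2 a 0 (one_mem _)
        rw [mul_one] at e1
        change c.fb Y' (((g * g' : 𝒩(c.P Y')) : G) * (c.u a 0 * c.t) * ((g * g' : 𝒩(c.P Y')) : G)⁻¹) =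
          c.fb Y' (g * (c.u (c.fb Y' (g' * (c.u a 0 * c.t) * (g' : G)⁻¹)) 0 * c.t) * (g : G)⁻¹)
        rw [e1, H.fb2 _ _ hv', ← H.fb_g2 g.2 a' b' hv', ← e1]
        congr 1
        simp only [Subgroup.coe_mul]; group }

theorem al_apply (g : 𝒩(c.P Y')) (a : F) :
    H.al g a = c.fb Y' (g * c.u a 0 * (g : G)⁻¹) + c.fb Y' (g * c.t * (g : G)⁻¹) :=
  H.fb_g g.2 (c.Q_le_P _ (c.u_mem_Q _ _)) (c.t_mem_P _)

theorem al_zero (g : 𝒩(c.P Y')) : H.al g 0 = c.fb Y' (g * c.t * (g : G)⁻¹) := by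
  simp [H.al_apply, H.fb_Y (one_mem _)]

theorem al_P {g : 𝒩(c.P Y')} (hg : (g : G) ∈ c.P Y') : H.al g = 1 := Equiv.ext fun a => by
  rw [H.al_apply, H.fb_conj hg (c.Q_le_P _ (c.u_mem_Q _ _)), H.fb_conj hg (c.t_mem_P _), H.fb_u,
    H.fb_t, add_zero, Equiv.Perm.one_apply]

theorem exists_sigma {g : G} (hg : g ∈ 𝒩(c.P Y')) :
    ∃ σ : F →+ F, ∀ a, σ a = c.fb Y' (g * c.u a 0 * g⁻¹) := by
  refine ⟨AddMonoidHom.mk' (fun a => c.fb Y' (g * c.u a 0 * g⁻¹)) fun a b => ?_, fun _ => rfl⟩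
  rw [← H.fb_g hg (c.Q_le_P _ (c.u_mem_Q _ _)) (c.Q_le_P _ (c.u_mem_Q _ _)), c.u_mul,
    ← H.fb_g1 hg (a + b) _ (one_mem _), mul_one]

theorem t_al (g : 𝒩(c.P Y')) : ∃ b, ∃ v ∈ Y',
    g * c.t * (g : G)⁻¹ = c.u (H.al g 0) b * v * c.t ∧ N (H.al g 0) + e * ι v = 0 := by
  obtain ⟨a, b, v, hv, e1, e2⟩ := H.t_form (conj_mem_of_norm le_rfl g.2 (c.t_mem_P _))
  rw [H.al_zero, e1, H.fb2 _ _ hv]
  exact ⟨b, v, hv, rfl, by simpa using e2⟩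

theorem stab (he : e ≠ 0) {g : 𝒩(c.P Y')} (h0 : H.al g 0 = 0) :
    g * c.t * (g : G)⁻¹ * c.t⁻¹ ∈ Y ∧ ∃ p ∈ c.P Y', p * c.t * p⁻¹ = g * c.t * (g : G)⁻¹ := by
  obtain ⟨b, v, hv, e1, e2⟩ := H.t_al g
  rw [h0] at e1 e2
  rw [e1, mul_inv_cancel_right]
  exact H.conj_zero hv (by simpa [he] using e2)

theorem semi (he : e ≠ 0) {g : 𝒩(c.P Y')} (h0 : H.al g 0 = 0) : ∃ σ ρ : F →+ F,
    (∀ a, H.al g a = σ a) ∧ (∀ a, ρ (N a) = N (σ a)) ∧ ∀ b, g * c.z b * (g : G)⁻¹ = c.z (ρ b) := by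
  obtain ⟨-, p, hp, e1⟩ := H.stab he h0
  have hd : p⁻¹ * g ∈ 𝒩(c.P Y') := mul_mem (le_normalizer (inv_mem hp)) g.2
  have h1 : p⁻¹ * g * c.t = c.t * (p⁻¹ * g) := by
    calc p⁻¹ * g * c.t = p⁻¹ * (g * c.t * (g : G)⁻¹) * g := by group
      _ = _ := by rw [← e1]; group
  have h2 := c.norm_Q_of H.S.two (c.T_le_P _) hd h1
  obtain ⟨σ, hσ⟩ := H.exists_sigma g.2
  obtain ⟨ρ, hρ⟩ := exists_rho (H.S.norm_Z g.2)
  refine ⟨σ, ρ, fun a => by rw [H.al_apply, ← H.al_zero, h0, add_zero, hσ], fun a => ?_, hρ⟩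
  obtain ⟨a', b', e2⟩ := c.mem_Q.1 (conj_mem_of_norm le_rfl h2 (c.u_mem_Q a 0))
  have e3 : g * c.u a 0 * (g : G)⁻¹ = p * c.u a' b' * p⁻¹ := by rw [← e2]; group
  rw [hσ, e3, H.fb_conj hp (c.Q_le_P _ (c.u_mem_Q _ _)), H.fb_u, ← c.z_inj, ← hρ, ← c.u_sq a 0]
  calc g * (c.u a 0 * c.u a 0) * (g : G)⁻¹ =
        g * c.u a 0 * (g : G)⁻¹ * (g * c.u a 0 * (g : G)⁻¹) := by group
    _ = p * (c.u a' b' * c.u a' b') * p⁻¹ := by rw [e3]; group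
    _ = _ := by rw [c.u_sq, ← H.S.cent_Z hp _ (c.z_mem_Z _), mul_inv_cancel_right]

theorem cent_of_sigma {g : G} (hg : g ∈ 𝒩(c.P Y')) (h1 : ∀ a, c.fb Y' (g * c.u a 0 * g⁻¹) = a) :
    g ∈ 𝒞(c.Z) := by
  obtain ⟨ρ, hρ⟩ := exists_rho (H.S.norm_Z hg)
  have h2 : ∀ a, ∃ b, ∃ v ∈ Y', g * c.u a 0 * g⁻¹ = c.u a b * v := fun a => by
    obtain ⟨a', b', v', hv', e1⟩ := H.conj1 hg a 0 (one_mem _)
    rw [mul_one] at e1
    have := h1 a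
    rw [e1, H.fb1 _ _ hv'] at this
    exact ⟨b', v', hv', this ▸ e1⟩
  have h3 : ∀ a x, ρ (cm a x) = cm a x := fun a x => by
    obtain ⟨b, v, hv, e1⟩ := h2 a
    obtain ⟨b', v', hv', e2⟩ := h2 x
    have e3 : c.u a b * v * (c.u x b' * v') = c.z (cm a x) * (c.u x b' * v' * (c.u a b * v)) := by
      calc c.u a b * v * (c.u x b' * v') = c.u a b * (v * c.u x b') * v' := by group
        _ = c.u a b * c.u x b' * (v * v') := by rw [H.vu hv]; group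
        _ = c.z (cm a x) * (c.u x b' * (c.u a b * v') * v) := by
          rw [c.u_comm a b x b', H.hc v hv v' hv']; group
        _ = _ := by rw [← H.vu hv']; group
    rw [← e1, ← e2] at e3
    have e4 : g * c.u a 0 * g⁻¹ * (g * c.u x 0 * g⁻¹) =
        g * c.z (cm a x) * g⁻¹ * (g * c.u x 0 * g⁻¹ * (g * c.u a 0 * g⁻¹)) := by
      calc _ = g * (c.u a 0 * c.u x 0) * g⁻¹ := by group
        _ = _ := by rw [c.u_comm a 0 x 0]; group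
    rw [e3, hρ, mul_left_inj, c.z_inj] at e4
    exact e4.symm
  have h4 : ρ (N 1) = N 1 := by
    by_contra h5
    refine c.l_ne01.2 (cm_range_inj c.l_ne01.1 one_ne_zero fun x => ?_)
    refine (cm_or one_ne_zero (cm c.l x)).resolve_right fun ⟨w, hw⟩ => h5 ?_
    have h6 := h3 c.l x
    rw [hw, map_add, h3] at h6
    exact add_right_cancel h6
  intro y hy
  obtain ⟨b, rfl⟩ := c.mem_Z.1 hy
  have h5 : ρ b = b := by
    rcases cm_or one_ne_zero b with ⟨w, rfl⟩ | ⟨w, rfl⟩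
    exacts [h3 _ _, by rw [map_add, h3, h4]]
  have h6 := hρ b
  rw [h5, mul_inv_eq_iff_eq_mul] at h6
  exact h6.symm

theorem cent_of_al {g : 𝒩(c.P Y')} (h1 : ∀ a, H.al g a = a + H.al g 0) : (g : G) ∈ 𝒞(c.Z) :=
  H.cent_of_sigma g.2 fun a => by
    have := h1 a
    rwa [H.al_apply, H.al_zero, add_left_inj] at this

theorem no_transl {g : 𝒩(c.P Y')} (h1 : ∀ a, H.al g a = a + H.al g 0) : H.al g = 1 := by
  have h2 := H.cent_of_al h1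
  obtain ⟨b, v, hv, e1, -⟩ := H.t_al g
  have h3 : H.al g 0 = 0 := cm_all c.par c.gen fun x => by
    obtain ⟨a', b', v', hv', e2⟩ := H.conj1 g.2 x 0 (one_mem _)
    rw [mul_one] at e2
    have h4 := h1 x
    rw [H.al_apply, H.al_zero, add_left_inj, e2, H.fb1 _ _ hv'] at h4
    subst h4
    have h5 := H.sq1 a' b' hv'
    rw [← e2, zero_mul, add_zero, show g * c.u a' 0 * (g : G)⁻¹ * (g * c.u a' 0 * (g : G)⁻¹) =
      g * (c.u a' 0 * c.u a' 0) * (g : G)⁻¹ by group, c.u_sq, ← h2 _ (c.z_mem_Z _),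
      mul_inv_cancel_right, left_eq_mul] at h5
    obtain ⟨d, rfl⟩ := c.mem_Z.1 (H.mem_Z_of_sq hv' h5)
    rw [c.u_z] at e2
    have h6 : g * c.t * (g : G)⁻¹ * (g * c.u a' 0 * (g : G)⁻¹) =
        g * c.u a' 0 * (g : G)⁻¹ * (g * c.t * (g : G)⁻¹) := by
      calc _ = g * (c.t * c.u a' 0) * (g : G)⁻¹ := by group
        _ = _ := by rw [c.t_u]; group
    rw [e1, e2, mul_assoc, c.t_u, ← mul_assoc, mul_assoc _ v, H.vu hv, ← mul_assoc, ← mul_assoc,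
      ← mul_assoc, mul_left_inj, mul_left_inj] at h6
    exact c.u_comm_iff.1 h6
  exact Equiv.ext fun a => by rw [h1, h3, add_zero, Equiv.Perm.one_apply]

theorem exists_us (he : e ≠ 0) (hn : ¬ IsSylowOf 2 (c.P Y') ⊤) :
    ∃ (p : ℕ) (u s : 𝒩(c.P Y')), p.Prime ∧ p ≠ 2 ∧ H.al u ^ p = 1 ∧
      (∀ a, H.al u a = a ↔ a = 0 ∨ a = 1) ∧ H.al s * H.al u * (H.al s)⁻¹ = (H.al u)⁻¹ ∧
        H.al s 0 = 1 := by
  obtain ⟨p, φ, _, ⟨u, rfl⟩, _, ⟨s, rfl⟩, h1, h2, h3, h4, h5, h6, h7⟩ := t1p c.par H.al.range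
    (by
      rintro _ ⟨g, rfl⟩ a b
      obtain ⟨σ, hσ⟩ := H.exists_sigma g.2
      rw [H.al_zero, H.al_apply, H.al_apply, H.al_apply, ← hσ, ← hσ, ← hσ, map_add]
      grind)
    (fun r hr => by
      obtain ⟨i, rfl⟩ := c.gen r hr
      refine ⟨_, ⟨⟨h ^ i, pow_mem H.S.hP i⟩, rfl⟩, fun a => ?_⟩
      obtain ⟨b, e1⟩ := H.S.st.tor.pow_u i a 0
      have h1 : Commute h c.t := H.S.st.tor.ht
      rw [H.al_apply, e1, (h1.pow_left i).eq, mul_inv_cancel_right, H.fb_u, H.fb_t, add_zero])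
    (by
      rintro _ ⟨g, rfl⟩ h0
      obtain ⟨σ, ρ, h1, h2, -⟩ := H.semi he h0
      obtain ⟨r, φ, -, -, h3, -⟩ := semi' c.par σ ρ
        (fun e1 => one_ne_zero ((H.al g).injective (by rw [h1, e1, h0]))) h2
      exact ⟨r, φ, fun a => by rw [h1, h3]⟩)
    (by
      rintro _ ⟨g, rfl⟩ h0 i hi
      obtain ⟨σ, ρ, h1, h2, -⟩ := H.semi he h0
      refine Equiv.ext fun a => (h1 a).trans (aut0 c.par σ ρ h2 (k := i) (fun a => ?_) a)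
      rw [← funext h1, ← Equiv.Perm.coe_pow, hi, Equiv.Perm.one_apply])
    (by
      rintro _ ⟨g, rfl⟩ h1
      exact H.no_transl h1)
    (by
      obtain ⟨g, hg, -, hm⟩ := c.exists_mover H.S.two (c.T_le_P _) hn
      refine ⟨_, ⟨⟨g, hg⟩, rfl⟩, fun h0 => ?_⟩
      obtain ⟨-, p, hp, e1⟩ := H.stab he h0
      exact hm p hp e1.symm)
  exact ⟨p, u, s, h1, h2, h3, fun a => by rw [h4, h5], h6, h7⟩

end T1

theorem t1a (hj : 1 ≤ j) (S : c.Step j Y h Y' ι 1 k) (hc : ∀ v ∈ Y', ∀ w ∈ Y', v * w = w * v)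
    (he : ∀ v ∈ Y', c.t * v * c.t * v = c.z (e * ι v)) (h0 : e ≠ 0 ∨ k ≠ 0)
    (hn : ¬ IsSylowOf 2 (c.P Y') ⊤) : k = 0 ∧ e = 1 ∧
      ∃ (p : ℕ) (E : Subgroup G) (g : G), p.Prime ∧ p ≠ 2 ∧ IsPGroup p E ∧ E ≤ 𝒞[c.t] ∧
        E ≤ 𝒩(c.P Y') ∧ E ≤ 𝒩(Y') ∧ (∀ b, c.z b ∈ 𝒞(E) ↔ b = 0 ∨ b = 1) ∧ g ∈ 𝒩(E) ∧
        g ∈ 𝒩(c.P Y') ∧ (∀ f ∈ E, g * f * g⁻¹ * f ∈ 𝒞(c.Z)) ∧
        ∃ b, ∃ v ∈ Y', ι v = 1 ∧ g * c.t * g⁻¹ = c.u 1 b * v * c.t := by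
  obtain rfl := T1.k_zero ⟨hj, S, hc, he⟩ hn
  have H : c.T1 j Y h Y' ι 0 e := ⟨hj, S, hc, he⟩
  have e0 : e ≠ 0 := h0.resolve_right (by simp)
  obtain ⟨p, u, s, hp, p2, up, uf, su, s0⟩ := H.exists_us e0 hn
  set N1 : Subgroup G := ((zpowers (H.al u)).comap H.al).map (𝒩(c.P Y')).subtype with hN1
  have m1 : ∀ g : 𝒩(c.P Y'), (g : G) ∈ N1 ↔ H.al g ∈ zpowers (H.al u) := fun g =>
    ⟨fun ⟨x, hx, e1⟩ => (Subtype.ext e1 : x = g) ▸ hx, fun h1 => ⟨g, h1, rfl⟩⟩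
  have le1 : N1 ≤ 𝒩(c.P Y') := map_subtype_le _
  have fx : ∀ x ∈ zpowers (H.al u), x 0 = 0 ∧ x 1 = 1 := by
    rintro _ ⟨i, rfl⟩
    exact ⟨Equiv.Perm.zpow_apply_eq_self_of_apply_eq_self ((uf 0).2 (Or.inl rfl)) i,
      Equiv.Perm.zpow_apply_eq_self_of_apply_eq_self ((uf 1).2 (Or.inr rfl)) i⟩
  have inv : ∀ x ∈ zpowers (H.al u), H.al s * x * (H.al s)⁻¹ = x⁻¹ := by
    rintro _ ⟨i, rfl⟩
    simp only
    rw [← conj_zpow, su, inv_zpow]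
  have sN : (s : G) ∈ 𝒩(N1) := mem_norm_of_cj_le fun x hx => by
    obtain ⟨y, hy, rfl⟩ := mem_cj'.1 hx
    refine (m1 (s * ⟨y, le1 hy⟩ * s⁻¹)).2 ?_
    rw [map_mul, map_mul, map_inv, inv _ ((m1 ⟨y, le1 hy⟩).1 hy)]
    exact inv_mem ((m1 ⟨y, le1 hy⟩).1 hy)
  obtain ⟨m, i, hm, hi⟩ := exists_ppart hp (u : G)
  obtain ⟨E0, hE0, h1⟩ := exists_sylowOf_ge (isPi_of_isPGroup hp (isPGroup_zp hi))
    (zpowers_le.2 ((m1 (u ^ m)).2 (by rw [map_pow]; exact pow_mem (mem_zpowers _) m)))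
  obtain ⟨n, hn1, g0, hg0, e1⟩ := (frattini_arg le_normalizer le_rfl hE0).2.2 s sN
  have pE0 := hE0.pi.isPGroup hp
  obtain ⟨y, hy, h2⟩ := fix_coset (x := c.t) hp pE0 (not_dvd_two hp p2 (S.st.two.to_le (c.le_P Y)))
    fun f hf y hy => by
      have h3 := le1 (hE0.le hf)
      have h4 := mul_mem (conj_mem_of_norm H.norm_Y h3 hy)
        (H.stab e0 (g := ⟨f, h3⟩) (fx _ ((m1 ⟨f, h3⟩).1 (hE0.le hf))).1).1
      simpa [mul_assoc] using h4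
  obtain ⟨p0, hp0, e2⟩ := S.conj_tY hy
  have hp0' : p0 ∈ 𝒩(c.P Y') := le_normalizer hp0
  have alc : ∀ g : 𝒩(c.P Y'), H.al ((⟨p0, hp0'⟩ : 𝒩(c.P Y'))⁻¹ * g * ⟨p0, hp0'⟩) = H.al g := fun g => by
    rw [map_mul, map_mul, map_inv, H.al_P hp0, inv_one, one_mul, mul_one]
  have EN : cj p0⁻¹ E0 ≤ N1 := cj_le_of_mem hE0.le
    (inv_mem ((m1 ⟨p0, hp0'⟩).2 (by rw [H.al_P (g := ⟨p0, hp0'⟩) hp0]; exact one_mem _)))
  have Et : cj p0⁻¹ E0 ≤ 𝒞[c.t] := fun f hf => by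
    have h3 := h2 _ (mem_cj.1 hf)
    rw [← e2] at h3
    rw [mem_cent1]
    calc f * c.t = p0⁻¹ * (p0⁻¹⁻¹ * f * p0⁻¹ * (p0 * c.t * p0⁻¹)) * p0 := by group
      _ = _ := by rw [h3]; group
  have hz : ∀ f (hf : f ∈ N1) b, f * c.z b * f⁻¹ = c.z (H.al ⟨f, le1 hf⟩ b) := fun f hf b => by
    have h3 := fx _ ((m1 ⟨f, le1 hf⟩).1 hf)
    obtain ⟨σ, ρ, h4, h5, h6⟩ := H.semi e0 h3.1
    have h7 : σ 1 = 1 := (h4 1).symm.trans h3.2
    obtain ⟨r, φ, -, -, h8, h9⟩ := semi' c.par σ ρ (by rw [h7]; exact one_ne_zero) h5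
    obtain rfl : r = 1 := by simpa [h7] using (h8 1).symm
    rw [h4, h8, ← N_one, ← h9]
    exact h6 b
  have EZ : ∀ b, c.z b ∈ 𝒞(cj p0⁻¹ E0) ↔ b = 0 ∨ b = 1 := fun b => by
    refine ⟨fun h3 => (uf b).1 ?_, fun h3 f hf => ?_⟩
    · have h4 : p0⁻¹ * (u : G) ^ m * p0⁻¹⁻¹ ∈ cj p0⁻¹ E0 := conj_mem_cj.2 (h1 (mem_zpowers _))
      have h5 := hz _ (EN h4) b
      rw [h3 _ h4, mul_inv_cancel_right, c.z_inj] at h5
      have h6 : (H.al u ^ m) b = b := by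
        rw [← map_pow, ← alc]
        exact (congrArg (fun x => H.al x b) (Subtype.ext (by simp))).trans h5.symm
      obtain ⟨r, hr⟩ := exists_pow_eq_self_of_coprime (x := H.al u) (n := m)
        (((Nat.Prime.coprime_iff_not_dvd hp).2 hm).symm.coprime_dvd_right
          (orderOf_dvd_of_pow_eq_one up))
      rw [← hr]
      exact Equiv.Perm.pow_apply_eq_self_of_apply_eq_self h6 r
    · have h4 := hz f (EN hf) b
      have h5 := fx _ ((m1 ⟨f, le1 (EN hf)⟩).1 (EN hf))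
      rw [show H.al ⟨f, le1 (EN hf)⟩ b = b by rcases h3 with rfl | rfl; exacts [h5.1, h5.2]] at h4
      exact mul_inv_eq_iff_eq_mul.1 h4
  have EY : cj p0⁻¹ E0 ≤ 𝒩(Y') := (EN.trans le1).trans H.norm_Y'
  obtain rfl : e = 1 := by
    refine ((EZ e).1 fun f hf => ?_).resolve_left e0
    obtain ⟨v, hv, e3⟩ := S.ι_sur 1
    have h3 := mem_cent1.1 (Et hf)
    have h4 := S.ι_conj (EY hf) h3 hv
    rw [e3, (EZ 1).2 (Or.inr rfl) f hf, mul_inv_cancel_right, c.z_inj] at h4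
    have h5 := he _ (conj_mem_of_norm EY hf hv)
    have h6 := he v hv
    rw [h4, mul_one] at h5
    rw [e3, mul_one] at h6
    have h7 : f * c.t * f⁻¹ = c.t := by rw [h3, mul_inv_cancel_right]
    rw [← mul_inv_eq_iff_eq_mul]
    calc f * c.z e * f⁻¹ = f * c.t * f⁻¹ * (f * v * f⁻¹) * (f * c.t * f⁻¹) * (f * v * f⁻¹) := by
          rw [← h6]; group
      _ = _ := by rw [h7, h5]
  have hg0' : g0 ∈ 𝒩(c.P Y') := (mul_mem_cancel_left (le1 hn1)).1 (e1 ▸ s.2)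
  set g : 𝒩(c.P Y') := (⟨p0, hp0'⟩ : 𝒩(c.P Y'))⁻¹ * ⟨g0, hg0'⟩ * ⟨p0, hp0'⟩ with hg
  have ag : H.al g = (H.al ⟨n, le1 hn1⟩)⁻¹ * H.al s := by
    rw [hg, alc, eq_inv_mul_iff_mul_eq, ← map_mul]
    exact congrArg _ (Subtype.ext e1.symm)
  have an := (m1 ⟨n, le1 hn1⟩).1 hn1
  refine ⟨rfl, rfl, p, cj p0⁻¹ E0, g, hp, p2, isPGroup_cj.2 pE0, Et, EN.trans le1, EY, EZ, ?_, g.2,
    fun f hf => H.cent_of_al (g := g * ⟨f, le1 (EN hf)⟩ * g⁻¹ * ⟨f, le1 (EN hf)⟩) fun a => ?_, ?_⟩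
  · rw [← cj_normalizer, mem_cj]
    simpa [hg, mul_assoc] using hg0.2
  · have h3 := (m1 ⟨f, le1 (EN hf)⟩).1 (EN hf)
    have h4 : H.al (g * ⟨f, le1 (EN hf)⟩ * g⁻¹ * ⟨f, le1 (EN hf)⟩) = 1 := by
      rw [map_mul, map_mul, map_mul, map_inv, ag]
      generalize H.al ⟨f, le1 (EN hf)⟩ = x at h3
      generalize H.al ⟨n, le1 hn1⟩ = w at an
      have h5 : Commute w x := by
        obtain ⟨a, rfl⟩ := an
        obtain ⟨b, rfl⟩ := h3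
        exact Commute.zpow_zpow_self _ a b
      calc w⁻¹ * H.al s * x * (w⁻¹ * H.al s)⁻¹ * x = w⁻¹ * (H.al s * x * (H.al s)⁻¹) * (w * x) := by group
        _ = 1 := by rw [inv x h3, h5.eq]; group
    simp [h4]
  · obtain ⟨b, v, hv, e3, e4⟩ := H.t_al g
    have h3 : H.al g 0 = 1 := by rw [ag, Equiv.Perm.mul_apply, s0, (fx _ (inv_mem an)).2]
    rw [h3] at e3 e4
    exact ⟨b, v, hv, by rw [N_one, one_mul] at e4; grind, e3⟩

end Ctx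

end Cfsg.Agent.SZS
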