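import Cfsg.Agent.SZS.Fin
import Cfsg.Agent.H3.Transfer2

/-! Standard Suzuki subgroups: fixed points of a `p`-group on the Suzuki group. -/

set_option autoImplicit false
set_option linter.unusedSectionVars false

namespace Cfsg.Agent.SZS.Ctx

open Subgroup H13 H49

namespace Td

section Model
variable {X F : Type*} [Group X] [Field F] [Tits F] [Finite F] (M : Model X F)

theorem fx {x : X} (h1 : x ≠ 1) (h2 : x * x = 1) : ∃ p0 : M.Ω, ∀ p, x • p = p ↔ p = p0 := by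
  obtain ⟨g, rfl⟩ := M.exists_conj_u01 h1 (by rw [sq, h2])
  refine ⟨g • M.inf, fun p => ?_⟩
  rw [mul_smul, mul_smul, smul_eq_iff_eq_inv_smul, ← inv_smul_eq_iff (g := g) (a := p)]
  exact ⟨fun h => M.u_fix (a := 0) (b := 1) (by simp [M.u_eq_one]) h,
    fun h => by rw [h]; exact M.u_mem_B 0 1⟩

theorem comm_of_fix {r s : X} (hr : r * r = 1) (hs : s * s = 1) {p : M.Ω} (h1 : r • p = p)
    (h2 : s • p = p) : r * s = s * r := by
  obtain ⟨g, rfl⟩ := M.exists_smul_inf p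
  have key : ∀ r : X, r * r = 1 → r • g • M.inf = g • M.inf → ∃ b, g⁻¹ * r * g = M.u 0 b :=
    fun r hr h => M.mem_Z_of_mem_B (by rw [M.mem_B, mul_smul, mul_smul, h, inv_smul_smul])
      (by rw [sq, show g⁻¹ * r * g * (g⁻¹ * r * g) = g⁻¹ * (r * r) * g by group, hr]; simp)
  obtain ⟨a, ha⟩ := key r hr h1
  obtain ⟨b, hb⟩ := key s hs h2
  have := M.u_zero_comm a 0 b
  rw [← ha, ← hb] at this
  calc _ = g * (g⁻¹ * r * g * (g⁻¹ * s * g)) * g⁻¹ := by group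
    _ = _ := by rw [this]; group

theorem reg {s s' : X} (hs : s * s = 1) (hs' : s' * s' = 1) (n : s ∉ M.U) (n' : s' ∉ M.U) :
    ∃ x ∈ M.U, x * s * x⁻¹ * s' = s' * (x * s * x⁻¹) ∧
      ∀ y ∈ M.U, y * s * y⁻¹ * s' = s' * (y * s * y⁻¹) → y = x := by
  obtain ⟨p, hp⟩ := fx M (x := s) (fun e => n (e ▸ one_mem _)) hs
  obtain ⟨p', hp'⟩ := fx M (x := s') (fun e => n' (e ▸ one_mem _)) hs'
  have k : ∀ {s : X} {p : M.Ω}, s * s = 1 → s ∉ M.U → s • p = p → p ≠ M.inf := fun h1 h2 h3 e =>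
    h2 (M.Z_le_U (M.mem_Z_of_mem_B (by rw [M.mem_B, ← e, h3]) (by rw [sq, h1])))
  obtain ⟨x, hx, hu⟩ := M.existsUnique_u (k hs n ((hp p).2 rfl)) (k hs' n' ((hp' p').2 rfl))
  refine ⟨x, x.2, comm_of_fix M (p := p') (by rw [conj_mul, hs]; simp) hs' ?_ ((hp' p').2 rfl),
    fun y hy e => congrArg Subtype.val (hu ⟨y, hy⟩ ?_)⟩
  · rw [← hx, mul_smul, inv_smul_smul, mul_smul, (hp p).2 rfl]
  · have h1 : (y * s * y⁻¹) • p' = p' := (hp' _).1 (by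
      rw [← mul_smul, ← e, mul_smul, (hp' p').2 rfl])
    rw [mul_smul, mul_smul, smul_eq_iff_eq_inv_smul, hp, inv_smul_eq_iff] at h1
    exact h1.symm

include M in
theorem four {r a : X} (h1 : r ≠ 1) (h2 : r * r = 1) (h : a * r = r * a) : a ^ 4 = 1 := by
  obtain ⟨g, rfl⟩ := M.exists_conj_u01 h1 (by rw [sq, h2])
  obtain ⟨x, y, e⟩ := M.mem_U_of_commute (g := g⁻¹ * a * g) (M.u_mem_U 0 1) (by simp [M.u_eq_one])
    (by
      calc _ = g⁻¹ * (a * (g * M.u 0 1 * g⁻¹)) * g := by group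
        _ = _ := by rw [h]; group)
  rw [show a = g * (g⁻¹ * a * g) * g⁻¹ by group, e, conj_pow, M.u_pow_four]; simp

end Model

variable {G F : Type*} [Group G] [Finite G] [Field F] [Tits F] [Finite F] {c : Ctx G F}

theorem mQ {x : c.A} : (x : G) ∈ c.Q ↔ x ∈ c.M.U := by
  constructor
  · rintro ⟨y, hy, e⟩; exact Subtype.ext e ▸ hy
  · exact fun h => ⟨x, h, rfl⟩

theorem regG {s s' : G} (a : s ∈ c.A) (a' : s' ∈ c.A) (hs : s * s = 1) (hs' : s' * s' = 1)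
    (n : s ∉ c.Q) (n' : s' ∉ c.Q) : ∃ x ∈ c.Q, x * s * x⁻¹ * s' = s' * (x * s * x⁻¹) ∧
      ∀ y ∈ c.Q, y * s * y⁻¹ * s' = s' * (y * s * y⁻¹) → y = x := by
  obtain ⟨x, h1, h2, h3⟩ := reg c.M (s := ⟨s, a⟩) (s' := ⟨s', a'⟩) (Subtype.ext hs)
    (Subtype.ext hs') (mt mQ.2 n) (mt mQ.2 n')
  exact ⟨x, mQ.2 h1, congrArg Subtype.val h2, fun y hy e => congrArg Subtype.val
    (h3 ⟨y, c.Q_le_A hy⟩ (mQ.1 hy) (Subtype.ext e))⟩

theorem fourG {r a : G} (hr : r ∈ c.A) (ha : a ∈ c.A) (h1 : r ≠ 1) (h2 : r * r = 1)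
    (h : a * r = r * a) : a ^ 4 = 1 :=
  congrArg Subtype.val (four c.M (r := ⟨r, hr⟩) (a := ⟨a, ha⟩)
    (fun e => h1 (congrArg Subtype.val e)) (Subtype.ext h2) (Subtype.ext h))

theorem odd4 {O : Subgroup G} (hO : Odd (Nat.card O)) {o : G} (ho : o ∈ O) (h : o ^ 4 = 1) :
    o = 1 := by
  rw [← orderOf_eq_one_iff]
  exact Nat.eq_one_of_dvd_coprimes (hO.coprime_two_right.pow_right 2) (O.orderOf_dvd_natCard ho)
    (orderOf_dvd_of_pow_eq_one h)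

end Td

variable {G F : Type*} [Group G] [Finite G] [Field F] [Tits F] [Finite F] {c : Ctx G F}

open Td in
/-- fixed points of a `p`-group `E` on the Suzuki group -/
theorem t1d {p : ℕ} {E O : Subgroup G} (hp : p.Prime) (p2 : p ≠ 2) (hE : IsPGroup p E)
    (Et : E ≤ 𝒞[c.t]) (EQ : E ≤ 𝒩(c.Q)) (EZ : ∀ b, c.z b ∈ 𝒞(E) ↔ b = 0 ∨ b = 1)
    (hO : Odd (Nat.card O)) (OE : O ≤ 𝒞(E))
    (hz : ∀ g ∈ 𝒞(E), c.z 1 * g * c.z 1 * g⁻¹ ∈ O) :
    (∃ o ∈ O, o ≠ 1 ∧ o * c.t = c.t * o ∧ c.z 1 * o * c.z 1 = o⁻¹) ∧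
      {o : G | o ∈ O ∧ o * c.t = c.t * o ∧ c.z 1 * o * c.z 1 = o⁻¹}.ncard ≤ 5 := by
  have := Fact.mk hp
  have z1 : c.z 1 ≠ 1 := by simp [z_eq_one]
  have zA : c.z 1 ∈ c.A := c.u_mem_A 0 1
  have zQ : c.z 1 ∈ c.Q := c.u_mem_Q 0 1
  have zE : c.z 1 ∈ 𝒞(E) := (EZ 1).2 (.inr rfl)
  have zz : ∀ x, c.z 1 * (c.z 1 * x) = x := fun x => by rw [← mul_assoc, z_sq, one_mul]
  have cZ : Nat.card ↥(c.Z ⊓ 𝒞(E)) = 2 := by
    have : c.Z ⊓ 𝒞(E) = zpowers (c.z 1) := le_antisymm (fun x hx => by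
      obtain ⟨b, rfl⟩ := c.mem_Z.1 hx.1
      rcases (EZ b).1 hx.2 with rfl | rfl
      exacts [c.z_zero ▸ one_mem _, mem_zpowers _]) (zpowers_le.2 ⟨c.z_mem_Z 1, zE⟩)
    rw [this, Nat.card_zpowers, orderOf_eq_prime (by rw [sq, z_sq]) z1]
  constructor
  · by_cases hA : c.A ⊓ 𝒞(E) ≤ c.Q
    · exfalso
      have k1 := H3.card_modEq_card_inf_centralizer hE (EQ.trans c.norm_Q_le)
      have k2 := H3.card_modEq_card_inf_centralizer hE EQ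
      have k3 := H3.card_modEq_card_inf_centralizer hE (Et.trans c.CN)
      rw [cZ, card_Z] at k1
      rw [le_antisymm (le_inf hA inf_le_right) (inf_le_inf_right _ c.Q_le_A), c.M.card_G] at k3
      rw [card_Q] at k2
      have k4 : Nat.card F - 1 ≡ 1 [MOD p] :=
        Nat.ModEq.add_right_cancel' 1 (by rwa [Nat.sub_add_cancel Nat.card_pos])
      have k5 := (k1.pow 2).symm.trans ((k2.trans k3.symm).trans
        (((k1.pow 2).mul ((k1.pow 2).add_right 1)).mul k4))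
      have k6 : p ∣ 2 ^ 4 := (Nat.modEq_iff_dvd' (by norm_num)).1 k5
      exact p2 ((Nat.prime_dvd_prime_iff_eq hp Nat.prime_two).1 (hp.dvd_of_dvd_pow k6))
    obtain ⟨g, hg, n⟩ := SetLike.not_le_iff_exists.1 hA
    refine ⟨_, hz g hg.2, fun e => n (c.mem_Q_of_comm hg.1 zQ z1 ?_),
      (c.tc _ (mul_mem (mul_mem (mul_mem zA hg.1) zA) (inv_mem hg.1))).symm, ?_⟩
    · rw [mul_inv_eq_one] at e
      nth_rw 2 [← e]
      rw [mul_assoc, zz]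
    · simp only [mul_inv_rev, z_inv, inv_inv, mul_assoc, zz]
  obtain ⟨X, hX⟩ : ∃ X, X = {o : G | o ∈ O ∧ o * c.t = c.t * o ∧ c.z 1 * o * c.z 1 = o⁻¹} := ⟨_, rfl⟩
  rw [← hX]
  have f : ∀ o ∈ X \ {1}, o ∈ O ∧ c.z 1 * o ∈ c.A ∧ c.z 1 * o * (c.z 1 * o) = 1 ∧
      c.z 1 * o ∉ c.Q ∧ c.z 1 * o ∈ 𝒞(E) := by
    rintro o ⟨ho, o1⟩
    rw [hX] at ho
    obtain ⟨h1, h2, h3⟩ := ho
    refine ⟨h1, mul_mem zA ?_, by rw [← mul_assoc, h3, inv_mul_cancel], fun e => o1 ?_,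
      mul_mem zE (OE h1)⟩
    · have h4 := mul_mem (cm_norm (c.CN (mem_cent1.2 h2)) zA) zA
      rw [← h3] at h4
      simp only [mul_assoc, zz, z_sq, mul_one] at h4
      obtain ⟨n, hn⟩ := hO.of_dvd_nat (O.orderOf_dvd_natCard h1)
      have h5 := pow_mem h4 (n + 1)
      rwa [← sq, ← pow_mul, show 2 * (n + 1) = orderOf o + 1 by omega, pow_succ,
        pow_orderOf_eq_one, one_mul] at h5
    · obtain ⟨a, b, e⟩ := c.mem_Q.1 ((mul_mem_cancel_left zQ).1 e)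
      exact odd4 hO h1 (by
        rw [e, show 4 = 2 * 2 from rfl, pow_mul, sq (c.u a b), u_sq, sq, z_sq])
  have k1 : Nat.card ↥(c.Q ⊓ 𝒞(E)) ≤ 4 := by
    have k := Fn.half_le (A := c.Q ⊓ 𝒞(E)) (K := c.Z) fun x hx y hy n n' => by
      have r : ∀ x ∈ c.Q ⊓ 𝒞(E), x ∉ c.Z → ∃ b, x = c.u 1 b := fun x hx n => by
        obtain ⟨a, b, rfl⟩ := c.mem_Q.1 hx.1
        rcases (EZ _).1 (c.u_sq a b ▸ mul_mem hx.2 hx.2) with e | e
        · exact absurd (c.u_mem_Z.2 (N_eq_zero.1 e)) n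
        · exact ⟨b, by rw [N_inj (e.trans N_one.symm)]⟩
      obtain ⟨b, rfl⟩ := r x hx n
      obtain ⟨d, rfl⟩ := r y hy n'
      rw [u_mul, u_mem_Z, CharTwo.add_self_eq_zero]
    have := card_le_of_le (inf_le_inf_left c.Z (inf_le_right : c.Q ⊓ 𝒞(E) ≤ _))
    omega
  have k2 : (X \ {1}).ncard ≤ 4 := by
    rcases (X \ {1}).eq_empty_or_nonempty with e | ⟨o1, ho1⟩
    · simp [e]
    obtain ⟨-, a1, a2, a3, a4⟩ := f o1 ho1
    have g : ∀ o ∈ X \ {1}, ∃ x ∈ c.Q ⊓ 𝒞(E), x * (c.z 1 * o1) * x⁻¹ * (c.z 1 * o) =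
        c.z 1 * o * (x * (c.z 1 * o1) * x⁻¹) := fun o ho => by
      obtain ⟨-, b1, b2, b3, b4⟩ := f o ho
      obtain ⟨x, x1, x2, x3⟩ := regG a1 b1 a2 b2 a3 b3
      refine ⟨x, ⟨x1, mem_cent.2 fun e he => ?_⟩, x2⟩
      rw [← mul_inv_eq_iff_eq_mul]
      refine x3 _ (cm_norm (EQ he) x1) ?_
      have e1 : c.z 1 * o1 = e * (c.z 1 * o1) * e⁻¹ := by
        rw [mem_cent.1 a4 e he, mul_inv_cancel_right]
      have e2 : c.z 1 * o = e * (c.z 1 * o) * e⁻¹ := by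
        rw [mem_cent.1 b4 e he, mul_inv_cancel_right]
      rw [e1, e2]
      calc _ = e * (x * (c.z 1 * o1) * x⁻¹ * (c.z 1 * o)) * e⁻¹ := by group
        _ = _ := by rw [x2]; group
    choose! φ h1 h2 using g
    refine (Set.ncard_le_ncard_of_injOn (t := SetLike.coe (c.Q ⊓ 𝒞(E))) φ h1
      (fun o ho o' ho' e => ?_)).trans k1
    obtain ⟨b0, b1, -⟩ := f o ho
    obtain ⟨d0, d1, -⟩ := f o' ho'
    have r := h2 o' ho'
    rw [← e] at r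
    have := fourG (r := φ o * (c.z 1 * o1) * (φ o)⁻¹)
      (mul_mem (mul_mem (c.Q_le_A (h1 o ho).1) a1) (inv_mem (c.Q_le_A (h1 o ho).1)))
      (mul_mem (inv_mem b1) d1) (fun e => a3 (by
        rw [mul_inv_eq_one, mul_eq_left] at e; exact e ▸ one_mem _)) (Fn.conj2 a2 _)
      (((Commute.inv_right (h2 o ho)).mul_right r).symm)
    rw [mul_inv_rev, mul_assoc, inv_mul_cancel_left] at this
    exact inv_mul_eq_one.1 (odd4 hO (mul_mem (inv_mem b0) d0) this)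
  have := Set.ncard_sdiff_singleton_add_one (s := X) (a := 1) (by simp [hX, O.one_mem, z_sq])
  omega

end Cfsg.Agent.SZS.Ctx
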