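import Cfsg.Agent.SZS.Basic

/-! Standard Suzuki subgroups: the tower of homocyclic groups. -/

set_option autoImplicit false
set_option linter.unusedSectionVars false

namespace Cfsg.Agent.SZS.Ctx

open Subgroup H13 H49

variable {G F : Type*} [Group G] [Finite G] [Field F] [Tits F] [Finite F] {c : Ctx G F}
  {j : ℕ} {Y Y' : Subgroup G} {h : G} {ι : G → F} {s k e : F}

theorem grow (S : c.Step j Y h Y' ι 1 0) (hc : ∀ v ∈ Y', ∀ w ∈ Y', v * w = w * v)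
    (hi : ∀ v ∈ Y', c.t * v * c.t = v⁻¹) : c.St (j + 1) Y' h := by
  have hp : ∀ v ∈ Y', v ^ 2 ^ (j + 1) = c.z (ι v) := fun v hv => by
    rw [pow_succ', pow_mul, sq, S.sq v hv, one_mul]
  refine ⟨S.st.tor, S.hY', S.st.ZY.trans S.le, hc, fun v hv a b => ?_, hi, fun v hv h2 => ?_,
    fun v hv => hp v hv ▸ c.z_mem_Z _, fun v hv h2 => ?_, fun b => ?_⟩
  · have := S.cQ v hv a b
    rw [zero_mul, add_zero, mul_inv_eq_iff_eq_mul] at this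
    exact this.symm
  · have := S.sq v hv
    rw [h2, one_pow, one_mul, eq_comm, z_eq_one, S.ι_ker v hv] at this
    exact S.st.om v this h2
  · rw [hp v hv, z_eq_one, S.ι_ker v hv] at h2
    obtain ⟨b, hb⟩ := c.mem_Z.1 (S.st.pw v h2)
    obtain ⟨w, hw, rfl⟩ := S.ι_sur b
    obtain ⟨y, hy, e⟩ := S.st.eq_mul_sq h2 (S.sqY w (c.le_P _ hw))
      (by rw [hb, S.sq w hw, one_mul])
    refine ⟨w * y, mul_mem hw (S.le hy), ?_⟩
    rw [e, mul_assoc w y, ← mul_assoc y, hc y (S.le hy) w hw]; group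
  · obtain ⟨v, hv, rfl⟩ := S.ι_sur b
    exact ⟨v, hv, hp v hv⟩

theorem grow0 (S : c.Step 0 c.Z h Y' ι 1 0) : c.St 1 Y' h := by
  have hp : ∀ v ∈ Y', v * v = c.z (ι v) := fun v hv => by simpa using S.sq v hv
  refine grow S (fun v hv w hw => ?_) fun v hv => ?_
  · have := hp _ (mul_mem hv hw)
    rw [S.ι_mul v hv w hw, ← z_mul, ← hp v hv, ← hp w hw] at this
    have e : v * (w * v) * w = v * (v * w) * w := by simpa only [mul_assoc] using this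
    exact (mul_left_cancel (mul_right_cancel e)).symm
  · have h1 : v⁻¹ * c.t * v * c.t = v * v := by simpa [hp v hv] using (S.ι_t v hv).2
    have h2 : v * v * (v * v) = 1 := by rw [hp v hv, z_sq]
    calc _ = v * (v⁻¹ * c.t * v * c.t) := by group
      _ = v⁻¹ * (v * v * (v * v)) := by rw [h1]; group
      _ = _ := by rw [h2, mul_one]

namespace Tw

open Classical in
/-- the coordinate on `Z` -/
noncomputable def co (c : Ctx G F) (x : G) : F := if h : ∃ b, x = c.z b then h.choose else 0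

omit [Finite G] [Finite F] in
theorem z_co {x : G} (hx : x ∈ c.Z) : c.z (co c x) = x := by
  have h := c.mem_Z.1 hx
  rw [co, dif_pos h]; exact h.choose_spec.symm

omit [Finite G] [Finite F] in
theorem co_z (b : F) : co c (c.z b) = b := c.z_inj.1 (z_co (c.z_mem_Z b))

omit [Finite G] in
theorem bil (H : c.Tor h) {X1 X2 : Subgroup G} (f1 f2 : G → F) (φ : G → G → G)
    (s1 : ∀ b, ∃ v ∈ X1, f1 v = b) (s2 : ∀ b, ∃ v ∈ X2, f2 v = b)
    (a1 : ∀ v ∈ X1, ∀ w ∈ X1, f1 (v * w) = f1 v + f1 w)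
    (a2 : ∀ v ∈ X2, ∀ w ∈ X2, f2 (v * w) = f2 v + f2 w)
    (hZ : ∀ v ∈ X1, ∀ y ∈ X2, φ v y ∈ c.Z)
    (m1 : ∀ v ∈ X1, ∀ w ∈ X1, ∀ y ∈ X2, φ (v * w) y = φ v y * φ w y)
    (m2 : ∀ v ∈ X1, ∀ y ∈ X2, ∀ w ∈ X2, φ v (y * w) = φ v y * φ v w)
    (k1 : ∀ v ∈ X1, ∀ y ∈ X2, f1 v = 0 → φ v y = 1)
    (k2 : ∀ v ∈ X1, ∀ y ∈ X2, f2 y = 0 → φ v y = 1)
    (n1 : h ∈ 𝒩(X1)) (n2 : h ∈ 𝒩(X2)) (e1 : ∀ v ∈ X1, f1 (h * v * h⁻¹) = N c.l * f1 v)
    (e2 : ∀ v ∈ X2, f2 (h * v * h⁻¹) = N c.l * f2 v)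
    (e3 : ∀ v y, φ (h * v * h⁻¹) (h * y * h⁻¹) = h * φ v y * h⁻¹) :
    ∃ k, ∀ v ∈ X1, ∀ y ∈ X2, φ v y = c.z (k * ψ (ψ (f1 v * f2 y))) := by
  choose A hA eA using s1
  choose B hB eB using s2
  have key : ∀ v ∈ X1, ∀ y ∈ X2, φ v y = φ (A (f1 v)) (B (f2 y)) := fun v hv y hy => by
    have p1 := mul_mem (inv_mem (hA (f1 v))) hv
    have p2 := mul_mem (inv_mem (hB (f2 y))) hy
    have q1 := a1 _ (hA (f1 v)) _ p1
    have q2 := a2 _ (hB (f2 y)) _ p2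
    rw [mul_inv_cancel_left, eA, left_eq_add] at q1
    rw [mul_inv_cancel_left, eB, left_eq_add] at q2
    have r1 := m1 _ (hA (f1 v)) _ p1 y hy
    have r2 := m2 _ (hA (f1 v)) _ (hB (f2 y)) _ p2
    rw [mul_inv_cancel_left, k1 _ p1 y hy q1, mul_one] at r1
    rw [mul_inv_cancel_left, k2 _ (hA _) _ p2 q2, mul_one] at r2
    rw [r1, r2]
  have hz : ∀ a b, c.z (co c (φ (A a) (B b))) = φ (A a) (B b) := fun a b =>
    z_co (hZ _ (hA a) _ (hB b))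
  obtain ⟨k, hk⟩ := wlZ c.par (gen_N c.gen) (fun a b => co c (φ (A a) (B b)))
    (fun a a' b => c.z_inj.1 (by
      rw [← z_mul, hz, hz, hz, ← m1 _ (hA a) _ (hA a') _ (hB b),
        key _ (mul_mem (hA a) (hA a')) _ (hB b), a1 _ (hA a) _ (hA a'), eA, eA, eB]))
    (fun a b b' => c.z_inj.1 (by
      rw [← z_mul, hz, hz, hz, ← m2 _ (hA a) _ (hB b) _ (hB b'),
        key _ (hA a) _ (mul_mem (hB b) (hB b')), a2 _ (hB b) _ (hB b'), eA, eB, eB]))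
    (fun a b => c.z_inj.1 (by
      rw [← H.hz, hz, hz, ← e3, key _ (cm_norm n1 (hA a)) _ (cm_norm n2 (hB b)), e1 _ (hA a),
        e2 _ (hB b), eA, eB]))
  exact ⟨k, fun v hv y hy => by rw [key v hv y hy, ← hz, hk]⟩

omit [Finite G] in
theorem cY (S : c.Step j Y h Y' ι s k) {v y : G} (hv : v ∈ Y') (hy : y ∈ Y) :
    v * y * v⁻¹ * y⁻¹ ∈ Y := S.comm_mem (c.le_P _ hv) (c.le_P _ (S.le hy))

omit [Finite G] in
theorem vY (S : c.Step j Y h Y' ι s k) {v y : G} (hv : v ∈ Y') (hy : y ∈ Y) :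
    v * y * v⁻¹ ∈ Y := cm_norm (S.nY (c.le_P _ hv)) hy

omit [Finite G] in
theorem c_mul (S : c.Step j Y h Y' ι s k) {v y w : G} (hv : v ∈ Y') (hy : y ∈ Y) (hw : w ∈ Y) :
    v * (y * w) * v⁻¹ * (y * w)⁻¹ = v * y * v⁻¹ * y⁻¹ * (v * w * v⁻¹ * w⁻¹) := by
  rw [mul_assoc _ y⁻¹, S.st.comm _ (inv_mem hy) _ (cY S hv hw)]; group

omit [Finite G] [Finite F] in
theorem z_π (S : c.St j Y h) {y : G} (hy : y ∈ Y) : c.z (co c (y ^ 2 ^ j)) = y ^ 2 ^ j :=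
  z_co (S.pw y hy)

omit [Finite G] in
theorem lemB (S : c.Step j Y h Y' ι s k) {n : ℕ}
    (H : ∀ v ∈ Y', ∀ y ∈ Y, (v * y * v⁻¹ * y⁻¹) ^ 2 ^ (n + 1) = 1) : ∃ k, ∀ v ∈ Y', ∀ y ∈ Y,
      (v * y * v⁻¹ * y⁻¹) ^ 2 ^ n = c.z (k * ψ (ψ (ι v * co c (y ^ 2 ^ j)))) := by
  have H2 : ∀ v ∈ Y', ∀ y ∈ Y,
      (v * y * v⁻¹ * y⁻¹) ^ 2 ^ n * (v * y * v⁻¹ * y⁻¹) ^ 2 ^ n = 1 := fun v hv y hy => by
    rw [← H v hv y hy, pow_succ, pow_mul, sq]
  have hZ : ∀ v ∈ Y', ∀ y ∈ Y, (v * y * v⁻¹ * y⁻¹) ^ 2 ^ n ∈ c.Z := fun v hv y hy =>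
    S.st.om _ (pow_mem (cY S hv hy) _) (H2 v hv y hy)
  have m2 : ∀ v ∈ Y', ∀ y ∈ Y, ∀ w ∈ Y, (v * (y * w) * v⁻¹ * (y * w)⁻¹) ^ 2 ^ n =
      (v * y * v⁻¹ * y⁻¹) ^ 2 ^ n * (v * w * v⁻¹ * w⁻¹) ^ 2 ^ n := fun v hv y hy w hw => by
    rw [c_mul S hv hy hw, S.st.mul_pow (cY S hv hy) (cY S hv hw)]
  refine bil S.st.tor ι (fun y => co c (y ^ 2 ^ j)) (fun v y => (v * y * v⁻¹ * y⁻¹) ^ 2 ^ n)
    S.ι_sur (fun b => ?_) S.ι_mul (fun y hy w hw => c.z_inj.1 ?_) hZ (fun v hv w hw y hy => ?_) m2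
    (fun v hv y hy e => ?_) (fun v hv y hy e => ?_) S.hY' S.st.hY S.ι_h
    (fun y hy => c.z_inj.1 ?_) fun v y => ?_
  · obtain ⟨y, hy, e⟩ := S.st.sur b
    exact ⟨y, hy, by rw [e, co_z]⟩
  · rw [← z_mul, z_π S.st hy, z_π S.st hw, z_π S.st (mul_mem hy hw), S.st.mul_pow hy hw]
  · obtain ⟨b, hb⟩ := c.mem_Z.1 (hZ w hw y hy)
    have e : v * w * y * (v * w)⁻¹ * y⁻¹ =
        v * (w * y * w⁻¹ * y⁻¹) * v⁻¹ * (v * y * v⁻¹ * y⁻¹) := by group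
    rw [e, S.st.comm _ (vY S hv (cY S hw hy)) _ (cY S hv hy),
      S.st.mul_pow (cY S hv hy) (vY S hv (cY S hw hy)), conj_pow, hb, S.cZ v hv,
      mul_inv_cancel_right]
  · rw [S.st.comm v ((S.ι_ker v hv).1 e) y hy]; simp
  · obtain ⟨w, hw, rfl⟩ := S.st.ker y hy (by rw [← z_π S.st hy, e, z_zero])
    rw [m2 v hv w hw w hw, H2 v hv w hw]
  · rw [← S.st.tor.hz, z_π S.st hy, z_π S.st (cm_norm S.st.hY hy), conj_pow]
  · rw [← conj_pow]; congr 1; group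

omit [Finite G] in
/-- the relation coming from the action of `t` on `v²` -/
theorem rel (S : c.Step j Y h Y' ι s k) {v a : G} (hv : v ∈ Y') (ha : a = v⁻¹ * c.t * v * c.t) :
    v * v * (v * v) * (v⁻¹ * a * v⁻¹⁻¹ * a⁻¹) * (a * a) = 1 := by
  have h1 := S.st.inv _ (S.sqY v (c.le_P _ hv))
  calc _ = v * v * (v * a * (v * a)) := by group
    _ = v * v * (c.t * v * (c.t * (c.t * (v * c.t)))) := by rw [ha]; group
    _ = v * v * (c.t * (v * v) * c.t) := by rw [c.tt']; group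
    _ = 1 := by rw [h1, mul_inv_cancel]

omit [Finite G] [Finite F] in
theorem pow_of_sq {x : G} (hx : x * x = 1) {n : ℕ} (hn : 1 ≤ n) : x ^ 2 ^ n = 1 := by
  obtain ⟨i, rfl⟩ := Nat.exists_eq_add_of_le' hn
  rw [pow_succ', pow_mul, sq, hx, one_pow]

end Tw

open Tw

theorem tower_one (hj : 1 ≤ j) (S : c.Step j Y h Y' ι s k) (hs : s ≠ 0) :
    s = 1 ∧ (∀ v ∈ Y', ∀ w ∈ Y', v * w = w * v) ∧
      ∃ e, ∀ v ∈ Y', c.t * v * c.t * v = c.z (e * ι v) := by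
  obtain ⟨v1, hv1, e1⟩ := S.ι_sur 1
  have hq : ∀ v ∈ Y', v * v ∈ Y := fun v hv => S.sqY v (c.le_P _ hv)
  have down : ∀ n, (∀ v ∈ Y', ∀ y ∈ Y, (v * y * v⁻¹ * y⁻¹) ^ 2 ^ n = 1) →
      ∀ v ∈ Y', ∀ y ∈ Y, v * y = y * v := by
    intro n
    induction n with
    | zero => intro H v hv y hy; simpa [mul_inv_eq_iff_eq_mul] using H v hv y hy
    | succ n ih =>
      intro H
      obtain ⟨k, hk⟩ := lemB S H
      have := hk v1 hv1 _ (hq v1 hv1)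
      rw [S.sq v1 hv1, co_z, e1, show v1 * (v1 * v1) * v1⁻¹ * (v1 * v1)⁻¹ = 1 by group, one_pow,
        eq_comm, z_eq_one] at this
      obtain rfl : k = 0 := by simpa [hs] using this
      exact ih fun v hv y hy => by rw [hk v hv y hy, zero_mul, z_zero]
  have cy := down _ fun v hv y hy => S.st.pow (cY S hv hy)
  have r : ∀ v ∈ Y', v * v * (v⁻¹ * c.t * v * c.t) * (v * v * (v⁻¹ * c.t * v * c.t)) = 1 := by
    intro v hv
    obtain ⟨a, ha⟩ : ∃ a, a = v⁻¹ * c.t * v * c.t := ⟨_, rfl⟩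
    have hY : a ∈ Y := ha ▸ (S.ι_t v hv).1
    rw [← rel S hv ha, ← ha, cy _ (inv_mem hv) a hY, mul_assoc _ a, ← mul_assoc a,
      S.st.comm a hY _ (hq v hv)]
    group
  have cc : ∀ v ∈ Y', ∀ w ∈ Y', v * w = w * v := by
    have hm : ∀ v ∈ Y', ∀ w ∈ Y', v * w * v⁻¹ * w⁻¹ ∈ Y := fun v hv w hw =>
      S.comm_mem (c.le_P _ hv) (c.le_P _ hw)
    have m1 : ∀ v ∈ Y', ∀ w ∈ Y', ∀ y ∈ Y', v * w * y * (v * w)⁻¹ * y⁻¹ =
        v * y * v⁻¹ * y⁻¹ * (w * y * w⁻¹ * y⁻¹) := fun v hv w hw y hy => by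
      rw [S.st.comm _ (hm v hv y hy) _ (hm w hw y hy)]
      calc _ = v * (w * y * w⁻¹ * y⁻¹) * (y * v⁻¹ * y⁻¹) := by group
        _ = _ := by rw [cy v hv _ (hm w hw y hy)]; group
    obtain ⟨k, hk⟩ := bil S.st.tor ι ι (fun v y => v * y * v⁻¹ * y⁻¹) S.ι_sur S.ι_sur S.ι_mul
      S.ι_mul (fun v hv y hy => S.st.om _ (hm v hv y hy) (by
        rw [← m1 v hv v hv y hy, ← cy y hy _ (hq v hv)]; group)) m1
      (fun v hv y hy w hw => by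
        rw [mul_assoc _ y⁻¹, cy _ (inv_mem hy) _ (hm v hv w hw)]; group)
      (fun v hv y hy e => by rw [← cy y hy v ((S.ι_ker v hv).1 e)]; group)
      (fun v hv y hy e => by rw [cy v hv y ((S.ι_ker y hy).1 e)]; group)
      S.hY' S.hY' S.ι_h S.ι_h fun v y => by group
    have := hk v1 hv1 v1 hv1
    rw [e1, show v1 * v1 * v1⁻¹ * v1⁻¹ = 1 by group, eq_comm, z_eq_one] at this
    obtain rfl : k = 0 := by simpa using this
    intro v hv w hw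
    simpa [mul_inv_eq_iff_eq_mul] using hk v hv w hw
  refine ⟨?_, cc, ?_⟩
  · have := pow_of_sq (r v1 hv1) hj
    rw [S.st.mul_pow (hq v1 hv1) (S.ι_t v1 hv1).1, S.sq v1 hv1, (S.ι_t v1 hv1).2, z_mul, z_eq_one,
      e1] at this
    grind
  have ht : ∀ v ∈ Y', c.t * v * c.t ∈ Y' := fun v hv => by
    simpa [mul_assoc] using mul_mem hv (S.le (S.ι_t v hv).1)
  have hZ : ∀ v ∈ Y', c.t * v * c.t * v ∈ c.Z := fun v hv => by
    have e : c.t * v * c.t * v = v * v * (v⁻¹ * c.t * v * c.t) := by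
      rw [cc _ (ht v hv) v hv]; group
    rw [e]
    exact S.st.om _ (mul_mem (hq v hv) (S.ι_t v hv).1) (r v hv)
  have hm : ∀ v ∈ Y', ∀ w ∈ Y', c.t * (v * w) * c.t * (v * w) =
      c.t * v * c.t * v * (c.t * w * c.t * w) := fun v hv w hw => by
    rw [mul_assoc _ v (_ * w), ← mul_assoc v (c.t * w * c.t), ← cc _ (ht w hw) v hv]
    simp only [mul_assoc, tt']
  choose A hA eA using S.ι_sur
  have key : ∀ v ∈ Y', c.t * v * c.t * v = c.t * A (ι v) * c.t * A (ι v) := fun v hv => by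
    have p1 := mul_mem (inv_mem (hA (ι v))) hv
    have q1 := S.ι_mul _ (hA (ι v)) _ p1
    rw [mul_inv_cancel_left, eA, left_eq_add, S.ι_ker _ p1] at q1
    have r1 := hm _ (hA (ι v)) _ p1
    rwa [mul_inv_cancel_left, S.st.inv _ q1, inv_mul_cancel, mul_one] at r1
  obtain ⟨e, he⟩ := eqv (gen_N c.gen) (fun b => co c (c.t * A b * c.t * A b))
    (c.z_inj.1 (by
      rw [z_co (hZ _ (hA 0)), S.st.inv _ ((S.ι_ker _ (hA 0)).1 (eA 0)), inv_mul_cancel, z_zero]))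
    fun b => c.z_inj.1 (by
      have := key _ (cm_norm S.hY' (hA b))
      rw [S.ι_h _ (hA b), eA] at this
      have h1 : h * c.t * h⁻¹ = c.t := by rw [S.st.tor.ht, mul_inv_cancel_right]
      rw [← S.st.tor.hz, z_co (hZ _ (hA _)), z_co (hZ _ (hA _)), ← this]
      conv_lhs => rw [← h1]
      group)
  exact ⟨e, fun v hv => by rw [key v hv, ← he, z_co (hZ _ (hA _))]⟩

theorem tower_zero (hj : 1 ≤ j) (S : c.Step j Y h Y' ι 0 k) :
    j = 1 ∧ ∀ v ∈ Y', ∀ y ∈ Y, ∀ b, y * y = c.z b →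
      v * y * v⁻¹ * y⁻¹ = c.z (ψ (ψ (ι v * b))) := by
  obtain ⟨n, rfl⟩ := Nat.exists_eq_add_of_le' hj
  obtain ⟨v, hv, e1⟩ := S.ι_sur 1
  have hq : v * v ∈ Y := S.sqY v (c.le_P _ hv)
  have p2 : ∀ x : G, (x * x) ^ 2 ^ n = x ^ 2 ^ (n + 1) := fun x => by rw [pow_succ', pow_mul, sq]
  have H : ∀ v ∈ Y', ∀ y ∈ Y, (v * y * v⁻¹ * y⁻¹) ^ 2 ^ (n + 1) = 1 := fun v hv y hy => by
    rw [S.st.mul_pow (vY S hv hy) (inv_mem hy), conj_pow, inv_pow, ← z_π S.st hy, S.cZ v hv]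
    group
  obtain ⟨k, hk⟩ := lemB S H
  obtain rfl : k = 1 := by
    obtain ⟨h1, h2⟩ := S.ι_t v hv
    have := congrArg (· ^ 2 ^ n) (rel S hv rfl)
    simp only [one_pow] at this
    rw [S.st.mul_pow (mul_mem (mul_mem hq hq) (cY S (inv_mem hv) h1)) (mul_mem h1 h1),
      S.st.mul_pow (mul_mem hq hq) (cY S (inv_mem hv) h1), p2, p2, S.sq v hv,
      hk _ (inv_mem hv) _ h1, h2, co_z, S.ι_inv hv, e1, z_mul, z_mul, z_eq_one] at this
    simp only [mul_one, map_one, zero_add] at this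
    grind
  obtain rfl : n = 0 := by
    by_contra hn
    obtain ⟨y, hy, ey⟩ := S.st.sur c.l
    obtain ⟨w, hw, ew⟩ := S.st.ker _ (cY S hv hy) (H v hv y hy)
    have a1 : v * (y * w) * v⁻¹ * (y * w)⁻¹ * (v * (y * w) * v⁻¹ * (y * w)⁻¹) = 1 := by
      have b1 : v * (v * y * v⁻¹ * y⁻¹) * v⁻¹ * (v * y * v⁻¹ * y⁻¹) = 1 := by
        calc _ = v * v * y * (v * v)⁻¹ * y⁻¹ := by group
          _ = 1 := by rw [S.st.comm _ hq y hy]; group
      have b2 := c_mul S hv hw hw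
      rw [← ew] at b2
      rw [c_mul S hv hy hw, ← sq, S.st.mul_pow (cY S hv hy) (cY S hv hw), sq, sq, ← b2,
        S.st.comm _ (mul_mem (cY S hv hy) (cY S hv hy)) _ (cY S hv (cY S hv hy)), ← b1]
      group
    have a2 := hk v hv _ (mul_mem hy hw)
    have a3 := hk v hv y hy
    rw [ew, p2, ey, co_z] at a3
    rw [pow_of_sq a1 (by omega), S.st.mul_pow hy hw, ey, a3, z_mul, co_z, e1, eq_comm,
      z_eq_one] at a2
    simp only [one_mul, ψ_eq_zero] at a2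
    have a4 : c.l = ψ (ψ c.l) := by grind
    have a5 := congrArg (fun x => θ (θ x)) a4
    simp only [θ_ψ, θθ] at a5
    exact c.l_ne.2 (mul_left_cancel₀ c.l_ne.1 (by rw [← sq, a5, mul_one]))
  refine ⟨rfl, fun v hv y hy b hb => ?_⟩
  have := hk v hv y hy
  rwa [← p2, hb, pow_zero, pow_one, pow_one, co_z, one_mul] at this

end Cfsg.Agent.SZS.Ctx
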